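/- the graph symmetries of D4 -/
import Cfsg.Agent.Chev.TabMap
import Cfsg.Agent.Chev.TabD4

set_option autoImplicit false

namespace CA.Chev
open Cfsg.Lie Cfsg.Lie.ChevalleyDatum

/-- root map triD4 -/
def triD4 : RMap chevD4 chevD4 0 := .ofCheck agreesD4 agreesD4 0
  0x17161115100d140f130e0c12050b090408030a0702060100
  0x1010101000000101010100
  0x111111111111111111111111 (by decide +kernel)

/-- root map triD4' -/
def triD4' : RMap chevD4 chevD4 0 := .ofCheck agreesD4 agreesD4 0
  0x171614110f0c1513100e120d0a05090704020b0806030100
  0x110110000000011011000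
  0x111111111111111111111111 (by decide +kernel)

/-- root map swD4 -/
def swD4 : RMap chevD4 chevD4 0 := .ofCheck agreesD4 agreesD4 0
  0x171614151312110f100e0c0d0a0b09070806050402030100
  0x0
  0x111111111111111111111111 (by decide +kernel)

end CA.Chev
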