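/- the graph symmetry of E6 -/
import Cfsg.Agent.Chev.TabMap
import Cfsg.Agent.Chev.TabE6

set_option autoImplicit false

namespace CA.Chev
open Cfsg.Lie Cfsg.Lie.ChevalleyDatum

/-- root map grE6 -/
def grE6 : RMap chevE6 chevE6 0 := .ofCheck agreesE6 agreesE6 0
  0x47464542374441363f34313c2d2926244340353e33303d322f2e3b2c28253a2b27392a380f1d0e201c0d221f1b0c1918150a17140912070423211e1a0b1613081106031005020100
  0x10010110101011010010001010010100001010010100010010110101011010010000
  0x111111111111111111111111111111111111111111111111111111111111111111111111 (by decide +kernel)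

end CA.Chev
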