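/- the exceptional graph symmetries of B2, F4, G2 -/
import Cfsg.Agent.Chev.TabMap
import Cfsg.Agent.Chev.TabB2
import Cfsg.Agent.Chev.TabF4
import Cfsg.Agent.Chev.TabG2

set_option autoImplicit false

namespace CA.Chev
open Cfsg.Lie Cfsg.Lie.ChevalleyDatum

/-- root map exB2 -/
def exB2 : RMap chevB2 chevB2 2 := .ofCheck agreesB2 agreesB2 2
  0x607040502030001
  0x0
  0x12211221 (by decide +kernel)

/-- root map exF4 -/
def exF4 : RMap chevF4 chevF4 2 := .ofCheck agreesF4 agreesF4 2
  0x2c28272f26241d2e2d2b202a1f1a1825231c291e19221b210e140d161106130c0a171510050f040201120b0900080703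
  0x0
  0x111211122222222111222111111222111222222221112111 (by decide +kernel)

/-- root map exG2 -/
def exG2 : RMap chevG2 chevG2 3 := .ofCheck agreesG2 agreesG2 3
  0x9080b0a0607040501000302
  0x0
  0x113331133311 (by decide +kernel)

end CA.Chev
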