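/- the graph automorphisms of E6, D4 and the exceptional graph automorphisms of B2, F4, G2 -/
import Cfsg.Agent.Chev.StInst
import Cfsg.Agent.Chev.MapE6
import Cfsg.Agent.Chev.MapD4
import Cfsg.Agent.Chev.MapEx

set_option autoImplicit false

namespace CA.Chev
open Cfsg.Lie Cfsg.Lie.ChevalleyDatum

variable {K : Type*} [Field K]

section
variable {D : ChevalleyDatum} [RootGood D] [LieGood D] {p : ℕ} (φ : RMap D D p) (hp : (p : K) = 0)

lemma RMap.bijective_two (σ : K ≃+* K) {q : ℕ} (hσ : ∀ t, σ t = t ^ q)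
    (h : ∀ r : Rt D, φ.ι (φ.ι r) = r ∧ φ.γ (φ.ι r) * φ.γ r ^ φ.e (φ.ι r) = 1 ∧ φ.e r * φ.e (φ.ι r) = q) :
    Function.Bijective (φ.lift hp (stSt D K)) := by
  refine bijective_of_iterate _ two_ne_zero σ fun r t => ?_
  have h1 : φ.rt (φ.rt r) = r := Fin.ext (h r).1
  have h2 := congrArg (Int.cast : ℤ → K) (h r).2.1
  push_cast at h2
  simp only [Function.iterate_succ, Function.iterate_zero, Function.comp_apply, RMap.lift_xS, stSt_x, id, h1,
    RMap.rt_val, mul_pow, ← mul_assoc, h2, one_mul, ← pow_mul, (h r).2.2, hσ]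

lemma RMap.bijective_three
    (h : ∀ r : Rt D, φ.ι (φ.ι (φ.ι r)) = r ∧ φ.γ (φ.ι (φ.ι r)) * φ.γ (φ.ι r) * φ.γ r = 1 ∧ φ.e r = 1) :
    Function.Bijective (φ.lift hp (stSt D K)) := by
  refine bijective_of_iterate _ three_ne_zero (RingEquiv.refl K) fun r t => ?_
  have h1 : φ.rt (φ.rt (φ.rt r)) = r := Fin.ext (h r).1
  have h2 := congrArg (Int.cast : ℤ → K) (h r).2.1
  push_cast at h2
  simp only [Function.iterate_succ, Function.iterate_zero, Function.comp_apply, RMap.lift_xS, stSt_x, id, h1,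
    (h _).2.2, pow_one]
  simp only [RMap.rt_val, ← mul_assoc, h2, one_mul, RingEquiv.refl_apply]

end

theorem grE6_bij : Function.Bijective (grE6.lift Nat.cast_zero (stSt chevE6 K)) :=
  grE6.bijective_two _ (RingEquiv.refl K) (q := 1) (by simp) (by decide +kernel)

theorem swD4_bij : Function.Bijective (swD4.lift Nat.cast_zero (stSt chevD4 K)) :=
  swD4.bijective_two _ (RingEquiv.refl K) (q := 1) (by simp) (by decide +kernel)

theorem triD4_bij : Function.Bijective (triD4.lift Nat.cast_zero (stSt chevD4 K)) :=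
  triD4.bijective_three _ (by decide +kernel)

theorem triD4'_bij : Function.Bijective (triD4'.lift Nat.cast_zero (stSt chevD4 K)) :=
  triD4'.bijective_three _ (by decide +kernel)

/-- the Frobenius automorphism of a perfect field -/
lemma exists_frob (p : ℕ) [Fact p.Prime] [CharP K p] (h : ∀ x : K, ∃ y : K, y ^ p = x) :
    ∃ σ : K ≃+* K, ∀ t, σ t = t ^ p :=
  ⟨RingEquiv.ofBijective (frobenius K p) ⟨frobenius_inj K p, h⟩, fun _ => rfl⟩

theorem exB2_bij [CharP K 2] (h : ∀ x : K, ∃ y : K, y ^ 2 = x) :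
    Function.Bijective (exB2.lift (CharP.cast_eq_zero K 2) (stSt chevB2 K)) := by
  obtain ⟨σ, hσ⟩ := exists_frob 2 h
  exact exB2.bijective_two _ σ hσ (by decide +kernel)

theorem exF4_bij [CharP K 2] (h : ∀ x : K, ∃ y : K, y ^ 2 = x) :
    Function.Bijective (exF4.lift (CharP.cast_eq_zero K 2) (stSt chevF4 K)) := by
  obtain ⟨σ, hσ⟩ := exists_frob 2 h
  exact exF4.bijective_two _ σ hσ (by decide +kernel)

theorem exG2_bij [CharP K 3] (h : ∀ x : K, ∃ y : K, y ^ 3 = x) :
    Function.Bijective (exG2.lift (CharP.cast_eq_zero K 3) (stSt chevG2 K)) := by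
  obtain ⟨σ, hσ⟩ := exists_frob 3 h
  exact exG2.bijective_two _ σ hσ (by decide +kernel)

/-- the form of the graph automorphisms used in the statements -/
theorem RMap.exists_aut' {D : ChevalleyDatum} [RootGood D] [LieGood D] [StGood D] {M : CoxeterMatrix (Nd D)}
    (hA : CoxFor D M) {p : ℕ} (φ : RMap D D p) (hp : (p : K) = 0) (hb : Function.Bijective (φ.lift hp (stSt D K))) :
    ∃ β : D.group K ≃* D.group K, ∀ (g : D.group K) (r s e : ℕ) (t : K),
      r < D.nroots ∧ φ.ι r = s ∧ φ.γ r = 1 ∧ φ.e r = e →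
      ((g : GL D.Idx K) : Matrix D.Idx D.Idx K) = D.x K r t →
      ((β g : GL D.Idx K) : Matrix D.Idx D.Idx K) = D.x K s (t ^ e) := by
  obtain ⟨-, β, -, h, -⟩ := φ.exists_aut hA hp hb (RingEquiv.refl K)
  refine ⟨β, ?_⟩
  rintro g r _ _ t ⟨hr, rfl, h1, rfl⟩ hg
  lift r to Rt D using hr
  rw [eq_xG_iff.1 hg, h, h1, ← φ.rt_val, eq_xG_iff]
  simp

end CA.Chev
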