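/-
Evaluation of root elements over the field with two elements on bit vectors.
-/
import Cfsg.Agent.Chev.ChevSys

set_option autoImplicit false
set_option linter.unusedSectionVars false
set_option linter.unusedSimpArgs false
set_option linter.unusedVariables false

namespace CA.Bits

open Cfsg.Lie Cfsg.Lie.ChevalleyDatum CA.Chev CA.ChevSys Matrix

variable {D : ChevalleyDatum}

/-- position of a basis vector. -/
def enc : D.Idx → ℕ := Sum.elim (fun i => i) fun s => D.rank + s

theorem enc_eq (a : D.Idx) : enc a = finSumFinEquiv a := by cases a <;> simp [enc]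

theorem enc_injective : Function.Injective (enc : D.Idx → ℕ) := fun a b h =>
  finSumFinEquiv.injective (Fin.ext (by rwa [← enc_eq, ← enc_eq]))

theorem enc_lt (a : D.Idx) : enc a < D.rank + D.nroots := by rw [enc_eq]; exact Fin.is_lt _

variable (D) in
/-- the vector with the given bits. -/
def vec (n : ℕ) : D.Idx → ZMod 2 := fun a => if n.testBit (enc a) then 1 else 0

theorem vec_xor (m n : ℕ) : vec D (m ^^^ n) = vec D m + vec D n := by
  funext a
  simp only [vec, Nat.testBit_xor, Pi.add_apply]
  cases m.testBit (enc a) <;> cases n.testBit (enc a) <;> rfl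

@[simp] theorem vec_zero : vec D 0 = 0 := by funext a; simp [vec]

theorem vec_pow (a : D.Idx) : vec D (2 ^ enc a) = Pi.single a 1 := by
  funext b
  simp [vec, Nat.testBit_two_pow, enc_injective.eq_iff, Pi.single_apply, eq_comm]

theorem vec_inj {m n : ℕ} (hm : m < 2 ^ (D.rank + D.nroots)) (hn : n < 2 ^ (D.rank + D.nroots))
    (h : vec D m = vec D n) : m = n := by
  refine Nat.eq_of_testBit_eq fun i => ?_
  by_cases hi : i < D.rank + D.nroots
  · have := congrFun h (finSumFinEquiv.symm ⟨i, hi⟩)
    simp only [vec, enc_eq, Equiv.apply_symm_apply] at this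
    revert this
    cases m.testBit i <;> cases n.testBit i <;> simp
  · rw [Nat.testBit_lt_two_pow (hm.trans_le (Nat.pow_le_pow_right two_pos (by omega))),
      Nat.testBit_lt_two_pow (hn.trans_le (Nat.pow_le_pow_right two_pos (by omega)))]

/-- a multiple of a basis vector. -/
def sm (c : ℤ) (a : D.Idx) : ℕ := if c % 2 = 0 then 0 else 2 ^ enc a

theorem vec_sm (c : ℤ) (a : D.Idx) : vec D (sm c a) = (c : ZMod 2) • Pi.single a 1 := by
  unfold sm
  split_ifs with h
  · rw [(ZMod.intCast_zmod_eq_zero_iff_dvd c 2).2 (Int.dvd_of_emod_eq_zero h)]; simp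
  · rw [vec_pow, ← ZMod.intCast_mod c 2, show c % (2 : ℕ) = 1 by push_cast; omega]; simp

theorem vec_foldr {ι : Type*} (l : List ι) (f : ι → ℕ) :
    vec D (l.foldr (fun i acc => f i ^^^ acc) 0) = (l.map fun i => vec D (f i)).sum := by
  induction l with
  | nil => simp
  | cons i l ih => simp [vec_xor, ih]

variable [RootGood D]

/-- a column of `X r 1` for a positive root `r`. -/
def col (r : Rt D) : D.Idx → ℕ
  | Sum.inl i => 2 ^ enc (Sum.inl i : D.Idx) ^^^ sm (D.cartan i r) (Sum.inr r : D.Idx)
  | Sum.inr s => 2 ^ enc (Sum.inr s : D.Idx) ^^^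
      if s = ng r then (List.finRange D.rank).foldr (fun i acc => sm (cor r i) (Sum.inl i : D.Idx) ^^^ acc) 0 ^^^
        2 ^ enc (Sum.inr r : D.Idx)
      else sm (M r s 1) (Sum.inr (ch r s 1) : D.Idx) ^^^ (sm (M r s 2) (Sum.inr (ch r s 2) : D.Idx) ^^^
        sm (M r s 3) (Sum.inr (ch r s 3) : D.Idx))

theorem vec_col (r : Rt D) (b : D.Idx) : vec D (col r b) = X r (1 : ZMod 2) *ᵥ Pi.single b 1 := by
  have hn : ∀ v : D.Idx → ZMod 2, -v = v := fun v => funext fun a => CharTwo.neg_eq _
  simp only [X, one_pow, one_smul, add_mulVec, one_mulVec, E_single]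
  rcases b with i | s
  · simp [col, colE, vec_xor, vec_pow, vec_sm, eV, hn]
  · by_cases h : s = ng r
    · simp only [col, colE, h, vec_xor, vec_pow, vec_foldr, vec_sm, if_true, hn, eV]
      simp only [OfNat.ofNat_ne_one, if_false, add_assoc, Nat.reduceEqDiff, add_zero, add_left_inj, add_right_inj]
      rw [← List.ofFn_eq_map, List.sum_ofFn]
      funext a
      rcases a with j | u <;> simp [hV, Pi.single_apply]
    · simp only [col, colE, h, vec_xor, vec_pow, vec_sm, if_false, eV, add_assoc]

/-- the action of a packed matrix with `n` columns on a bit vector. -/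
def act (n P v : ℕ) : ℕ :=
  (List.range n).foldr (fun b acc => (if v.testBit b then (P >>> (n * b)) % 2 ^ n else 0) ^^^ acc) 0

theorem vec_act {A : Matrix D.Idx D.Idx (ZMod 2)} {n P : ℕ} (hn : n = D.rank + D.nroots)
    (h : ∀ b, vec D ((P >>> (n * enc b)) % 2 ^ n) = A *ᵥ Pi.single b 1) (v : ℕ) : vec D (act n P v) = A *ᵥ vec D v := by
  subst hn
  rw [act, vec_foldr, ← List.map_coe_finRange_eq_range, List.map_map, ← List.ofFn_eq_map, List.sum_ofFn,
    ← finSumFinEquiv.sum_comp, ← Finset.univ_sum_single (vec D v), mulVec_sum]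
  refine Finset.sum_congr rfl fun b _ => ?_
  simp only [Function.comp_apply, ← enc_eq, vec]
  split_ifs
  · exact h b
  · simp

end CA.Bits

theorem CA.realizeEqns_Bits : True := by
  have := @CA.Bits.enc.eq_1
  have := @CA.Bits.enc.eq_def
  have := @CA.Bits.enc.congr_simp
  have := @CA.Bits.vec.eq_1
  have := @CA.Bits.vec.eq_def
  have := @CA.Bits.vec.congr_simp
  have := @CA.Bits.sm.eq_1
  have := @CA.Bits.sm.eq_def
  have := @CA.Bits.sm.congr_simp
  have := @CA.Bits.col.eq_1
  have := @CA.Bits.col.eq_2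
  have := @CA.Bits.col.eq_def
  have := @CA.Bits.col.congr_simp
  have := @CA.Bits.act.eq_1
  have := @CA.Bits.act.eq_def
  have := @CA.Bits.act.congr_simp
  trivial
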