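/-
Cubic forms given by lists of signed triples; a certificate that the isometry group is generated by root elements.
-/
import Cfsg.Agent.EqAll

set_option autoImplicit false

namespace CA.Chev.Cubic
open Matrix

variable {ι : Type} {F : Type*} [Field F]

/-- signed triples -/
abbrev Tri (ι : Type) : Type := ι × ι × ι × ℤ

/-- the cubic form -/
def cub (L : List (Tri ι)) (v : ι → F) : F := (L.map fun τ => (τ.2.2.2 : F) * (v τ.1 * v τ.2.1 * v τ.2.2.1)).sum

/-- the first polar, quadratic in `u` -/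
def cS (L : List (Tri ι)) (u w : ι → F) : F := (L.map fun τ => (τ.2.2.2 : F) *
  (u τ.1 * u τ.2.1 * w τ.2.2.1 + u τ.1 * w τ.2.1 * u τ.2.2.1 + w τ.1 * u τ.2.1 * u τ.2.2.1)).sum

/-- the trilinear form -/
def cB (L : List (Tri ι)) (u v w : ι → F) : F := cS L (u + v) w - cS L u w - cS L v w

variable {L : List (Tri ι)}

lemma cub_add_smul (u w : ι → F) (t : F) :
    cub L (u + t • w) = cub L u + t * cS L u w + t ^ 2 * cS L w u + t ^ 3 * cub L w := by
  induction L with
  | nil => simp [cub, cS]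
  | cons τ L ih =>
    simp only [cub, cS, List.map_cons, List.sum_cons, Pi.add_apply, Pi.smul_apply, smul_eq_mul] at ih ⊢
    rw [ih]; ring

lemma cB_comm (u v w : ι → F) : cB L u v w = cB L u w v := by
  induction L with
  | nil => simp [cB, cS]
  | cons τ L ih =>
    simp only [cB, cS, List.map_cons, List.sum_cons, Pi.add_apply] at ih ⊢
    linear_combination ih

/-- the first polar as a linear form -/
def cSL (L : List (Tri ι)) (u : ι → F) : (ι → F) →ₗ[F] F where
  toFun := cS L u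
  map_add' v w := by
    induction L with
    | nil => simp [cS]
    | cons τ L ih =>
      simp only [cS, List.map_cons, List.sum_cons, Pi.add_apply] at ih ⊢
      linear_combination ih
  map_smul' c w := by
    induction L with
    | nil => simp [cS]
    | cons τ L ih =>
      simp only [cS, List.map_cons, List.sum_cons, Pi.smul_apply, smul_eq_mul, RingHom.id_apply] at ih ⊢
      linear_combination ih

/-! ### invariance under root elements -/

/-- the monomials cancel -/
def Canc (l : List (Tri ι)) : Prop := (∀ τ ∈ l, τ.2.2.2 = 0 ∨ τ.2.2.2 = 1 ∨ τ.2.2.2 = -1) ∧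
  ((l.filter fun τ => τ.2.2.2 = 1).map fun τ => ({τ.1, τ.2.1, τ.2.2.1} : Multiset ι)).Perm
    ((l.filter fun τ => τ.2.2.2 = -1).map fun τ => ({τ.1, τ.2.1, τ.2.2.1} : Multiset ι))

instance [DecidableEq ι] (l : List (Tri ι)) : Decidable (Canc l) := by unfold Canc; infer_instance

lemma Canc.cub_eq {l : List (Tri ι)} (h : Canc l) (v : ι → F) : cub l v = 0 := by
  have h1 := (h.2.map fun m => (m.map v).prod).sum_eq
  rw [← sub_eq_zero] at h1
  rw [← h1]
  have h2 := h.1
  clear h h1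
  induction l with
  | nil => simp [cub]
  | cons τ l ih =>
    have h3 := ih fun τ hτ => h2 τ (List.mem_cons_of_mem _ hτ)
    rcases h2 τ List.mem_cons_self with h | h | h <;> simp [cub, h] at h3 ⊢ <;> linear_combination h3

/-- the root element preserves the form -/
def InvOK (L : List (Tri ι)) (κ : ι → ℤ) (s : ι → ι) : Prop :=
  Canc (L.flatMap fun τ => [(τ.1, τ.2.1, s τ.2.2.1, τ.2.2.2 * κ τ.2.2.1), (τ.1, s τ.2.1, τ.2.2.1, τ.2.2.2 * κ τ.2.1),
    (s τ.1, τ.2.1, τ.2.2.1, τ.2.2.2 * κ τ.1)]) ∧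
  ∀ τ ∈ L, κ τ.1 * κ τ.2.1 = 0 ∧ κ τ.1 * κ τ.2.2.1 = 0 ∧ κ τ.2.1 * κ τ.2.2.1 = 0

instance [DecidableEq ι] (L : List (Tri ι)) (κ : ι → ℤ) (s : ι → ι) : Decidable (InvOK L κ s) := by
  unfold InvOK; infer_instance

lemma InvOK.cub_eq {κ : ι → ℤ} {s : ι → ι} (h : InvOK L κ s) (t : F) (v : ι → F) :
    cub L (fun c => v c + t * κ c * v (s c)) = cub L v := by
  rw [← add_zero (cub L v), ← mul_zero t, ← h.1.cub_eq v]
  have h2 := h.2
  clear h
  induction L with
  | nil => simp [cub]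
  | cons τ L ih =>
    have h3 := ih fun τ hτ => h2 τ (List.mem_cons_of_mem _ hτ)
    obtain ⟨a, b, c, ε⟩ := τ
    obtain ⟨k1, k2, k3⟩ := h2 _ List.mem_cons_self
    replace k1 : (κ a : F) * κ b = 0 := by exact_mod_cast congrArg (Int.cast : ℤ → F) k1
    replace k2 : (κ a : F) * κ c = 0 := by exact_mod_cast congrArg (Int.cast : ℤ → F) k2
    replace k3 : (κ b : F) * κ c = 0 := by exact_mod_cast congrArg (Int.cast : ℤ → F) k3
    simp only [cub, List.map_cons, List.sum_cons, List.flatMap_cons, List.cons_append, List.nil_append] at h3 ⊢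
    push_cast
    linear_combination h3 + ε * t ^ 2 * v (s a) * v (s b) * (v c + t * κ c * v (s c)) * k1 +
      ε * t ^ 2 * v (s a) * v b * v (s c) * k2 + ε * t ^ 2 * v a * v (s b) * v (s c) * k3

/-! ### values on basis vectors -/

variable [DecidableEq ι]

/-- the monomials of the `c`-th coordinate of the adjoint -/
def pairs (L : List (Tri ι)) (c : ι) : List (ℤ × ι × ι) := L.flatMap fun τ =>
  (if c = τ.2.2.1 then [(τ.2.2.2, τ.1, τ.2.1)] else []) ++ (if c = τ.2.1 then [(τ.2.2.2, τ.1, τ.2.2.1)] else []) ++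
    if c = τ.1 then [(τ.2.2.2, τ.2.1, τ.2.2.1)] else []

lemma cS_single (u : ι → F) (c : ι) :
    cS L u (Pi.single c 1) = ((pairs L c).map fun x => (x.1 : F) * (u x.2.1 * u x.2.2)).sum := by
  induction L with
  | nil => simp [cS, pairs]
  | cons τ L ih =>
    simp only [cS, pairs, List.map_cons, List.sum_cons, List.flatMap_cons, List.map_append, List.sum_append] at ih ⊢
    rw [ih]
    simp only [Pi.single_apply, eq_comm (b := c)]
    split_ifs <;> simp <;> ring

/-- the partners of `p` -/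
def sing (l : List (ℤ × ι × ι)) (p : ι) : List (ℤ × ι) := l.flatMap fun x =>
  (if p = x.2.1 then [(x.1, x.2.2)] else []) ++ if p = x.2.2 then [(x.1, x.2.1)] else []

lemma cB_single (p q : ι) (w : ι → F) :
    cB L (Pi.single p 1) (Pi.single q 1) w = ((sing (pairs L q) p).map fun x => (x.1 : F) * w x.2).sum := by
  rw [cB_comm, cB, cS_single, cS_single, cS_single]
  induction pairs L q with
  | nil => simp [sing]
  | cons x l ih =>
    simp only [sing, List.map_cons, List.sum_cons, List.flatMap_cons, List.map_append, List.sum_append] at ih ⊢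
    rw [← ih]
    simp only [Pi.add_apply, Pi.single_apply, eq_comm (b := p)]
    split_ifs <;> simp <;> ring

omit [DecidableEq ι] in
lemma sum_filter_eq {α : Type} (l : List α) (P : α → Bool) (f : α → F) (h : ∀ x, P x = false → f x = 0) :
    ((l.filter P).map f).sum = (l.map f).sum := by
  induction l with
  | nil => rfl
  | cons x l ih => cases hx : P x <;> simp [hx, ih, h]

/-! ### isometries -/

variable [Fintype ι]

lemma cS_map (hF : ∃ c : F, c ≠ 0 ∧ c ≠ 1) {g : Matrix ι ι F} (hg : ∀ v, cub L (g *ᵥ v) = cub L v) (u w : ι → F) :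
    cS L (g *ᵥ u) (g *ᵥ w) = cS L u w := by
  obtain ⟨c, h0, h1⟩ := hF
  have h := fun t : F => hg (u + t • w)
  simp only [mulVec_add, mulVec_smul, cub_add_smul, hg] at h
  have h2 : c * (c - 1) * (cS L (g *ᵥ u) (g *ᵥ w) - cS L u w) = 0 := by linear_combination c ^ 2 * h 1 - h c
  simpa [h0, h1, sub_eq_zero] using h2

lemma cB_map (hF : ∃ c : F, c ≠ 0 ∧ c ≠ 1) {g : Matrix ι ι F} (hg : ∀ v, cub L (g *ᵥ v) = cub L v) (u v w : ι → F) :
    cB L (g *ᵥ u) (g *ᵥ v) (g *ᵥ w) = cB L u v w := by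
  rw [cB, ← mulVec_add, cS_map hF hg, cS_map hF hg, cS_map hF hg, cB]

lemma cB_eq_sum (u v w : ι → F) : cB L u v w = ∑ c, w c * cB L u v (Pi.single c 1) := by
  have := LinearMap.pi_apply_eq_sum_univ (cSL L (u + v) - cSL L u - cSL L v) w
  refine this.trans (Finset.sum_congr rfl fun c _ => ?_)
  rw [smul_eq_mul, show (fun j => if c = j then (1 : F) else 0) = Pi.single c 1 from
    funext fun j => by simp [Pi.single_apply, eq_comm]]
  rfl

/-- the combinatorial data -/
structure Data (ι R : Type) where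
  L : List (Tri ι)
  tri : ι → ι → Bool
  th : ι → ι → ι
  eps : ι → ι → ℤ
  κ : R → ι → ℤ
  s : R → ι → ι
  fx : R → ι → Bool
  ro : ι → ι → R
  pos : ι → ℕ
  ord : ℕ → ι
  mv : ℕ → List (R × ι)

namespace Data
variable {R : Type} (C : Data ι R)

/-- global table facts -/
structure Good : Prop where
  sing_eq : ∀ q p, sing (pairs C.L q) p = if C.tri p q then [(C.eps p q, C.th p q)] else []
  th_th : ∀ p b, C.tri p b = true → C.eps p b * C.eps p b = 1 ∧ C.tri p (C.th p b) = true ∧ C.th p (C.th p b) = b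
  white : ∀ a c, C.tri a c = true → (pairs C.L (C.th a c)).filter
    (fun x => (x.2.1 = a || C.tri a x.2.1) && (x.2.2 = a || C.tri a x.2.2)) ∈ [[(C.eps a c, a, c)], [(C.eps a c, c, a)]]
  tri_self : ∀ a, C.tri a a = false
  fx_eq : ∀ r c, C.κ r c = 0 ∨ C.fx r (C.s r c) = false
  ro_spec : ∀ a b, b = a ∨ C.tri a b = true ∨ C.s (C.ro a b) b = a ∧ C.κ (C.ro a b) b * C.κ (C.ro a b) b = 1 ∧
    ∀ c, c = b ∨ C.tri a c = true ∨ C.κ (C.ro a b) c = 0
  ord_pos : ∀ p, C.ord (C.pos p) = p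

/-- allowed roots at stage `k` -/
def Al (k : ℕ) (r : R) : Prop := ∀ p, C.pos p < k → C.fx r p = true

instance (k : ℕ) (r : R) : Decidable (C.Al k r) := by unfold Al; infer_instance

/-- forced zeros at stage `k` -/
def Z (k : ℕ) (b : ι) : Prop := ∃ p, C.pos p < k ∧ C.tri p b = true ∧
  (C.tri p (C.ord k) = false ∨ C.pos (C.th p b) < k ∧ b ≠ C.ord k)

instance (k : ℕ) (b : ι) : Decidable (C.Z k b) := by unfold Z; infer_instance

/-- valid lists of moves -/
def movesOK (k : ℕ) : List (R × ι) → Bool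
  | [] => true
  | m :: ms => decide (C.Al k m.1) && decide (C.κ m.1 m.2 * C.κ m.1 m.2 = 1) &&
      (decide (m.2 = C.ord k) || ms.any fun m' => C.s m'.1 m'.2 = m.2) && movesOK k ms

/-- the coordinate is zero or can be moved -/
def Re (k : ℕ) (b : ι) : Prop := C.Z k b ∨ ∃ m ∈ C.mv k, C.s m.1 m.2 = b

instance (k : ℕ) (b : ι) : Decidable (C.Re k b) := by unfold Re; infer_instance

/-- the certificate of stage `k` -/
def StepOK (k : ℕ) : Prop :=
  (∀ b, b = C.ord k ∨ C.tri (C.ord k) b = true ∨ C.Z k b ∨ C.Al k (C.ro (C.ord k) b)) ∧ C.movesOK k (C.mv k) = true ∧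
  ((∃ p, C.pos p < k ∧ C.tri p (C.ord k) = true ∧ (C.pos (C.th p (C.ord k)) < k ∨ ∀ b, C.tri p b = true → C.Re k b)) ∨
    ∀ b, C.pos b < k ∨ C.Re k b)

instance (k : ℕ) : Decidable (C.StepOK k) := by unfold StepOK; infer_instance

/-- isometries fixing the first `k` basis vectors -/
def Fix (k : ℕ) (g : GL ι F) : Prop :=
  (∀ v, cub C.L (g.1 *ᵥ v) = cub C.L v) ∧ ∀ p, C.pos p < k → g.1 *ᵥ Pi.single p 1 = Pi.single p 1

variable {C} (H : C.Good) (hF : ∃ c : F, c ≠ 0 ∧ c ≠ 1)
include H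

omit [Fintype ι] in
lemma cB_basis (p q : ι) (w : ι → F) :
    cB C.L (Pi.single p 1) (Pi.single q 1) w = if C.tri p q then C.eps p q * w (C.th p q) else 0 := by
  rw [cB_single, H.sing_eq]; split_ifs <;> simp

omit [Fintype ι] in
lemma eps_ne {p b : ι} (h : C.tri p b = true) : (C.eps p b : F) ≠ 0 := fun h0 => by
  have := congrArg (Int.cast : ℤ → F) (H.th_th p b h).1
  simp [h0] at this

include hF

lemma Fix.third {k : ℕ} {g : GL ι F} (hg : C.Fix k g) {p b : ι} (hp : C.pos p < k) (h : C.tri p b = true)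
    (hq : C.pos (C.th p b) < k) (v : ι → F) : (g.1 *ᵥ v) b = v b := by
  have h1 := cB_map hF hg.1 (Pi.single p 1) (Pi.single (C.th p b) 1) v
  obtain ⟨-, h2, h3⟩ := H.th_th p b h
  rw [hg.2 p hp, hg.2 _ hq, cB_basis H, cB_basis H, if_pos h2, if_pos h2, h3] at h1
  exact mul_left_cancel₀ (eps_ne H h2) h1

lemma Fix.zero {k : ℕ} {g : GL ι F} (hg : C.Fix k g) {b : ι} (h : C.Z k b) : (g.1 *ᵥ Pi.single (C.ord k) 1) b = 0 := by
  obtain ⟨p, hp, h1, h2 | h2⟩ := h
  · have h3 := cB_map hF hg.1 (Pi.single p 1) (Pi.single (C.ord k) 1) (g⁻¹.1 *ᵥ Pi.single (C.th p b) 1)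
    obtain ⟨-, h4, h5⟩ := H.th_th p b h1
    rw [hg.2 p hp, mulVec_mulVec, Units.mul_inv, one_mulVec, cB_comm, cB_basis H, cB_basis H, if_pos h4, h5, h2] at h3
    simpa [eps_ne H h4] using h3
  · rw [hg.third H hF hp h1 h2.1, Pi.single_eq_of_ne h2.2]

lemma Fix.white {k : ℕ} {g : GL ι F} (hg : C.Fix k g) {a : ι} (h1 : (g.1 *ᵥ Pi.single a 1) a = 1)
    (h2 : ∀ b, b ≠ a → C.tri a b = false → (g.1 *ᵥ Pi.single a 1) b = 0) : g.1 *ᵥ Pi.single a 1 = Pi.single a 1 := by
  funext c
  by_cases hc : c = a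
  · rw [hc, h1, Pi.single_eq_same]
  rw [Pi.single_eq_of_ne hc]
  cases h : C.tri a c
  · exact h2 c hc h
  have h3 := cS_map hF hg.1 (Pi.single a 1) (g⁻¹.1 *ᵥ Pi.single (C.th a c) 1)
  have h4 : ∀ w : ι → F, cS C.L (Pi.single a 1) w = 0 := fun w => by
    have k2 : ∀ c, cS C.L (Pi.single a (1 : F)) (Pi.single c 1) = 0 := fun c => by
      have k3 : ∀ l : List (ℤ × ι × ι), (∀ y ∈ sing l a, y.2 ≠ a) →
          (l.map fun x => (x.1 : F) * ((Pi.single a 1 : ι → F) x.2.1 * (Pi.single a 1 : ι → F) x.2.2)).sum = 0 := by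
        intro l hl
        refine List.sum_eq_zero fun z hz => ?_
        obtain ⟨x, hx, rfl⟩ := List.mem_map.1 hz
        by_cases k4 : x.2.1 = a
        · rw [Pi.single_eq_of_ne (hl (x.1, x.2.2) (List.mem_flatMap.2 ⟨x, hx, by simp [k4]⟩)), mul_zero, mul_zero]
        · rw [Pi.single_eq_of_ne k4, zero_mul, mul_zero]
      rw [cS_single]
      refine k3 _ fun y hy => ?_
      rw [H.sing_eq] at hy
      split_ifs at hy with k5
      · rw [List.mem_singleton.1 hy]
        intro k6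
        have := (H.th_th a c k5).2.1
        simp only at k6
        rw [k6, H.tri_self] at this
        exact absurd this (by simp)
      · simp at hy
    have := LinearMap.pi_apply_eq_sum_univ (cSL C.L (Pi.single a (1 : F))) w
    refine this.trans (Finset.sum_eq_zero fun c _ => ?_)
    rw [show (fun j => if c = j then (1 : F) else 0) = Pi.single c 1 from
      funext fun j => by simp [Pi.single_apply, eq_comm]]
    exact smul_eq_zero_of_right _ (k2 c)
  rw [h4, mulVec_mulVec, Units.mul_inv, one_mulVec, cS_single,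
    ← sum_filter_eq _ (fun x => (x.2.1 = a || C.tri a x.2.1) && (x.2.2 = a || C.tri a x.2.2))] at h3
  · have h5 := H.white a c h
    simp only [List.mem_cons, List.not_mem_nil, or_false] at h5
    generalize g.1 *ᵥ Pi.single a 1 = u at h1 h3 ⊢
    rcases h5 with h5 | h5 <;> rw [h5] at h3 <;> simpa [h1, eps_ne H h] using h3
  · intro x hx
    simp only [Bool.and_eq_false_iff, Bool.or_eq_false_iff, decide_eq_false_iff_not] at hx
    rcases hx with hx | hx <;> rw [h2 _ hx.1 hx.2] <;> simp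

variable {E : Subgroup (GL ι F)} {y : R → F → GL ι F} (hE : ∀ r t, y r t ∈ E)
  (hy : ∀ r t v c, ((y r t).1 *ᵥ v) c = v c + t * C.κ r c * v (C.s r c)) (hI : ∀ r, InvOK C.L (C.κ r) (C.s r))
include hy hI

omit hF in
lemma Fix.mul {k : ℕ} {g : GL ι F} (hg : C.Fix k g) {r : R} (hr : C.Al k r) (t : F) : C.Fix k (y r t * g) := by
  refine ⟨fun v => ?_, fun p hp => ?_⟩
  · rw [Units.val_mul, ← mulVec_mulVec, funext (hy r t _), (hI r).cub_eq, hg.1]
  · rw [Units.val_mul, ← mulVec_mulVec, hg.2 p hp]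
    funext c
    rw [hy]
    rcases H.fx_eq r c with h | h
    · simp [h]
    · rw [Pi.single_eq_of_ne (i' := C.s r c) (fun h' => by simp [h', hr p hp] at h), mul_zero, add_zero]

include hE

theorem step {k : ℕ} (hk : C.StepOK k) {g : GL ι F} (hg : C.Fix k g) : ∃ e ∈ E, C.Fix (k + 1) (e * g) := by
  obtain ⟨k1, k2, k3⟩ := hk
  set a := C.ord k with ha
  let G : GL ι F → Prop := fun g => ∃ e ∈ E, C.Fix (k + 1) (e * g)
  have red : ∀ r t g, G (y r t * g) → G g := fun r t g ⟨e, he, h⟩ =>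
    ⟨e * y r t, mul_mem he (hE r t), by rwa [mul_assoc]⟩
  have col : ∀ r t (g : GL ι F) c, ((y r t * g).1 *ᵥ Pi.single a 1) c =
      (g.1 *ᵥ Pi.single a 1) c + t * C.κ r c * (g.1 *ᵥ Pi.single a 1) (C.s r c) := fun r t g c => by
    rw [Units.val_mul, ← mulVec_mulVec, hy]
  have clear : ∀ (S : Finset ι) (g : GL ι F), C.Fix k g → (g.1 *ᵥ Pi.single a 1) a = 1 →
      (∀ b, b ≠ a → C.tri a b = false → b ∉ S → (g.1 *ᵥ Pi.single a 1) b = 0) → G g := by
    intro S
    induction S using Finset.induction_on with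
    | empty =>
      refine fun g hg h1 h2 => ⟨1, one_mem _, ?_⟩
      rw [one_mul]
      refine ⟨hg.1, fun p hp => ?_⟩
      rcases Nat.lt_succ_iff_lt_or_eq.1 hp with hp | hp
      · exact hg.2 p hp
      · rw [← H.ord_pos p, hp]
        exact hg.white H hF h1 fun b h3 h4 => h2 b h3 h4 (by simp)
    | insert b S _ ih =>
      intro g hg h1 h2
      by_cases hb : b ≠ a → C.tri a b = false → (g.1 *ᵥ Pi.single a 1) b = 0
      · refine ih g hg h1 fun c h3 h4 h5 => ?_
        by_cases hc : c = b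
        · subst hc; exact hb h3 h4
        · exact h2 c h3 h4 (by simp [hc, h5])
      push Not at hb
      obtain ⟨b1, b2, b3⟩ := hb
      have b4 : C.Al k (C.ro a b) := (((k1 b).resolve_left b1).resolve_left (by simp [b2])).resolve_left
        fun h => b3 (hg.zero H hF h)
      obtain ⟨b5, b6, b7⟩ := ((H.ro_spec a b).resolve_left b1).resolve_left (by simp [b2])
      replace b6 : (C.κ (C.ro a b) b : F) * C.κ (C.ro a b) b = 1 := by exact_mod_cast congrArg (Int.cast : ℤ → F) b6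
      refine red (C.ro a b) (-C.κ (C.ro a b) b * (g.1 *ᵥ Pi.single a 1) b) g (ih _ (hg.mul H hy hI b4 _) ?_ ?_)
      · rw [col, h1, ((b7 a).resolve_left b1.symm).resolve_left (by simp [H.tri_self])]; simp
      · intro c h3 h4 h5
        rw [col]
        by_cases hc : c = b
        · rw [hc, b5, h1]; linear_combination -(g.1 *ᵥ Pi.single a 1) b * b6
        · rw [h2 c h3 h4 (by simp [hc, h5]), ((b7 c).resolve_left hc).resolve_left (by simp [h4])]; simp
  have fin : ∀ g : GL ι F, C.Fix k g → (g.1 *ᵥ Pi.single a 1) a = 1 → G g := fun g hg h =>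
    clear Finset.univ g hg h fun b _ _ h => absurd (Finset.mem_univ b) h
  have moves : ∀ ms, C.movesOK k ms = true → ∀ m ∈ ms, ∀ g : GL ι F, C.Fix k g →
      (g.1 *ᵥ Pi.single a 1) (C.s m.1 m.2) ≠ 0 → G g := by
    intro ms
    induction ms with
    | nil => simp
    | cons m ms ih =>
      intro h m' hm' g hg h1
      simp only [movesOK, Bool.and_eq_true, Bool.or_eq_true, decide_eq_true_eq, List.any_eq_true] at h
      obtain ⟨⟨⟨h2, h3⟩, h4⟩, h5⟩ := h
      rcases List.mem_cons.1 hm' with rfl | hm'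
      swap
      · exact ih h5 m' hm' g hg h1
      replace h3 : (C.κ m'.1 m'.2 : F) * C.κ m'.1 m'.2 = 1 := by exact_mod_cast congrArg (Int.cast : ℤ → F) h3
      let t := C.κ m'.1 m'.2 * (1 - (g.1 *ᵥ Pi.single a 1) m'.2) / (g.1 *ᵥ Pi.single a 1) (C.s m'.1 m'.2)
      have h6 : ((y m'.1 t * g).1 *ᵥ Pi.single a 1) m'.2 = 1 := by
        rw [col, mul_right_comm, div_mul_cancel₀ _ h1]
        linear_combination (1 - (g.1 *ᵥ Pi.single a 1) m'.2) * h3
      refine red m'.1 t g ?_
      rcases h4 with h4 | ⟨m, hm, h4⟩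
      · exact fin _ (hg.mul H hy hI h2 t) (by rwa [h4] at h6)
      · exact ih h5 m hm _ (hg.mul H hy hI h2 t) (by rw [h4, h6]; exact one_ne_zero)
  by_contra hG
  have re : ∀ b, C.Re k b → (g.1 *ᵥ Pi.single a 1) b = 0 := by
    rintro b (h | ⟨m, hm, rfl⟩)
    · exact hg.zero H hF h
    · by_contra h; exact hG (moves _ k2 m hm g hg h)
  rcases k3 with ⟨p, hp, h1, h2 | h2⟩ | h1
  · exact hG (fin g hg (by rw [hg.third H hF hp h1 h2, Pi.single_eq_same]))
  · have h3 := cB_map hF hg.1 (Pi.single p 1) (Pi.single a 1) (Pi.single (C.th p a) 1)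
    rw [hg.2 p hp, cB_basis H, if_pos h1, Pi.single_eq_same, mul_one, cB_eq_sum] at h3
    refine eps_ne H h1 (h3.symm.trans (Finset.sum_eq_zero fun c _ => ?_))
    rw [cB_comm, cB_basis H]
    split_ifs with h4
    · rw [re _ (h2 _ (H.th_th p c h4).2.1), mul_zero, mul_zero]
    · exact mul_zero _
  · have h2 : g.1 *ᵥ (g.1 *ᵥ Pi.single a 1) = g.1 *ᵥ Pi.single a 1 := by
      conv_lhs => rw [pi_eq_sum_univ' (g.1 *ᵥ Pi.single a 1), mulVec_sum]
      conv_rhs => rw [pi_eq_sum_univ' (g.1 *ᵥ Pi.single a 1)]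
      refine Finset.sum_congr rfl fun b _ => ?_
      rcases h1 b with h | h
      · rw [mulVec_smul, hg.2 b h]
      · rw [re b h, zero_smul, mulVec_zero]
    have h3 : g.1 *ᵥ Pi.single a 1 = Pi.single a 1 := by
      simpa only [mulVec_mulVec, Units.inv_mul_cancel_left, Units.inv_mul, one_mulVec] using congrArg (g⁻¹.1 *ᵥ ·) h2
    exact hG (fin g hg (by rw [h3, Pi.single_eq_same]))

theorem mem_of_steps {n : ℕ} (hn : ∀ p, C.pos p < n) (hk : ∀ k < n, C.StepOK k) {g : GL ι F}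
    (hg : ∀ v, cub C.L (g.1 *ᵥ v) = cub C.L v) : g ∈ E := by
  have key : ∀ k ≤ n, ∃ e ∈ E, C.Fix k (e * g) := by
    intro k
    induction k with
    | zero => exact fun _ => ⟨1, one_mem _, by rwa [one_mul], by simp⟩
    | succ k ih =>
      intro h
      obtain ⟨e, he, h1⟩ := ih (by omega)
      obtain ⟨e', he', h2⟩ := step H hF hE hy hI (hk k h) h1
      exact ⟨e' * e, mul_mem he' he, by rwa [mul_assoc]⟩
  obtain ⟨e, he, h⟩ := key n le_rfl
  have : e * g = 1 := Units.ext (by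
    ext a b
    simpa [one_apply, Pi.single_apply] using congrFun (h.2 b (hn b)) a)
  rw [eq_inv_of_mul_eq_one_right this]
  exact inv_mem he

end Data

end CA.Chev.Cubic

theorem CA.Chev.realizeEqnsCubic : True := by
  have := @CA.Chev.Cubic.Data.Z.eq_1
  have := @CA.Chev.Cubic.Data.Z.eq_def
  have := @CA.Chev.Cubic.Data.Z.congr_simp
  have := @CA.Chev.Cubic.cS.eq_1.{0}
  have := @CA.Chev.Cubic.cS.eq_def.{0}
  have := @CA.Chev.Cubic.cS.congr_simp.{0}
  have := @CA.Chev.Cubic.Data.Re.eq_1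
  have := @CA.Chev.Cubic.Data.Re.eq_def
  have := @CA.Chev.Cubic.Data.Re.congr_simp
  have := @CA.Chev.Cubic.Data.Al.eq_1
  have := @CA.Chev.Cubic.Data.Al.eq_def
  have := @CA.Chev.Cubic.Data.Al.congr_simp
  have := @CA.Chev.Cubic.Data.Fix.eq_1.{0}
  have := @CA.Chev.Cubic.Data.Fix.eq_def.{0}
  have := @CA.Chev.Cubic.Data.Fix.congr_simp.{0}
  have := @CA.Chev.Cubic.cSL.eq_1.{0}
  have := @CA.Chev.Cubic.cSL.eq_def.{0}
  have := @CA.Chev.Cubic.cSL.congr_simp.{0}
  have := @CA.Chev.Cubic.Tri.eq_1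
  have := @CA.Chev.Cubic.Tri.eq_def
  have := @CA.Chev.Cubic.Tri.congr_simp
  have := @CA.Chev.Cubic.Data.StepOK.eq_1
  have := @CA.Chev.Cubic.Data.StepOK.eq_def
  have := @CA.Chev.Cubic.Data.StepOK.congr_simp
  have := @CA.Chev.Cubic.Data.movesOK.eq_1
  have := @CA.Chev.Cubic.Data.movesOK.eq_2
  have := @CA.Chev.Cubic.Data.movesOK.eq_def
  have := @CA.Chev.Cubic.Data.movesOK.congr_simp
  have := @CA.Chev.Cubic.cB.eq_1.{0}
  have := @CA.Chev.Cubic.cB.eq_def.{0}
  have := @CA.Chev.Cubic.cB.congr_simp.{0}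
  have := @CA.Chev.Cubic.cub.eq_1.{0}
  have := @CA.Chev.Cubic.cub.eq_def.{0}
  have := @CA.Chev.Cubic.cub.congr_simp.{0}
  have := @CA.Chev.Cubic.sing.eq_1
  have := @CA.Chev.Cubic.sing.eq_def
  have := @CA.Chev.Cubic.sing.congr_simp
  have := @CA.Chev.Cubic.Canc.eq_1
  have := @CA.Chev.Cubic.Canc.eq_def
  have := @CA.Chev.Cubic.Canc.congr_simp
  have := @CA.Chev.Cubic.pairs.eq_1
  have := @CA.Chev.Cubic.pairs.eq_def
  have := @CA.Chev.Cubic.pairs.congr_simp
  have := @CA.Chev.Cubic.InvOK.eq_1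
  have := @CA.Chev.Cubic.InvOK.eq_def
  have := @CA.Chev.Cubic.InvOK.congr_simp
  trivial
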