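/-
A computable model of the field with eight elements.
-/
import Mathlib

set_option autoImplicit false

namespace CA.Chev

/-- the field with eight elements, `X ^ 3 = X + 1`, elements written in binary -/
def F8 : Type := Fin 8

namespace F8

instance instDecEq : DecidableEq F8 := inferInstanceAs (DecidableEq (Fin 8))
instance instFintype : Fintype F8 := inferInstanceAs (Fintype (Fin 8))

/-- the element with given binary digits -/
def mk (k : ℕ) : F8 := Fin.ofNat 8 k
/-- the binary digits -/
def val (a : F8) : ℕ := Fin.val (n := 8) a

instance instAdd : Add F8 := ⟨fun a b => mk (Nat.xor a.val b.val)⟩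
instance instMul : Mul F8 := ⟨fun a b => mk (Nat.shiftRight 
    0x73157889d3f0cfa868356ee0467b98bcbd10fac688000000 (Nat.mul 3 (Nat.add (Nat.mul 8 a.val) b.val)))⟩
instance instNeg : Neg F8 := ⟨fun a => a⟩
instance instInv : Inv F8 := ⟨fun a => mk (Nat.shiftRight 0x8d7d48 (Nat.mul 3 a.val))⟩
instance instZero : Zero F8 := ⟨mk 0⟩
instance instOne : One F8 := ⟨mk 1⟩

instance instField : Field F8 :=
  Field.ofMinimalAxioms F8 (by decide +kernel) (by decide +kernel) (by decide +kernel) (by decide +kernel)
    (by decide +kernel) (by decide +kernel) (by decide +kernel) (by decide +kernel) (by decide +kernel)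
    ⟨0, 1, by decide +kernel⟩

theorem card : Fintype.card F8 = 8 := Fintype.card_fin 8

/-- the Frobenius automorphism -/
def frob : F8 ≃+* F8 where
  toFun a := a * a
  invFun a := a * a * (a * a)
  left_inv := by intro a; revert a; decide +kernel
  right_inv := by intro a; revert a; decide +kernel
  map_mul' := by decide +kernel
  map_add' := by decide +kernel

theorem frob_three : ∀ a, frob (frob (frob a)) = a := by decide +kernel

end F8

end CA.Chev

theorem CA.Chev.realizeEqnsF8 : True := by
  have := @CA.Chev.F8.eq_1
  have := @CA.Chev.F8.eq_def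
  have := @CA.Chev.F8.congr_simp
  have := @CA.Chev.F8.mk.eq_1
  have := @CA.Chev.F8.mk.eq_def
  have := @CA.Chev.F8.mk.congr_simp
  have := @CA.Chev.F8.val.eq_1
  have := @CA.Chev.F8.val.eq_def
  have := @CA.Chev.F8.val.congr_simp
  have := @CA.Chev.F8.frob.eq_1
  have := @CA.Chev.F8.frob.eq_def
  have := @CA.Chev.F8.frob.congr_simp
  trivial
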