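/-
Recognising small matrix groups: a set of vectors permuted like a conjugacy class of a known group.
-/
import Cfsg.Agent.Chev.Lie4
import Cfsg.Agent.Lin.Transport

set_option autoImplicit false

namespace CA.Chev
open Cfsg.Lie Cfsg.Lie.ChevalleyDatum Matrix

section pairs
variable {n K Γ Y : Type*} [Fintype n] [DecidableEq n] [CommRing K] [Group Γ]

/-- pairs `(g, γ)` such that `g` permutes the vectors `φ y` as `γ` permutes the elements `m y` -/
def conjPairs (φ : Y → n → K) (m : Y → Γ) : Subgroup (GL n K × Γ) where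
  carrier := {x | ∃ π : Equiv.Perm Y, ∀ y, x.1.1 *ᵥ φ y = φ (π y) ∧ x.2 * m y = m (π y) * x.2}
  mul_mem' := by
    rintro a b ⟨π, ha⟩ ⟨ρ, hb⟩
    refine ⟨π * ρ, fun y => ⟨?_, ?_⟩⟩
    · rw [Prod.fst_mul, Units.val_mul, ← mulVec_mulVec, (hb y).1, (ha _).1]; rfl
    · rw [Prod.snd_mul, mul_assoc, (hb y).2, ← mul_assoc, (ha _).2, mul_assoc]; rfl
  one_mem' := ⟨1, fun y => by simp⟩
  inv_mem' := by
    rintro a ⟨π, ha⟩
    refine ⟨π⁻¹, fun y => ⟨?_, ?_⟩⟩
    · have := (ha (π⁻¹ y)).1
      rw [Equiv.Perm.coe_inv, Equiv.apply_symm_apply] at this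
      rw [← this, mulVec_mulVec, Prod.fst_inv, Units.inv_mul, one_mulVec]; rfl
    · have := (ha (π⁻¹ y)).2
      rw [Equiv.Perm.coe_inv, Equiv.apply_symm_apply] at this
      rw [Prod.snd_inv, inv_mul_eq_iff_eq_mul, ← mul_assoc, Equiv.Perm.coe_inv, this, mul_inv_cancel_right]

/-- the first projection of `conjPairs` -/
def pairG (φ : Y → n → K) (m : Y → Γ) : Subgroup (GL n K) := (conjPairs φ m).map (MonoidHom.fst _ _)

theorem mem_pairG [Finite Y] {φ : Y → n → K} {m : Y → Γ} (hm : Function.Injective m) {g : GL n K}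
    (π : Y → Y) (γ : Γ) (h1 : ∀ y, g.1 *ᵥ φ y = φ (π y)) (h2 : ∀ y, γ * m y = m (π y) * γ) : g ∈ pairG φ m := by
  have hπ : Function.Injective π := fun a b h => hm (mul_left_cancel (a := γ) (by rw [h2, h2, h]))
  exact ⟨(g, γ), ⟨Equiv.ofBijective π hπ.bijective_of_finite, fun y => ⟨h1 y, h2 y⟩⟩, rfl⟩

theorem nonempty_equiv_of_pairs [Finite K] [Finite Γ] {φ : Y → n → K} {m : Y → Γ} (hm : Function.Injective m)
    (b : n → Y) (B : Matrix n n K) (hB : (Matrix.of fun i j => φ (b j) i) * B = 1)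
    (G : Subgroup (GL n K)) (h : G ≤ pairG φ m) (hcard : Nat.card Γ ≤ Nat.card G) : Nonempty (G ≃* Γ) := by
  refine Cfsg.Agent.Lin.nonempty_equiv_of_prod
    ((conjPairs φ m).comap (G.subtype.prodMap (MonoidHom.id Γ))) (fun g => ?_) (fun g hg => ?_) hcard
  · obtain ⟨⟨_, γ⟩, hx, h2⟩ := h g.2
    obtain rfl : _ = g.1 := h2
    exact ⟨γ, hx⟩
  · obtain ⟨π, hπ⟩ := hg
    have h1 : ∀ y, g.1.1 *ᵥ φ y = φ y := fun y => by
      have h2 : m y = m (π y) := by simpa using (hπ y).2
      rw [show φ y = φ (π y) from congrArg φ (hm h2)]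
      exact (congrArg (g.1.1 *ᵥ ·) (congrArg φ (hm h2)).symm).trans (hπ y).1
    have h2 : g.1.1 * (Matrix.of fun i j => φ (b j) i) = Matrix.of fun i j => φ (b j) i := by
      ext i j
      exact congrFun (h1 (b j)) i
    refine Subtype.ext (Units.ext ?_)
    rw [← mul_one g.1.1, ← hB, ← Matrix.mul_assoc, h2, hB]; rfl

end pairs

section semidirect
variable {N : Type*} [Group N]

/-- the extension of `N` by a cyclic group of automorphisms -/
abbrev CycExt (σ : MulAut N) : Type _ := N ⋊[(Subgroup.zpowers σ).subtype] Subgroup.zpowers σ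

instance finiteCycExt [Finite N] (σ : MulAut N) : Finite (CycExt σ) :=
  Finite.of_equiv _ SemidirectProduct.equivProd.symm

theorem card_cycExt_le [Finite N] {σ : MulAut N} {k : ℕ} (hk : 0 < k) (h : σ ^ k = 1) :
    Nat.card (CycExt σ) ≤ Nat.card N * k := by
  rw [SemidirectProduct.card, Nat.card_zpowers]
  exact Nat.mul_le_mul_left _ (orderOf_le_of_pow_eq_one hk h)

theorem commutator_cycExt (hN : commutator N = ⊤) (σ : MulAut N) : Nonempty (commutator (CycExt σ) ≃* N) := by
  have h : commutator (CycExt σ) = (SemidirectProduct.inl : N →* CycExt σ).range := by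
    apply le_antisymm
    · rw [SemidirectProduct.range_inl_eq_ker_rightHom, commutator_def, Subgroup.commutator_le]
      intro a _ b _
      rw [MonoidHom.mem_ker, map_commutatorElement, commutatorElement_eq_one_iff_mul_comm]
      exact mul_comm' _ _
    · rw [MonoidHom.range_eq_map, ← hN, commutator_def, Subgroup.map_commutator]
      exact Subgroup.commutator_mono le_top le_top
  exact ⟨(MulEquiv.subgroupCongr h).trans (MonoidHom.ofInjective SemidirectProduct.inl_injective).symm⟩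

variable {n K Y : Type*} [Fintype n] [DecidableEq n] [CommRing K]

theorem mem_pairG_cycExt [Finite Y] {φ : Y → n → K} {m : Y → N} (hm : Function.Injective m) (σ : MulAut N)
    {g : GL n K} (π : Y → Y) (u : N) (j : ℕ) (h1 : ∀ y, g.1 *ᵥ φ y = φ (π y))
    (h2 : ∀ y, u * σ^[j] (m y) = m (π y) * u) :
    g ∈ pairG φ fun y => (SemidirectProduct.inl (m y) : CycExt σ) := by
  refine mem_pairG (SemidirectProduct.inl_injective.comp hm) π
    ⟨u, ⟨σ ^ j, Subgroup.npow_mem_zpowers σ j⟩⟩ h1 fun y => ?_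
  have h3 : ∀ x, (σ ^ j) x = σ^[j] x := fun x => by
    clear h2
    induction j with
    | zero => rfl
    | succ j ih => rw [pow_succ', Function.iterate_succ_apply', MulAut.mul_apply, ← ih]
  ext <;> simp [h3, h2]

end semidirect

section congr
variable {D : ChevalleyDatum} [RootGood D] [LieGood D] {K K' : Type*} [Field K] [Field K']

theorem map_group (σ : K ≃+* K') :
    (D.group K).map (GeneralLinearGroup.map σ.toRingHom) = D.group K' := by
  rw [group, group, MonoidHom.map_closure]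
  congr 1
  ext g
  simp only [xMat_eq]
  constructor
  · rintro ⟨g, ⟨r, t, h⟩, rfl⟩
    exact ⟨r, σ t, (congrArg (·.map σ.toRingHom) h).trans (X_map σ.toRingHom r t)⟩
  · rintro ⟨r, t, h⟩
    refine ⟨xU r (σ.symm t), ⟨r, _, rfl⟩, Units.ext ?_⟩
    rw [h]
    exact (X_map σ.toRingHom r _).trans (by simp)

theorem nonempty_groupCongr (σ : K ≃+* K') : Nonempty (D.group K ≃* D.group K') :=
  ⟨((D.group K).equivMapOfInjective (GeneralLinearGroup.map σ.toRingHom) fun a b h => by
    ext i j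
    exact σ.injective (congrArg (fun g : GL D.Idx K' => g.1 i j) h)).trans (MulEquiv.subgroupCongr (map_group σ))⟩

theorem group_two_le {P : Subgroup (GL D.Idx (ZMod 2))} (h : ∀ (r : Rt D) (g : GL D.Idx (ZMod 2)),
    g.1 = D.xMat (ZMod 2) r 1 → g ∈ P) : D.group (ZMod 2) ≤ P := by
  rw [group, Subgroup.closure_le]
  rintro g ⟨r, t, hg⟩
  have ht : t = 0 ∨ t = 1 := by clear hg; revert t; decide
  rcases ht with rfl | rfl
  · have : g = 1 := Units.ext (by rw [hg, xMat_eq, X_zero]; rfl)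
    rw [this]; exact P.one_mem
  · exact h r g hg

end congr

/-- coordinates packed in a natural number, two bits each -/
def unp2 (p : ℕ) (l : ℕ) {n : ℕ} (x : ℕ) : Fin l ⊕ Fin n → ZMod p :=
  fun i => (Nat.land (Nat.shiftRight x (Nat.mul 2 (Sum.elim Fin.val (fun s => Nat.add l s.val) i))) 3 : ℕ)

end CA.Chev

theorem CA.Chev.realizeEqnsPairs : True := by
  have := @CA.Chev.conjPairs.eq_1.{0,0,0,0}
  have := @CA.Chev.conjPairs.eq_def.{0,0,0,0}
  have := @CA.Chev.conjPairs.congr_simp.{0,0,0,0}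
  have := @CA.Chev.CycExt.eq_1.{0}
  have := @CA.Chev.CycExt.eq_def.{0}
  have := @CA.Chev.CycExt.congr_simp.{0}
  have := @CA.Chev.pairG.eq_1.{0,0,0,0}
  have := @CA.Chev.pairG.eq_def.{0,0,0,0}
  have := @CA.Chev.pairG.congr_simp.{0,0,0,0}
  have := @CA.Chev.unp2.eq_1
  have := @CA.Chev.unp2.eq_def
  have := @CA.Chev.unp2.congr_simp
  trivial
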