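/-
Folding of a Coxeter group along a symmetry of the diagram; the four twisted Weyl groups.
-/
import Cfsg.Agent.Chev.WeylCard

set_option autoImplicit false
set_option linter.unusedSectionVars false
set_option linter.unusedVariables false

namespace CA.Weyl

open CoxeterSystem

section general
variable {B : Type*} [Fintype B] [DecidableEq B] {M : CoxeterMatrix B} {ρ : Equiv.Perm B}
  (hρ : ∀ i j, M (ρ i) (ρ j) = M i j)

include hρ in
theorem isLiftable_perm : M.IsLiftable fun i => M.simple (ρ i) := fun i j => by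
  rw [← hρ]; exact M.toCoxeterSystem.simple_mul_simple_pow _ _

/-- the automorphism of the Coxeter group induced by a symmetry of the diagram. -/
def permW : M.Group →* M.Group := M.toCoxeterSystem.lift ⟨_, isLiftable_perm hρ⟩

theorem permW_simple (i : B) : permW hρ (M.simple i) = M.simple (ρ i) :=
  M.toCoxeterSystem.lift_apply_simple (isLiftable_perm hρ) i

theorem permW_wordProd (l : List B) :
    permW hρ (M.toCoxeterSystem.wordProd l) = M.toCoxeterSystem.wordProd (l.map ρ) := by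
  induction l with
  | nil => simp
  | cons i l ih => rw [wordProd_cons, map_mul, ih, List.map_cons, wordProd_cons]; exact congrArg (· * _) (permW_simple hρ i)

theorem len_permW_le (w : M.Group) : clen M (permW hρ w) ≤ clen M w := by
  induction w using len_induction with
  | h1 => simp
  | hs w i hd ih =>
    rw [map_mul, len_of_not_desc hd, permW_simple]
    exact (len_mul_le _ _).trans (by simpa using ih)

include hρ in
theorem perm_symm (i j : B) : M (ρ.symm i) (ρ.symm j) = M i j := by rw [← hρ]; simp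

theorem permW_symm (w : M.Group) : permW (perm_symm hρ) (permW hρ w) = w := by
  obtain ⟨l, rfl⟩ := M.toCoxeterSystem.wordProd_surjective w
  rw [permW_wordProd, permW_wordProd]; simp

theorem len_permW (w : M.Group) : clen M (permW hρ w) = clen M w :=
  le_antisymm (len_permW_le hρ w) (by simpa [permW_symm] using len_permW_le (perm_symm hρ) (permW hρ w))

theorem desc_permW (w : M.Group) (i : B) : Desc M (permW hρ w) (ρ i) ↔ Desc M w i := by
  have h : clen M (permW hρ w * M.simple (ρ i)) = clen M (w * M.simple i) := by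
    rw [← permW_simple hρ, ← map_mul, len_permW]
  have h2 := len_permW hρ w
  constructor
  · intro hd
    by_contra hd'
    have := len_of_desc hd; have := len_of_not_desc hd'; omega
  · intro hd
    by_contra hd'
    have := len_of_desc hd; have := len_of_not_desc hd'; omega

end general

variable {n : ℕ} {M : CoxeterMatrix (Fin n)} {AL : List (List ℤ)} {K : Type*}

/-- the finite conditions on the data of a folding. -/
def FoldOK (AL : List (List ℤ)) (ρ : Fin n → Fin n) (J wd : K → List (Fin n)) : Prop :=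
  (∀ k, ∀ i ∈ wd k, i ∈ J k) ∧ (∀ k, ∀ j ∈ J k, (dactL AL (wd k) (List.replicate n 1)).getD j 0 ≤ 0) ∧
  (∀ k, J k ≠ []) ∧ (∀ i, ∃ k, i ∈ J k) ∧
  (∀ k, dactL AL ((wd k).map ρ) (List.replicate n 1) = dactL AL (wd k) (List.replicate n 1)) ∧
  (∀ k, ∀ j ∈ J k, ∀ j' ∈ J k, j' = j ∨ j' = ρ j ∨ j' = ρ (ρ j)) ∧
  (∀ k k' j, j ∈ J k → j ∈ J k' → k = k')

/-- the folding along a symmetry. -/
def Fold.ofPerm (h : IsCartanFor M (matOf n AL)) {ρ : Equiv.Perm (Fin n)} (hρ : ∀ i j, M (ρ i) (ρ j) = M i j)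
    (J wd : K → List (Fin n)) (ok : FoldOK AL ρ J wd) : Fold M K where
  J := J
  wd := wd
  W1 := (permW hρ).eqLocus (MonoidHom.id _)
  wd_sub := ok.1
  g_desc k j hj := (desc_wordProd_iff h _ _).2 (ok.2.1 k j hj)
  J_ne := ok.2.2.1
  cover := ok.2.2.2.1
  g_mem k := (permW_wordProd hρ _).trans ((wordProd_eq_iff h _ _).2 (ok.2.2.2.2.1 k))
  sym w hw k j hj j' hj' hd := by
    have h1 : ∀ j, Desc M w j → Desc M w (ρ j) := fun j hd => by
      have := (desc_permW hρ w j).2 hd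
      rwa [show permW hρ w = w from hw] at this
    rcases ok.2.2.2.2.2.1 k j hj j' hj' with rfl | rfl | rfl
    exacts [hd, h1 _ hd, h1 _ (h1 _ hd)]
  disj := ok.2.2.2.2.2.2

theorem Fold.equiv_of_hom {B : Type*} [Fintype B] [DecidableEq B] {M : CoxeterMatrix B} {A : B → B → ℤ}
    (F : Fold M K) (h : IsCartanFor M A) {W' : Type*} [Group W'] [Finite W'] (ψ : W' →* M.Group)
    (h1 : ∀ x, ψ x ∈ F.W1) (h2 : ∀ k, F.g k ∈ ψ.range) (hc : Nat.card F.W1 = Nat.card W') :
    Nonempty (F.W1 ≃* W') := by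
  have h3 : Function.Surjective (ψ.codRestrict F.W1 h1) := by
    rintro ⟨w, hw⟩
    have : F.W1 ≤ ψ.range := by
      rw [← F.sub_univ h]
      refine (Subgroup.closure_le _).2 ?_
      rintro _ ⟨k, -, rfl⟩; exact h2 k
    obtain ⟨x, hx⟩ := this hw
    exact ⟨x, Subtype.ext hx⟩
  exact ⟨(MulEquiv.ofBijective _ (h3.bijective_of_nat_card_le hc.ge)).symm⟩

theorem Fold.equiv_cox (F : Fold M K) (h : IsCartanFor M (matOf n AL)) (M' : CoxeterMatrix K) [Finite M'.Group]
    (hl : ∀ k k', dactL AL (List.replicate (M' k k') (F.wd k ++ F.wd k')).flatten (List.replicate n 1) =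
      List.replicate n 1) (hc : Nat.card F.W1 = Nat.card M'.Group) : Nonempty (F.W1 ≃* M'.Group) := by
  have hL : M'.IsLiftable F.g := fun k k' => by
    rw [Fold.g, Fold.g, ← wordProd_append, wordProd_pow_eq_one_iff h]; exact hl k k'
  refine F.equiv_of_hom h (M'.toCoxeterSystem.lift ⟨_, hL⟩) (fun x => ?_)
    (fun k => ⟨_, M'.toCoxeterSystem.lift_apply_simple hL k⟩) hc
  refine M'.toCoxeterSystem.simple_induction (p := fun x => M'.toCoxeterSystem.lift ⟨_, hL⟩ x ∈ F.W1) x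
    (fun k => ?_) (by simp) fun a b ha hb => ?_
  · rw [M'.toCoxeterSystem.lift_apply_simple hL k]; exact F.g_mem_W1 k
  · rw [map_mul]; exact mul_mem ha hb

theorem Fold.equiv_words (h : IsCartanFor M (matOf n AL)) {ρ : Equiv.Perm (Fin n)}
    (hρ : ∀ i j, M (ρ i) (ρ j) = M i j) (J wd : K → List (Fin n)) (ok : FoldOK AL ρ J wd)
    {W' : Type*} [Group W'] [Finite W'] (f : W' → List (Fin n))
    (h1 : ∀ x y, dactL AL (f (x * y)) (List.replicate n 1) = dactL AL (f x ++ f y) (List.replicate n 1))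
    (h2 : ∀ x, dactL AL ((f x).map ρ) (List.replicate n 1) = dactL AL (f x) (List.replicate n 1))
    (h3 : ∀ k, ∃ x, dactL AL (f x) (List.replicate n 1) = dactL AL (wd k) (List.replicate n 1))
    (hc : Nat.card (Fold.ofPerm h hρ J wd ok).W1 = Nat.card W') :
    Nonempty ((Fold.ofPerm h hρ J wd ok).W1 ≃* W') := by
  refine Fold.equiv_of_hom _ h (MonoidHom.mk' (fun x => M.toCoxeterSystem.wordProd (f x)) fun x y => ?_)
    (fun x => ?_) (fun k => ?_) hc
  · rw [← wordProd_append]; exact (wordProd_eq_iff h _ _).2 (h1 x y)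
  · exact (permW_wordProd hρ _).trans ((wordProd_eq_iff h _ _).2 (h2 x))
  · obtain ⟨x, hx⟩ := h3 k
    exact ⟨x, (wordProd_eq_iff h _ _).2 hx⟩

theorem len_wordProd (h : IsCartanFor M (matOf n AL)) (l : List (Fin n))
    (hl : ∀ i : Fin l.length, 0 < (dactL AL (l.take i) (List.replicate n 1)).getD l[i] 0) :
    clen M (M.toCoxeterSystem.wordProd l) = l.length := by
  have key : ∀ k ≤ l.length, clen M (M.toCoxeterSystem.wordProd (l.take k)) = k := by
    intro k
    induction k with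
    | zero => simp
    | succ k ih =>
      intro hk
      rw [List.take_succ_eq_append_getElem hk, wordProd_append, wordProd_singleton]
      refine (len_of_not_desc ?_).trans (by rw [ih (by omega)])
      rw [desc_wordProd_iff h, not_le]
      exact hl ⟨k, hk⟩
  simpa using key _ le_rfl

theorem Fold.conn_of_tree (F : Fold M K) (h : IsCartanFor M (matOf n AL)) (k k' : K)
    (hk : dactL AL (F.wd k ++ F.wd k') (List.replicate n 1) ≠ dactL AL (F.wd k' ++ F.wd k) (List.replicate n 1)) :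
    F.g k * F.g k' ≠ F.g k' * F.g k := by
  rw [Fold.g, Fold.g, ← wordProd_append, ← wordProd_append, ne_eq, wordProd_eq_iff h]; exact hk

/-! ### twisted E6 -/

/-- the diagram symmetry. -/
def rhoE6 : Equiv.Perm (Fin 6) := ⟨![5, 1, 4, 3, 2, 0], ![5, 1, 4, 3, 2, 0], by decide, by decide⟩
theorem rhoE6_M : ∀ i j, CoxeterMatrix.E₆ (rhoE6 i) (rhoE6 j) = CoxeterMatrix.E₆ i j :=
  fun i j => Nat.eq_of_beq_eq_true (by revert i j; decide +kernel)
/-- the orbits. -/
def orbE6 : Fin 4 → List (Fin 6) := ![[1], [3], [2, 4], [0, 5]]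
/-- the longest words of the orbits. -/
def wdE6 : Fin 4 → List (Fin 6) := ![[1], [3], [2, 4], [0, 5]]
/-- the exponents. -/
def expE6 : Fin 4 → ℕ := ![1, 1, 2, 2]
theorem foldOKE6 : FoldOK alE6 rhoE6 orbE6 wdE6 := by
  refine ⟨?_, ?_, ?_, ?_, ?_, ?_, ?_⟩ <;> decide +kernel
/-- the folding. -/
def foldE6 : Fold CoxeterMatrix.E₆ (Fin 4) := Fold.ofPerm cartanE6 rhoE6_M orbE6 wdE6 foldOKE6
/-- chain certificate. -/
def tchainE6 : List (Fin 4 × ℕ × List (ℕ × ℕ)) :=
  [(3, 9996425, [(7899271, 24), (9930633, 22), (9005448, 20), (8890216, 19), (7965031, 17), (8882088, 18), (9996393, 15), (7956903, 16), (9988265, 14), (7841671, 15), (6916486, 13), (9873033, 13), (10979210, 11), (8022663, 11), (10054025, 9), (7907431, 10), (9938793, 8), (7899303, 9), (9013608, 6), (9930665, 7), (9005480, 5), (8890248, 4), (7965063, 2), (9996425, 0)]),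
  (2, 9013640, [(12027787, 9), (11102602, 7), (10987370, 6), (10062185, 4), (10979242, 5), (10054057, 3), (9938825, 2), (9013640, 0)]),
  (1, 8951944, [(9013624, 2), (9009560, 1), (8951944, 0)]),
  (0, 8947864, [(8951928, 1), (8947864, 0)])]
theorem chk_tchainE6 : chkChain alE6 orbE6 wdE6 expE6 tchainE6 = true := by decide +kernel
theorem all_tchainE6 : ∀ k, k ∈ tchainE6.map Prod.fst := by decide +kernel
theorem card_foldE6 : Nat.card foldE6.W1 = 1152 :=
  (chkChain_card foldE6 cartanE6 (fun _ _ => rfl) expE6 chk_tchainE6 all_tchainE6).2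
theorem len_foldE6 (k : Fin 4) : clen CoxeterMatrix.E₆ (foldE6.g k) = 1 * expE6 k := by
  refine (len_wordProd cartanE6 (wdE6 k) ?_).trans ?_ <;> revert k <;> decide +kernel
theorem tpolyE6 (q : ℤ) : (q - 1) ^ 4 * (q + 1) ^ 2 * chainPoly q tchainE6 =
    (q ^ 2 - 1) * (q ^ 5 + 1) * (q ^ 6 - 1) * (q ^ 8 - 1) * (q ^ 9 + 1) * (q ^ 12 - 1) := by
  simp only [chainPoly, tchainE6, List.map_cons, List.map_nil, List.sum_cons, List.sum_nil, List.prod_cons,
    List.prod_nil]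
  ring
theorem conn_foldE6 : ∀ k : Fin 4, k ≠ 0 → ∃ k', foldE6.g k * foldE6.g k' ≠ foldE6.g k' * foldE6.g k ∧
    foldE6.g k' * foldE6.g k ≠ foldE6.g k * foldE6.g k' ∧ k'.1 < k.1 := by
  have : ∀ k : Fin 4, k ≠ 0 → ∃ k', dactL alE6 (wdE6 k ++ wdE6 k') (List.replicate 6 1) ≠
      dactL alE6 (wdE6 k' ++ wdE6 k) (List.replicate 6 1) ∧ k'.1 < k.1 := by decide +kernel
  intro k hk
  obtain ⟨k', h1, h2⟩ := this k hk
  exact ⟨k', foldE6.conn_of_tree cartanE6 k k' h1, foldE6.conn_of_tree cartanE6 k' k h1.symm, h2⟩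

/-! ### twisted D4 -/

/-- the diagram symmetry. -/
def rhoD4 : Equiv.Perm (Fin 4) := ⟨![2, 1, 3, 0], ![3, 1, 0, 2], by decide, by decide⟩
theorem rhoD4_M : ∀ i j, Cfsg.Lie.coxeterD4 (rhoD4 i) (rhoD4 j) = Cfsg.Lie.coxeterD4 i j :=
  fun i j => Nat.eq_of_beq_eq_true (by revert i j; decide +kernel)
/-- the orbits. -/
def orbD4 : Fin 2 → List (Fin 4) := ![[0, 2, 3], [1]]
/-- the longest words of the orbits. -/
def wdD4 : Fin 2 → List (Fin 4) := ![[0, 2, 3], [1]]
/-- the exponents. -/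
def expD4 : Fin 2 → ℕ := ![3, 1]
theorem foldOKD4 : FoldOK alD4 rhoD4 orbD4 wdD4 := by
  refine ⟨?_, ?_, ?_, ?_, ?_, ?_, ?_⟩ <;> decide +kernel
/-- the folding. -/
def foldD4 : Fold Cfsg.Lie.coxeterD4 (Fin 2) := Fold.ofPerm cartanD4 rhoD4_M orbD4 wdD4 foldOKD4
/-- chain certificate. -/
def tchainD4 : List (Fin 2 × ℕ × List (ℕ × ℕ)) :=
  [(1, 34968, [(34936, 9), (30615, 8), (39273, 5), (30631, 4), (39289, 1), (34968, 0)]),
  (0, 39305, [(30647, 3), (39305, 0)])]
theorem chk_tchainD4 : chkChain alD4 orbD4 wdD4 expD4 tchainD4 = true := by decide +kernel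
theorem all_tchainD4 : ∀ k, k ∈ tchainD4.map Prod.fst := by decide +kernel
theorem card_foldD4 : Nat.card foldD4.W1 = 12 :=
  (chkChain_card foldD4 cartanD4 (fun _ _ => rfl) expD4 chk_tchainD4 all_tchainD4).2
theorem len_foldD4 (k : Fin 2) : clen Cfsg.Lie.coxeterD4 (foldD4.g k) = 1 * expD4 k := by
  refine (len_wordProd cartanD4 (wdD4 k) ?_).trans ?_ <;> revert k <;> decide +kernel
theorem tpolyD4 (q : ℤ) : (q - 1) ^ 2 * (q ^ 2 + q + 1) * chainPoly q tchainD4 =
    (q ^ 2 - 1) * (q ^ 6 - 1) * (q ^ 8 + q ^ 4 + 1) := by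
  simp only [chainPoly, tchainD4, List.map_cons, List.map_nil, List.sum_cons, List.sum_nil, List.prod_cons,
    List.prod_nil]
  ring
theorem conn_foldD4 : ∀ k : Fin 2, k ≠ 0 → ∃ k', foldD4.g k * foldD4.g k' ≠ foldD4.g k' * foldD4.g k ∧
    foldD4.g k' * foldD4.g k ≠ foldD4.g k * foldD4.g k' ∧ k'.1 < k.1 := by
  have : ∀ k : Fin 2, k ≠ 0 → ∃ k', dactL alD4 (wdD4 k ++ wdD4 k') (List.replicate 4 1) ≠
      dactL alD4 (wdD4 k' ++ wdD4 k) (List.replicate 4 1) ∧ k'.1 < k.1 := by decide +kernel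
  intro k hk
  obtain ⟨k', h1, h2⟩ := this k hk
  exact ⟨k', foldD4.conn_of_tree cartanD4 k k' h1, foldD4.conn_of_tree cartanD4 k' k h1.symm, h2⟩

/-! ### twisted F4 -/

/-- the diagram symmetry. -/
def rhoF4 : Equiv.Perm (Fin 4) := ⟨![3, 2, 1, 0], ![3, 2, 1, 0], by decide, by decide⟩
theorem rhoF4_M : ∀ i j, CoxeterMatrix.F₄ (rhoF4 i) (rhoF4 j) = CoxeterMatrix.F₄ i j :=
  fun i j => Nat.eq_of_beq_eq_true (by revert i j; decide +kernel)
/-- the orbits. -/
def orbF4 : Fin 2 → List (Fin 4) := ![[0, 3], [1, 2]]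
/-- the longest words of the orbits. -/
def wdF4 : Fin 2 → List (Fin 4) := ![[0, 3], [1, 2, 1, 2]]
/-- the exponents. -/
def expF4 : Fin 2 → ℕ := ![1, 2]
theorem foldOKF4 : FoldOK alF4 rhoF4 orbF4 wdF4 := by
  refine ⟨?_, ?_, ?_, ?_, ?_, ?_, ?_⟩ <;> decide +kernel
/-- the folding. -/
def foldF4 : Fold CoxeterMatrix.F₄ (Fin 2) := Fold.ofPerm cartanF4 rhoF4_M orbF4 wdF4 foldOKF4
/-- chain certificate. -/
def tchainF4 : List (Fin 2 × ℕ × List (ℕ × ℕ)) :=
  [(1, 35224, [(34680, 11), (22932, 9), (46684, 8), (19122, 6), (50782, 5), (23220, 3), (46972, 2), (35224, 0)]),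
  (0, 39049, [(31127, 1), (39049, 0)])]
theorem chk_tchainF4 : chkChain alF4 orbF4 wdF4 expF4 tchainF4 = true := by decide +kernel
theorem all_tchainF4 : ∀ k, k ∈ tchainF4.map Prod.fst := by decide +kernel
theorem card_foldF4 : Nat.card foldF4.W1 = 16 :=
  (chkChain_card foldF4 cartanF4 (fun _ _ => rfl) expF4 chk_tchainF4 all_tchainF4).2
theorem len_foldF4 (k : Fin 2) : clen CoxeterMatrix.F₄ (foldF4.g k) = 2 * expF4 k := by
  refine (len_wordProd cartanF4 (wdF4 k) ?_).trans ?_ <;> revert k <;> decide +kernel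
theorem tpolyF4 (q : ℤ) : (q - 1) ^ 2 * chainPoly q tchainF4 =
    (q - 1) * (q ^ 3 + 1) * (q ^ 4 - 1) * (q ^ 6 + 1) := by
  simp only [chainPoly, tchainF4, List.map_cons, List.map_nil, List.sum_cons, List.sum_nil, List.prod_cons,
    List.prod_nil]
  ring
theorem conn_foldF4 : ∀ k : Fin 2, k ≠ 0 → ∃ k', foldF4.g k * foldF4.g k' ≠ foldF4.g k' * foldF4.g k ∧
    foldF4.g k' * foldF4.g k ≠ foldF4.g k * foldF4.g k' ∧ k'.1 < k.1 := by
  have : ∀ k : Fin 2, k ≠ 0 → ∃ k', dactL alF4 (wdF4 k ++ wdF4 k') (List.replicate 4 1) ≠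
      dactL alF4 (wdF4 k' ++ wdF4 k) (List.replicate 4 1) ∧ k'.1 < k.1 := by decide +kernel
  intro k hk
  obtain ⟨k', h1, h2⟩ := this k hk
  exact ⟨k', foldF4.conn_of_tree cartanF4 k k' h1, foldF4.conn_of_tree cartanF4 k' k h1.symm, h2⟩

/-! ### twisted G2 -/

/-- the diagram symmetry. -/
def rhoG2 : Equiv.Perm (Fin 2) := ⟨![1, 0], ![1, 0], by decide, by decide⟩
theorem rhoG2_M : ∀ i j, CoxeterMatrix.G₂ (rhoG2 i) (rhoG2 j) = CoxeterMatrix.G₂ i j :=
  fun i j => Nat.eq_of_beq_eq_true (by revert i j; decide +kernel)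
/-- the orbits. -/
def orbG2 : Fin 1 → List (Fin 2) := ![[0, 1]]
/-- the longest words of the orbits. -/
def wdG2 : Fin 1 → List (Fin 2) := ![[0, 1, 0, 1, 0, 1]]
/-- the exponents. -/
def expG2 : Fin 1 → ℕ := ![3]
theorem foldOKG2 : FoldOK alG2 rhoG2 orbG2 wdG2 := by
  refine ⟨?_, ?_, ?_, ?_, ?_, ?_, ?_⟩ <;> decide +kernel
/-- the folding. -/
def foldG2 : Fold CoxeterMatrix.G₂ (Fin 1) := Fold.ofPerm cartanG2 rhoG2_M orbG2 wdG2 foldOKG2
/-- chain certificate. -/
def tchainG2 : List (Fin 1 × ℕ × List (ℕ × ℕ)) :=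
  [(0, 153, [(119, 3), (153, 0)])]
theorem chk_tchainG2 : chkChain alG2 orbG2 wdG2 expG2 tchainG2 = true := by decide +kernel
theorem all_tchainG2 : ∀ k, k ∈ tchainG2.map Prod.fst := by decide +kernel
theorem card_foldG2 : Nat.card foldG2.W1 = 2 :=
  (chkChain_card foldG2 cartanG2 (fun _ _ => rfl) expG2 chk_tchainG2 all_tchainG2).2
theorem len_foldG2 (k : Fin 1) : clen CoxeterMatrix.G₂ (foldG2.g k) = 2 * expG2 k := by
  refine (len_wordProd cartanG2 (wdG2 k) ?_).trans ?_ <;> revert k <;> decide +kernel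
theorem tpolyG2 (q : ℤ) : (q - 1) * chainPoly q tchainG2 =
    (q - 1) * (q ^ 3 + 1) := by
  simp only [chainPoly, tchainG2, List.map_cons, List.map_nil, List.sum_cons, List.sum_nil, List.prod_cons,
    List.prod_nil]
  ring
theorem conn_foldG2 : ∀ k : Fin 1, k ≠ 0 → ∃ k', foldG2.g k * foldG2.g k' ≠ foldG2.g k' * foldG2.g k ∧
    foldG2.g k' * foldG2.g k ≠ foldG2.g k * foldG2.g k' ∧ k'.1 < k.1 := by
  have : ∀ k : Fin 1, k ≠ 0 → ∃ k', dactL alG2 (wdG2 k ++ wdG2 k') (List.replicate 2 1) ≠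
      dactL alG2 (wdG2 k' ++ wdG2 k) (List.replicate 2 1) ∧ k'.1 < k.1 := by decide +kernel
  intro k hk
  obtain ⟨k', h1, h2⟩ := this k hk
  exact ⟨k', foldG2.conn_of_tree cartanG2 k k' h1, foldG2.conn_of_tree cartanG2 k' k h1.symm, h2⟩

theorem equiv_foldE6 : Nonempty (foldE6.W1 ≃* CoxeterMatrix.F₄.Group) := by
  have := (card_of_chain cartanF4 chk_chainF4 all_chainF4).1
  exact foldE6.equiv_cox cartanE6 _ (by decide +kernel) (card_foldE6.trans cardF4.symm)

theorem equiv_foldD4 : Nonempty (foldD4.W1 ≃* CoxeterMatrix.G₂.Group) := by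
  have := (card_of_chain cartanG2 chk_chainG2 all_chainG2).1
  exact foldD4.equiv_cox cartanD4 _ (by decide +kernel) (card_foldD4.trans cardG2.symm)

/-- words for the elements of the dihedral group of order 16. -/
def dihWord : DihedralGroup 8 → List (Fin 4)
  | .r i => (List.replicate i.val [0, 3, 1, 2, 1, 2]).flatten
  | .sr i => [0, 3] ++ (List.replicate i.val [0, 3, 1, 2, 1, 2]).flatten

theorem equiv_foldF4 : Nonempty (foldF4.W1 ≃* DihedralGroup 8) :=
  Fold.equiv_words cartanF4 rhoF4_M orbF4 wdF4 foldOKF4 dihWord (by decide +kernel) (by decide +kernel)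
    (by decide +kernel) (card_foldF4.trans (by rw [DihedralGroup.nat_card]))

theorem equiv_foldG2 : Nonempty (foldG2.W1 ≃* Multiplicative (ZMod 2)) :=
  Fold.equiv_words cartanG2 rhoG2_M orbG2 wdG2 foldOKG2 (fun x => if x = 1 then [] else [0, 1, 0, 1, 0, 1])
    (by decide +kernel) (by decide +kernel) (by decide +kernel) (card_foldG2.trans (by simp))

end CA.Weyl

theorem CA.realizeEqns_WeylFold : True := by
  have := @CA.Weyl.expF4.eq_1
  have := @CA.Weyl.expF4.eq_def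
  have := @CA.Weyl.expF4.congr_simp
  have := @CA.Weyl.rhoF4.eq_1
  have := @CA.Weyl.rhoF4.eq_def
  have := @CA.Weyl.rhoF4.congr_simp
  have := @CA.Weyl.orbD4.eq_1
  have := @CA.Weyl.orbD4.eq_def
  have := @CA.Weyl.orbD4.congr_simp
  have := @CA.Weyl.rhoG2.eq_1
  have := @CA.Weyl.rhoG2.eq_def
  have := @CA.Weyl.rhoG2.congr_simp
  have := @CA.Weyl.orbG2.eq_1
  have := @CA.Weyl.orbG2.eq_def
  have := @CA.Weyl.orbG2.congr_simp
  have := @CA.Weyl.permW.eq_1.{0}
  have := @CA.Weyl.permW.eq_def.{0}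
  have := @CA.Weyl.permW.congr_simp.{0}
  have := @CA.Weyl.FoldOK.eq_1.{0}
  have := @CA.Weyl.FoldOK.eq_def.{0}
  have := @CA.Weyl.FoldOK.congr_simp.{0}
  have := @CA.Weyl.tchainE6.eq_1
  have := @CA.Weyl.tchainE6.eq_def
  have := @CA.Weyl.tchainE6.congr_simp
  have := @CA.Weyl.foldD4.eq_1
  have := @CA.Weyl.foldD4.eq_def
  have := @CA.Weyl.foldD4.congr_simp
  have := @CA.Weyl.foldF4.eq_1
  have := @CA.Weyl.foldF4.eq_def
  have := @CA.Weyl.foldF4.congr_simp
  have := @CA.Weyl.wdG2.eq_1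
  have := @CA.Weyl.wdG2.eq_def
  have := @CA.Weyl.wdG2.congr_simp
  have := @CA.Weyl.wdD4.eq_1
  have := @CA.Weyl.wdD4.eq_def
  have := @CA.Weyl.wdD4.congr_simp
  have := @CA.Weyl.rhoD4.eq_1
  have := @CA.Weyl.rhoD4.eq_def
  have := @CA.Weyl.rhoD4.congr_simp
  have := @CA.Weyl.expG2.eq_1
  have := @CA.Weyl.expG2.eq_def
  have := @CA.Weyl.expG2.congr_simp
  have := @CA.Weyl.Fold.ofPerm.eq_1.{0}
  have := @CA.Weyl.Fold.ofPerm.eq_def.{0}
  have := @CA.Weyl.Fold.ofPerm.congr_simp.{0}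
  have := @CA.Weyl.orbE6.eq_1
  have := @CA.Weyl.orbE6.eq_def
  have := @CA.Weyl.orbE6.congr_simp
  have := @CA.Weyl.expD4.eq_1
  have := @CA.Weyl.expD4.eq_def
  have := @CA.Weyl.expD4.congr_simp
  have := @CA.Weyl.orbF4.eq_1
  have := @CA.Weyl.orbF4.eq_def
  have := @CA.Weyl.orbF4.congr_simp
  have := @CA.Weyl.foldE6.eq_1
  have := @CA.Weyl.foldE6.eq_def
  have := @CA.Weyl.foldE6.congr_simp
  have := @CA.Weyl.expE6.eq_1
  have := @CA.Weyl.expE6.eq_def
  have := @CA.Weyl.expE6.congr_simp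
  have := @CA.Weyl.wdE6.eq_1
  have := @CA.Weyl.wdE6.eq_def
  have := @CA.Weyl.wdE6.congr_simp
  have := @CA.Weyl.dihWord.eq_1
  have := @CA.Weyl.dihWord.eq_2
  have := @CA.Weyl.dihWord.eq_def
  have := @CA.Weyl.dihWord.congr_simp
  have := @CA.Weyl.wdF4.eq_1
  have := @CA.Weyl.wdF4.eq_def
  have := @CA.Weyl.wdF4.congr_simp
  have := @CA.Weyl.tchainD4.eq_1
  have := @CA.Weyl.tchainD4.eq_def
  have := @CA.Weyl.tchainD4.congr_simp
  have := @CA.Weyl.foldG2.eq_1
  have := @CA.Weyl.foldG2.eq_def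
  have := @CA.Weyl.foldG2.congr_simp
  have := @CA.Weyl.rhoE6.eq_1
  have := @CA.Weyl.rhoE6.eq_def
  have := @CA.Weyl.rhoE6.congr_simp
  have := @CA.Weyl.tchainF4.eq_1
  have := @CA.Weyl.tchainF4.eq_def
  have := @CA.Weyl.tchainF4.congr_simp
  have := @CA.Weyl.tchainG2.eq_1
  have := @CA.Weyl.tchainG2.eq_def
  have := @CA.Weyl.tchainG2.congr_simp
  trivial
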