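/-
Fixed points of an endomorphism permuting the root subgroups along a diagram symmetry.
-/
import Cfsg.Agent.Chev.RGDSolv
import Cfsg.Agent.Chev.WeylFold

set_option autoImplicit false
set_option linter.unusedSectionVars false
set_option linter.unusedSimpArgs false
set_option linter.unusedVariables false

namespace CA.RGD

open CA.Weyl CoxeterSystem

section derived
variable {Γ : Type*} [Group Γ]

/-- the derived group of a subgroup, in the ambient group. -/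
def der (K : Subgroup Γ) : Subgroup Γ := (commutator K).map K.subtype

theorem comm_mem_der {K : Subgroup Γ} {a b : Γ} (ha : a ∈ K) (hb : b ∈ K) : a * b * a⁻¹ * b⁻¹ ∈ der K :=
  ⟨_, Subgroup.commutator_mem_commutator (Subgroup.mem_top (⟨a, ha⟩ : K)) (Subgroup.mem_top ⟨b, hb⟩), rfl⟩

theorem conj_mem_der {K : Subgroup Γ} {a b : Γ} (ha : a ∈ K) (hb : b ∈ der K) : a * b * a⁻¹ ∈ der K := by
  obtain ⟨b, hb, rfl⟩ := hb
  exact ⟨⟨a, ha⟩ * b * ⟨a, ha⟩⁻¹, Subgroup.Normal.conj_mem inferInstance b hb _, rfl⟩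

theorem der_le (K : Subgroup Γ) : der K ≤ K := Subgroup.map_subtype_le _

theorem mem_der_iff {K : Subgroup Γ} {g : K} : (g : Γ) ∈ der K ↔ g ∈ commutator K :=
  ⟨fun ⟨b, hb, h⟩ => (Subtype.ext h : b = g) ▸ hb, fun h => ⟨g, h, rfl⟩⟩

theorem perfect_of_le_der {K : Subgroup Γ} (h : K ≤ der K) : commutator K = ⊤ := by
  rw [eq_top_iff]
  rintro g -
  exact mem_der_iff.1 (h g.2)

/-- a subgroup on which an element acts without fixed points consists of commutators. -/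
theorem le_der_of_fpf {K P : Subgroup Γ} [Finite P] (hP : P ≤ K) {h : Γ} (hh : h ∈ K)
    (hn : ∀ x ∈ P, h * x * h⁻¹ ∈ P) (hf : ∀ x ∈ P, h * x * h⁻¹ = x → x = 1) : P ≤ der K := by
  let f : P → P := fun x => ⟨(x : Γ)⁻¹ * (h * x * h⁻¹), mul_mem (inv_mem x.2) (hn x x.2)⟩
  have hinj : Function.Injective f := by
    rintro ⟨x, hx⟩ ⟨y, hy⟩ he
    have h1 : x⁻¹ * (h * x * h⁻¹) = y⁻¹ * (h * y * h⁻¹) := congrArg Subtype.val he
    have h2 := hf (x * y⁻¹) (mul_mem hx (inv_mem hy)) (by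
      calc h * (x * y⁻¹) * h⁻¹ = x * (x⁻¹ * (h * x * h⁻¹)) * (h * y⁻¹ * h⁻¹) := by group
        _ = x * y⁻¹ := by rw [h1]; group)
    exact Subtype.ext (mul_inv_eq_one.1 h2)
  intro z hz
  obtain ⟨⟨x, hx⟩, he⟩ := Finite.surjective_of_injective hinj ⟨z, hz⟩
  have h1 : x⁻¹ * (h * x * h⁻¹) = z := congrArg Subtype.val he
  rw [← h1]
  simpa [mul_assoc] using comm_mem_der (inv_mem (hP hx)) hh

end derived

variable {B : Type*} [Fintype B] [DecidableEq B] {Φ : Type*} {R : RootSys B Φ} {Γ : Type*} [Group Γ]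

/-- an endomorphism of `G` permuting the simple root subgroups. -/
structure Aut (S : Sys R Γ) where
  ρ : Equiv.Perm B
  hρ : ∀ i j, R.M (ρ i) (ρ j) = R.M i j
  f : Γ → Γ
  mul : ∀ a ∈ S.G, ∀ b ∈ S.G, f (a * b) = f a * f b
  X_pos : ∀ i, ∀ x ∈ S.X (R.sim i), f x ∈ S.X (R.sim (ρ i))
  H_H : ∀ h ∈ S.H, f h ∈ S.H
  rep_ns : ∀ i, S.Rep (f (S.ns i)) (R.M.simple (ρ i))

namespace Aut

open Sys

variable {S : Sys R Γ} (A : Aut S)

theorem f_one : A.f 1 = 1 := by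
  have := A.mul 1 (one_mem _) 1 (one_mem _)
  rw [one_mul] at this
  exact left_eq_mul.1 this

theorem f_inv {a : Γ} (ha : a ∈ S.G) : A.f a⁻¹ = (A.f a)⁻¹ :=
  eq_inv_of_mul_eq_one_left (by rw [← A.mul _ (inv_mem ha) _ ha, inv_mul_cancel, A.f_one])

theorem f_conj {a b : Γ} (ha : a ∈ S.G) (hb : b ∈ S.G) : A.f (a * b * a⁻¹) = A.f a * A.f b * (A.f a)⁻¹ := by
  rw [A.mul _ (mul_mem ha hb) _ (inv_mem ha), A.mul _ ha _ hb, A.f_inv ha]

/-- the elements of `G` mapped into `K`. -/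
def pre (K : Subgroup Γ) : Subgroup Γ where
  carrier := {g | g ∈ S.G ∧ A.f g ∈ K}
  mul_mem' ha hb := ⟨mul_mem ha.1 hb.1, by rw [A.mul _ ha.1 _ hb.1]; exact mul_mem ha.2 hb.2⟩
  one_mem' := ⟨one_mem _, by rw [A.f_one]; exact one_mem _⟩
  inv_mem' ha := ⟨inv_mem ha.1, by rw [A.f_inv ha.1]; exact inv_mem ha.2⟩

/-- the fixed points. -/
def Fx : Subgroup Γ where
  carrier := {g | g ∈ S.G ∧ A.f g = g}
  mul_mem' ha hb := ⟨mul_mem ha.1 hb.1, by rw [A.mul _ ha.1 _ hb.1, ha.2, hb.2]⟩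
  one_mem' := ⟨one_mem _, A.f_one⟩
  inv_mem' ha := ⟨inv_mem ha.1, by rw [A.f_inv ha.1, ha.2]⟩

theorem mem_Fx {g : Γ} : g ∈ A.Fx ↔ g ∈ S.G ∧ A.f g = g := Iff.rfl

theorem rep {m : Γ} {w : R.W} (h : S.Rep m w) : S.Rep (A.f m) (permW A.hρ w) := by
  induction w using len_induction generalizing m with
  | h1 => rw [map_one]; exact rep_one_iff.2 (A.H_H _ (rep_one_iff.1 h))
  | hs w i _ ih =>
    have h1 : S.Rep (m * (S.ns i)⁻¹) w := by simpa [mul_assoc] using h.mul (S.rep_ns_inv i)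
    have h2 := (ih h1).mul (A.rep_ns i)
    rw [← A.mul _ h1.mem_G _ (S.ns_mem_G i)] at h2
    rw [map_mul, permW_simple]
    simpa using h2

theorem map_X (w : R.W) (i : B) {x : Γ} (hx : x ∈ S.X (R.act w (R.sim i))) :
    A.f x ∈ S.X (R.act (permW A.hρ w) (R.sim (A.ρ i))) := by
  obtain ⟨m, hm⟩ := S.exists_rep w
  rw [← hm.map_X] at hx
  obtain ⟨y, hy, rfl⟩ := hx
  show A.f (m * y * m⁻¹) ∈ _
  rw [A.f_conj hm.mem_G (S.X_le_G _ hy)]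
  exact (A.rep hm).conj_X (A.X_pos i y hy)

theorem map_XS {P Q : Φ → Prop}
    (h : ∀ w i, P (R.act w (R.sim i)) → Q (R.act (permW A.hρ w) (R.sim (A.ρ i)))) {x : Γ} (hx : x ∈ S.XS P) :
    A.f x ∈ S.XS Q := by
  have : S.XS P ≤ A.pre (S.XS Q) := S.XS_le fun r hr y hy => by
    obtain ⟨w, i, rfl⟩ := R.exists_act_sim r
    exact ⟨S.X_le_G _ hy, S.X_le_XS (h w i hr) (A.map_X w i hy)⟩
  exact (this hx).2

theorem map_U {x : Γ} (hx : x ∈ S.U) : A.f x ∈ S.U :=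
  A.map_XS (fun w i h => by rwa [R.pos_act_sim_iff, desc_permW, ← R.pos_act_sim_iff]) hx

theorem map_Um {w : R.W} {x : Γ} (hx : x ∈ S.Um w) : A.f x ∈ S.Um (permW A.hρ w) :=
  A.map_XS (fun w' i h => ⟨by rw [R.pos_act_sim_iff, desc_permW, ← R.pos_act_sim_iff]; exact h.1, by
    rw [← R.act_mul, ← map_mul, R.pos_act_sim_iff, desc_permW, ← R.pos_act_sim_iff, R.act_mul]; exact h.2⟩) hx

theorem split (hS : S.Faithful) [Finite R.W] {w : R.W} {u m x : Γ} (hu : u ∈ S.U) (hm : S.Rep m w)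
    (hx : x ∈ S.Um w) (h : u * m * x ∈ A.Fx) : u ∈ A.Fx ∧ m ∈ A.Fx ∧ x ∈ A.Fx ∧ permW A.hρ w = w := by
  have hu' := S.U_le_G hu
  have hx' := S.U_le_G (S.Um_le_U _ hx)
  have h1 := h.2
  rw [A.mul _ (mul_mem hu' hm.mem_G) _ hx', A.mul _ hu' _ hm.mem_G] at h1
  obtain ⟨h2, h3, h4, h5⟩ := hS.bruhat_unique' (A.rep hm) hm (A.map_U hu) hu (A.map_Um hx) hx h1
  exact ⟨⟨hu', h3⟩, ⟨hm.mem_G, h4⟩, ⟨hx', h5⟩, h2⟩

/-- the twisted subgroup. -/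
def twist (hS : S.Faithful) [Finite R.W] {K : Type*} (F : Fold R.M K)
    (hF : ∀ w, permW A.hρ w = w → w ∈ F.W1) (G1 : Subgroup Γ) (h1 : G1 ≤ A.Fx)
    (h2 : ∀ k, ∀ x ∈ A.Fx, x ∈ S.Um (F.g k) → x ∈ G1)
    (h3 : ∀ k, ∃ y ∈ G1, y ∈ S.XS (fun r => ¬ R.Pos r ∧ R.InSub (F.Js k) r) ∧ y ≠ 1) : Twist S K where
  F := F
  Fx := A.Fx
  G1 := G1
  G1_le := h1
  Fx_le _ h := h.1
  split w u m x hu hm hx h := by
    obtain ⟨h1, h2, h3, h4⟩ := A.split hS hu hm hx h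
    exact ⟨h1, h2, h3, hF w h4⟩
  up_le := h2
  exists_v := h3

end Aut

namespace Twist

open Sys

variable {S : Sys R Γ} {K : Type*} (T : Twist S K) (hS : S.Faithful) [Finite R.W]

/-- `G1` is generated by the fixed points in the groups attached to the classes and their negatives. -/
def Gen : Prop := ∀ P : Subgroup Γ, (∀ k, ∀ x ∈ T.Fx, x ∈ S.Um (T.F.g k) → x ∈ P) →
  (∀ k, ∀ x ∈ T.Fx, x ∈ S.XS (fun r => ¬ R.Pos r ∧ R.InSub (T.F.Js k) r) → x ∈ P) → T.G1 ≤ P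

include hS

theorem V_le {x : Γ} (hF : x ∈ T.Fx) (hx : x ∈ S.V) : x ∈ T.G1 := by
  obtain ⟨w, hw, hd⟩ := T.exists_longest_W1
  obtain ⟨m, hm, h⟩ := T.exists_rep_W1 hS hw
  have := T.U_le hS (mul_mem (mul_mem (T.G1_le hm) hF) (inv_mem (T.G1_le hm))) (h.conj_V_U hd hx)
  simpa [mul_assoc] using mul_mem (mul_mem (inv_mem hm) this) hm

theorem le_of_normal (hg : T.Gen) {M : Subgroup Γ} (hn : ∀ g ∈ T.G1, ∀ a ∈ M, g * a * g⁻¹ ∈ M)
    (h : ∀ k, ∀ x ∈ T.Fx, x ∈ S.Um (T.F.g k) → x ∈ M) : T.G1 ≤ M := by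
  refine hg M h fun k y hF hy => ?_
  obtain ⟨m, hm, hr⟩ := T.exists_rep_g hS k
  have h1 := h k _ (mul_mem (mul_mem (T.G1_le hm) hF) (inv_mem (T.G1_le hm))) (T.conj_Vp_Um hr hy)
  simpa [mul_assoc] using hn _ (inv_mem hm) _ h1

theorem perfect (hg : T.Gen) (h : ∀ k, ∀ x ∈ T.Fx, x ∈ S.Um (T.F.g k) → x ∈ der T.G1) : commutator T.G1 = ⊤ :=
  perfect_of_le_der (T.le_of_normal hS hg (fun _ hg _ ha => conj_mem_der hg ha) h)

theorem H_conj_G1 (hg : T.Gen) {h : Γ} (hh : h ∈ S.H) (hF : h ∈ T.Fx) {g : Γ} (h1 : g ∈ T.G1) :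
    h * g * h⁻¹ ∈ T.G1 :=
  hg (T.G1.comap (MulAut.conj h).toMonoidHom)
    (fun k x hx hx' => T.up_le k _ (mul_mem (mul_mem hF hx) (inv_mem hF)) (S.H_XS hh hx'))
    (fun k x hx hx' => T.vp_le hS (mul_mem (mul_mem hF hx) (inv_mem hF)) (S.H_XS hh hx')) h1

theorem class_le_der [Finite Γ] (k : K) {h : Γ} (hh : h ∈ S.H) (h1 : h ∈ T.G1)
    (hf : ∀ x ∈ T.Fx, x ∈ S.Um (T.F.g k) → h * x * h⁻¹ = x → x = 1) {x : Γ} (hx : x ∈ T.Fx)
    (hx' : x ∈ S.Um (T.F.g k)) : x ∈ der T.G1 :=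
  le_der_of_fpf (P := T.Fx ⊓ S.Um (T.F.g k)) (fun x hx => T.up_le k x hx.1 hx.2) h1
    (fun x hx => mk_inf (mul_mem (mul_mem (T.G1_le h1) (inf1 hx)) (inv_mem (T.G1_le h1))) (S.H_XS hh hx.2))
    (fun x hx => hf x hx.1 hx.2) ⟨hx, hx'⟩

end Twist

end CA.RGD

theorem CA.realizeEqns_RGDAut : True := by
  have := @CA.RGD.Aut.twist.eq_1.{0,0,0,0}
  have := @CA.RGD.Aut.twist.eq_def.{0,0,0,0}
  have := @CA.RGD.Aut.twist.congr_simp.{0,0,0,0}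
  have := @CA.RGD.Aut.Fx.eq_1.{0,0,0}
  have := @CA.RGD.Aut.Fx.eq_def.{0,0,0}
  have := @CA.RGD.Aut.Fx.congr_simp.{0,0,0}
  have := @CA.RGD.Aut.pre.eq_1.{0,0,0}
  have := @CA.RGD.Aut.pre.eq_def.{0,0,0}
  have := @CA.RGD.Aut.pre.congr_simp.{0,0,0}
  have := @CA.RGD.Twist.Gen.eq_1.{0,0,0,0}
  have := @CA.RGD.Twist.Gen.eq_def.{0,0,0,0}
  have := @CA.RGD.Twist.Gen.congr_simp.{0,0,0,0}
  have := @CA.RGD.der.eq_1.{0}
  have := @CA.RGD.der.eq_def.{0}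
  have := @CA.RGD.der.congr_simp.{0}
  trivial
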