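/-
A transfer criterion for twisted groups with trivial torus; some lemmas on subgroups of index two.
-/
import Cfsg.Agent.Chev.RGDAut

set_option autoImplicit false
set_option linter.unusedSectionVars false
set_option linter.unusedSimpArgs false
set_option linter.unusedVariables false

namespace CA.RGD

open CA.Weyl CoxeterSystem

section general
variable {G : Type*} [Group G]

theorem index_two_of {N : Subgroup G} [N.Normal] {z : G} (hz : z ∉ N) (h2 : z * z ∈ N)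
    (hgen : N ⊔ Subgroup.zpowers z = ⊤) : N.index = 2 := by
  have h1 : orderOf (z : G ⧸ N) = 2 := orderOf_eq_prime (by
    rw [sq, ← QuotientGroup.mk_mul, QuotientGroup.eq_one_iff]; exact h2) (by rwa [ne_eq, QuotientGroup.eq_one_iff])
  have h3 : Subgroup.zpowers (z : G ⧸ N) = ⊤ := by
    have := congrArg (Subgroup.map (QuotientGroup.mk' N)) hgen
    rwa [Subgroup.map_sup, QuotientGroup.map_mk'_self, bot_sup_eq, MonoidHom.map_zpowers,
      Subgroup.map_top_of_surjective _ (QuotientGroup.mk'_surjective N)] at this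
  rw [Subgroup.index, ← h1, ← Nat.card_zpowers, h3, Subgroup.card_top]

theorem commutator_eq_bot_of_cyclic [Group.IsNilpotent G] (h : IsCyclic (G ⧸ commutator G)) : commutator G = ⊥ := by
  have h1 : commutator G ≤ ⁅commutator G, ⊤⁆ := by
    have h2 : ⁅commutator G, ⊤⁆ ≤ commutator G := Subgroup.commutator_le_left _ _
    rw [← Subgroup.Normal.quotient_commutative_iff_commutator_le]
    refine MonoidHom.isMulCommutative_of_isCyclic_of_ker_le_center
      (QuotientGroup.map _ (commutator G) (MonoidHom.id G) h2) ?_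
    intro a ha
    obtain ⟨a, rfl⟩ := QuotientGroup.mk_surjective a
    replace ha : a ∈ commutator G := (QuotientGroup.eq_one_iff a).1 ha
    rw [Subgroup.mem_center_iff]
    intro b
    obtain ⟨b, rfl⟩ := QuotientGroup.mk_surjective b
    rw [← QuotientGroup.mk_mul, ← QuotientGroup.mk_mul, QuotientGroup.eq]
    simpa [commutatorElement_def, mul_assoc] using
      Subgroup.commutator_mem_commutator (inv_mem ha) (Subgroup.mem_top b⁻¹)
  obtain ⟨n, hn⟩ := Subgroup.nilpotent_iff_lowerCentralSeries.1 ‹_›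
  have key : ∀ n, commutator G ≤ Subgroup.lowerCentralSeries ⊤ n := by
    intro n
    induction n with
    | zero => exact le_top
    | succ n ih => exact h1.trans (Subgroup.commutator_mono ih le_rfl)
  exact le_bot_iff.1 (hn ▸ key n)

theorem simple_of_index_two [Finite G] {T : Subgroup G} (h2 : T.index = 2)
    (h : ∀ M : Subgroup G, M.Normal → M = ⊥ ∨ T ≤ M) (hs : ¬ IsSquare (Nat.card T)) : IsSimpleGroup T := by
  have hT : T.Normal := T.normal_of_index_eq_two h2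
  have : Nontrivial T := by
    rw [← Finite.one_lt_card_iff_nontrivial]
    by_contra h0
    have h1 : Nat.card T = 1 := le_antisymm (not_lt.1 h0) Nat.card_pos
    exact hs (h1 ▸ IsSquare.one)
  refine ⟨fun N hN => ?_⟩
  obtain ⟨g, hg⟩ := Subgroup.index_eq_two_iff.1 h2
  set A := N.map T.subtype with hA
  have hAT : A ≤ T := Subgroup.map_subtype_le _
  have h1 : ∀ t ∈ T, ∀ a ∈ A, t * a * t⁻¹ ∈ A := by
    rintro t ht _ ⟨a, ha, rfl⟩
    exact ⟨_, hN.conj_mem a ha ⟨t, ht⟩, rfl⟩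
  let B := A.comap (MulAut.conj g).toMonoidHom
  have hB : ∀ x, x ∈ B ↔ g * x * g⁻¹ ∈ A := fun x => Iff.rfl
  have hgT : g ∉ T := fun h => by simpa [h] using hg 1
  have h3 : ∀ t ∈ T, ∀ a ∈ B, t * a * t⁻¹ ∈ B := fun t ht a ha => by
    simpa [hB, mul_assoc] using h1 _ (hT.conj_mem t ht g) _ ha
  have h4 : ∀ t, t ∉ T → (∀ a ∈ A, t * a * t⁻¹ ∈ B) ∧ ∀ a ∈ B, t * a * t⁻¹ ∈ A := fun t ht => ⟨fun a ha => by
    simpa [hB, mul_assoc] using h1 (g * t) ((Subgroup.mul_mem_iff_of_index_two h2).2 (by simp [hgT, ht])) _ ha,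
    fun a ha => by
      simpa [hB, mul_assoc] using h1 (t * g⁻¹) ((Subgroup.mul_mem_iff_of_index_two h2).2 (by simp [hgT, ht])) _ ha⟩
  have hBT : B ≤ T := fun b hb => by simpa [mul_assoc] using hT.conj_mem _ (hAT hb) g⁻¹
  rcases h (A ⊓ B) ⟨fun a ha t => by
    by_cases ht : t ∈ T
    exacts [⟨h1 t ht a ha.1, h3 t ht a ha.2⟩, ⟨(h4 t ht).2 a ha.2, (h4 t ht).1 a ha.1⟩]⟩ with h5 | h5
  swap
  · right
    rw [eq_top_iff]
    intro t _
    obtain ⟨a, ha, he⟩ := (h5 t.2).1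
    exact (Subtype.ext he : a = t) ▸ ha
  rcases h (A ⊔ B) ⟨fun a ha t => by
    by_cases ht : t ∈ T
    exacts [conj_mem_sup (fun x hx => Subgroup.mem_sup_left (h1 t ht x hx))
      (fun x hx => Subgroup.mem_sup_right (h3 t ht x hx)) ha,
      conj_mem_sup (fun x hx => Subgroup.mem_sup_right ((h4 t ht).1 x hx))
      (fun x hx => Subgroup.mem_sup_left ((h4 t ht).2 x hx)) ha]⟩ with h6 | h6
  · left
    exact (Subgroup.map_eq_bot_iff_of_injective _ T.subtype_injective).1 (le_bot_iff.1 (h6 ▸ le_sup_left))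
  · exfalso
    refine hs ⟨Nat.card A, ?_⟩
    have h7 : Nat.card B = Nat.card A := Nat.card_congr ((MulAut.conj g).toEquiv.subtypeEquiv fun _ => Iff.rfl)
    nth_rw 1 [← h7]
    rw [← Nat.card_prod]
    symm
    refine Nat.card_eq_of_bijective (fun p => ⟨p.1 * p.2, mul_mem (hBT p.1.2) (hAT p.2.2)⟩) ⟨?_, ?_⟩
    · rintro ⟨b, a⟩ ⟨b', a'⟩ he
      have h8 : (b : G) * a = b' * a' := congrArg Subtype.val he
      have h9 : (b' : G)⁻¹ * b ∈ A ⊓ B := Subgroup.mem_inf.2 ⟨by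
        rw [show (b' : G)⁻¹ * b = a' * (a : G)⁻¹ by rw [inv_mul_eq_iff_eq_mul, ← mul_assoc, ← h8]; simp]
        exact mul_mem a'.2 (inv_mem a.2), mul_mem (inv_mem b'.2) b.2⟩
      rw [h5, Subgroup.mem_bot, inv_mul_eq_one] at h9
      rw [← h9, mul_right_inj] at h8
      exact Prod.ext (Subtype.ext h9.symm) (Subtype.ext h8)
    · rintro ⟨t, ht⟩
      obtain ⟨b, hb, a, ha, rfl⟩ := mem_sup_of_norm' (fun k hk => h1 k (hBT hk)) (h6 ht)
      exact ⟨(⟨b, hb⟩, ⟨a, ha⟩), rfl⟩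

end general

variable {B : Type*} [Fintype B] [DecidableEq B] {Φ : Type*} {R : RootSys B Φ} {Γ : Type*} [Group Γ]
  {S : Sys R Γ}

variable (S) in
/-- the part of `U` kept positive by `w`. -/
def Sys.Up (w : R.W) : Subgroup Γ := S.XS fun r => R.Pos r ∧ R.Pos (R.act w r)

theorem Sys.Um_longest_mul {w0 : R.W} (hw : ∀ j, Desc R.M w0 j) (w : R.W) : S.Um (w0 * w) = S.Up w := by
  simp only [Sys.Um, Sys.Up, R.act_mul, RootSys.not_pos_act_of_forall_desc hw, not_not]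

theorem Sys.Faithful.mem_Up (hS : S.Faithful) [Finite R.W] {m x : Γ} {w : R.W} (hm : S.Rep m w) (hx : x ∈ S.U)
    (hx' : m * x * m⁻¹ ∈ S.U) : x ∈ S.Up w := by
  obtain ⟨w0, hw⟩ := exists_longest R.hA
  obtain ⟨m0, h0⟩ := S.exists_rep w0
  rw [← Sys.Um_longest_mul hw, hS.mem_Um_iff (h0.mul hm)]
  exact ⟨hx, by simpa [mul_assoc] using h0.conj_U_V hw hx'⟩

namespace Twist

variable {K : Type*} (T : Twist S K) (hS : S.Faithful) [Finite R.W] (m : K → Γ) (hm1 : ∀ k, m k ∈ T.G1)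
  (hm : ∀ k, S.Rep (m k) (T.F.g k))
include hS hm1 hm

theorem Um_induction {P : Γ → Prop} (h1 : P 1) (hmul : ∀ a b, P a → P b → P (a * b)) (l : List K) (c : Γ)
    (h : ∀ l1 k l2, l = l1 ++ k :: l2 → T.F.Asc (l1.map T.F.g).prod k ∧ ∀ x ∈ T.Fx, x ∈ S.Um (T.F.g k) →
      P (((l2.map m).prod * c)⁻¹ * x * ((l2.map m).prod * c)))
    {x : Γ} (hx : x ∈ T.Fx) (hx' : x ∈ S.Um (l.map T.F.g).prod) : P (c⁻¹ * x * c) := by
  induction l using List.reverseRecOn generalizing c x with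
  | nil =>
    rw [List.map_nil, List.prod_nil, Sys.Um_one, Subgroup.mem_bot] at hx'
    simpa [hx'] using h1
  | append_singleton l k ih =>
    obtain ⟨h2, h3⟩ := h l k [] rfl
    rw [List.map_append, List.prod_append, List.map_singleton, List.prod_singleton] at hx'
    obtain ⟨y, hy, hy', z, hz, hz', rfl⟩ := T.Um_mul_split hS (hm k) (T.G1_le (hm1 k)) (T.F.len_mul_g R.hA h2) hx' hx
    have := hmul _ _ (ih (m k * c) (fun l1 k' l2 he => by
      simpa [mul_assoc] using h l1 k' (l2 ++ [k]) (by simp [he])) hy' hy) (h3 z hz' hz)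
    simpa [mul_assoc] using this

variable {A : Type*} [CommGroup A] (lam : Γ → A)
  (hlam : ∀ a ∈ T.Fx, a ∈ S.U → ∀ b ∈ T.Fx, b ∈ S.U → lam (a * b) = lam a * lam b) (hH : ∀ h ∈ S.H, h = 1)
  (hB : ∀ k, ∀ x ∈ T.Fx, x ∈ S.Up (T.F.g k) → lam (m k * x * (m k)⁻¹) = lam x)
include hlam hH hB

theorem stable {g x : Γ} (hg : g ∈ T.G1) (hx : x ∈ T.Fx) (h1 : x ∈ S.U) (h2 : g * x * g⁻¹ ∈ S.U) :
    lam (g * x * g⁻¹) = lam x := by
  have key : ∀ w ∈ T.F.W1, ∀ n, S.Rep n w → ∀ x ∈ T.Fx, x ∈ S.Up w → lam (n * x * n⁻¹) = lam x := by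
    intro w hw
    refine T.F.W1_induction R.hA (P := fun w => ∀ n, S.Rep n w → ∀ x ∈ T.Fx, x ∈ S.Up w → lam (n * x * n⁻¹) = lam x)
      (fun n hn x _ _ => by simp [hH n (Sys.rep_one_iff.1 hn)]) (fun w _ k hk ih n hn x hx hx' => ?_) hw
    have h3 : ∀ r, R.Pos r → R.Pos (R.act (w * T.F.g k) r) → R.Pos (R.act (T.F.g k) r) := fun r hr hr' => by
      by_contra h
      exact RootSys.not_pos_act_mul_of_len (T.F.len_mul_g R.hA hk) hr h hr'
    have h4 := ih (n * (m k)⁻¹) (by simpa [mul_assoc] using hn.mul (hm k).inv) (m k * x * (m k)⁻¹)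
      (mul_mem (mul_mem (T.G1_le (hm1 k)) hx) (inv_mem (T.G1_le (hm1 k))))
      ((hm k).conj_XS (fun r hr => ⟨h3 r hr.1 hr.2, by rw [← R.act_mul]; exact hr.2⟩) hx')
    rw [← hB k x hx (S.XS_mono (fun r hr => ⟨hr.1, h3 r hr.1 hr.2⟩) hx'), ← h4]
    congr 1; group
  have hc : ∀ u ∈ T.G1, u ∈ S.U → ∀ x ∈ T.Fx, x ∈ S.U → lam (u * x * u⁻¹) = lam x := fun u hu hu' x hx hx' => by
    have h3 := T.G1_le hu
    have h4 := hlam _ (mul_mem (mul_mem h3 hx) (inv_mem h3)) (mul_mem (mul_mem hu' hx') (inv_mem hu')) u h3 hu'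
    rw [inv_mul_cancel_right, hlam u h3 hu' x hx hx', mul_comm] at h4
    exact (mul_right_cancel h4).symm
  obtain ⟨w, hw, n, hn, hr, u, hu, hu', y, hy, hy', rfl⟩ := T.bruhat hS hg
  have h5 := S.Um_le_U _ hy'
  have h6 := mul_mem (mul_mem h5 h1) (inv_mem h5)
  have h7 := mul_mem (mul_mem (T.G1_le hy) hx) (inv_mem (T.G1_le hy))
  have h8 : n * (y * x * y⁻¹) * n⁻¹ ∈ S.U := by
    simpa [mul_assoc] using mul_mem (mul_mem (inv_mem hu') h2) hu'
  rw [← hc y hy h5 x hx h1, ← key w hw n hr _ h7 (hS.mem_Up hr h6 h8),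
    ← hc u hu hu' _ (mul_mem (mul_mem (T.G1_le hn) h7) (inv_mem (T.G1_le hn))) h8]
  congr 1; group

theorem lam_pow_index [Finite Γ] {z : Γ} (hz : z ∈ der T.G1) (hz' : z ∈ S.U) :
    lam z ^ (S.U.subgroupOf T.G1).index = 1 := by
  obtain ⟨z, hz, rfl⟩ := hz
  let ϕ : S.U.subgroupOf T.G1 →* A := MonoidHom.mk' (fun u => lam u.1.1) fun a b =>
    hlam _ (T.G1_le a.1.2) a.2 _ (T.G1_le b.1.2) b.2
  have h1 : (S.U.subgroupOf T.G1).focalSubgroupOf ≤ ϕ.ker := by
    rw [Subgroup.focalSubgroupOf_eq_closure, Subgroup.closure_le]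
    rintro g ⟨x, hx, u, he⟩
    have h2 : (⟨x, hx⟩⁻¹ * g : S.U.subgroupOf T.G1).1.1 = u * (x : Γ)⁻¹ * (u : Γ)⁻¹ := by
      simp [he, commutatorElement_def, mul_assoc]
    have h3 := T.stable hS m hm1 hm lam hlam hH hB u.2 (inv_mem (T.G1_le x.2)) (inv_mem hx)
      (h2 ▸ Subgroup.mem_subgroupOf.1 (⟨x, hx⟩⁻¹ * g : S.U.subgroupOf T.G1).2)
    rw [← h2] at h3
    have h4 : ϕ (⟨x, hx⟩⁻¹ * g) = ϕ ⟨x, hx⟩⁻¹ := h3
    simpa using h4
  have h2 := (S.U.subgroupOf T.G1).transferFocal_eq_pow ⟨z, hz'⟩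
  have h3 : (S.U.subgroupOf T.G1).transferFocal z = 1 := by
    open scoped IsMulCommutative in exact Abelianization.commutator_subset_ker _ hz
  rw [h3, ← QuotientGroup.mk_pow, eq_comm, QuotientGroup.eq_one_iff] at h2
  exact (map_pow ϕ ⟨z, hz'⟩ _).symm.trans (h1 h2)

end Twist

end CA.RGD

theorem CA.realizeEqns_RGDTrans : True := by
  have := @CA.RGD.Sys.Up.eq_1.{0,0,0}
  have := @CA.RGD.Sys.Up.eq_def.{0,0,0}
  have := @CA.RGD.Sys.Up.congr_simp.{0,0,0}
  trivial
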