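/-
Graph-field automorphisms of a Chevalley group as endomorphisms of the root subgroup system; words in root elements.
-/
import Cfsg.Agent.Chev.ChevMain
import Cfsg.Agent.Chev.RGDAut
import Cfsg.Agent.Chev.AutInst
import Cfsg.Agent.Chev.CertInst

set_option autoImplicit false
set_option linter.unusedSectionVars false
set_option linter.unusedSimpArgs false
set_option linter.unusedVariables false

namespace CA.ChevSys

open Cfsg.Lie Cfsg.Lie.ChevalleyDatum CA.Chev CA.Weyl CA.RGD Matrix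

variable {D : ChevalleyDatum} [RootGood D] [LieGood D] {F : Type*} [Field F]

/-! ### words -/

theorem xN_mem_group (k : ℕ) (t : F) : xN D k t ∈ D.group F := by
  unfold xN; split_ifs
  · exact xU_mem_group _ _
  · exact one_mem _

theorem wordG_mem {K : Subgroup (GL D.Idx F)} {w : List (ℕ × F)} (h : ∀ p ∈ w, xN D p.1 p.2 ∈ K) :
    wordG D w ∈ K := by
  refine Subgroup.list_prod_mem _ fun g hg => ?_
  obtain ⟨p, hp, rfl⟩ := List.mem_map.1 hg
  exact h p hp

theorem wordG_mem_group (w : List (ℕ × F)) : wordG D w ∈ D.group F := wordG_mem fun _ _ => xN_mem_group _ _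

theorem prodL_eq_wordG (L : List (Rt D)) (t : ℕ → F) :
    (stGL D F).prodL L (fun r => t r) = wordG D ((L.map Fin.val).map fun r => (r, t r)) := by
  simp [StSys.prodL, wordG, Function.comp_def]

theorem wordG_unique {w w' : List (ℕ × F)} (h1 : w'.map Prod.fst = w.map Prod.fst) (h2 : (w.map Prod.fst).Nodup)
    (h3 : ∀ r ∈ w.map Prod.fst, D.IsPosRoot r) (h : wordG D w = wordG D w') : w = w' := by
  classical
  have key : ∀ w : List (ℕ × F), (w.map Prod.fst).Nodup →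
      ∃ t : ℕ → F, w = (w.map Prod.fst).map fun r => (r, t r) := by
    intro w hw
    induction w with
    | nil => exact ⟨0, rfl⟩
    | cons p w ih =>
      rw [List.map_cons, List.nodup_cons] at hw
      obtain ⟨t, ht⟩ := ih hw.2
      refine ⟨Function.update t p.1 p.2, ?_⟩
      rw [List.map_cons, List.map_cons, Function.update_self]
      congr 1
      refine ht.trans (List.map_congr_left fun r hr => ?_)
      rw [Function.update_of_ne (by rintro rfl; exact hw.1 hr)]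
  obtain ⟨t, ht⟩ := key w h2
  obtain ⟨t', ht'⟩ := key w' (h1 ▸ h2)
  rw [h1] at ht'
  generalize w.map Prod.fst = L at *
  lift L to List (Rt D) using fun r hr => (h3 r hr).1
  subst ht ht'
  rw [← prodL_eq_wordG, ← prodL_eq_wordG] at h
  have := (stGL D F).prodL_unique closed_isPos (f := ht) (fun r hr => isPos_iff_ht.1 hr) (List.Nodup.of_map _ h2)
    (fun r hr => (isPosRoot_iff r).1 (h3 r (List.mem_map_of_mem hr))) h
  refine List.map_congr_left fun r hr => ?_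
  obtain ⟨r, hr', rfl⟩ := List.mem_map.1 hr
  rw [this r hr']

variable (D) in
/-- the value of the character attached to `c` on the root with index `k`. -/
def chi (c : Nd D → Fˣ) (k : ℕ) : F := ((∏ i, c i ^ D.cartan i k : Fˣ) : F)

theorem hT_conj_xN (c : Nd D → Fˣ) (k : ℕ) (t : F) :
    hT D c * xN D k t * (hT D c)⁻¹ = xN D k (chi D c k * t) := by
  unfold xN; split_ifs
  · exact hT_conj_xU c _ t
  · simp

theorem hT_conj_wordG (c : Nd D → Fˣ) (w : List (ℕ × F)) :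
    hT D c * wordG D w * (hT D c)⁻¹ = wordG D (w.map fun p => (p.1, chi D c p.1 * p.2)) := by
  induction w with
  | nil => simp
  | cons p w ih => rw [List.map_cons, wordG_cons, wordG_cons, ← ih, ← hT_conj_xN]; group

theorem chi_of_fixed {c : Nd D → Fˣ} {w : List (ℕ × F)} (h2 : (w.map Prod.fst).Nodup)
    (h3 : ∀ r ∈ w.map Prod.fst, D.IsPosRoot r) (h : hT D c * wordG D w * (hT D c)⁻¹ = wordG D w) :
    ∀ p ∈ w, chi D c p.1 * p.2 = p.2 := by
  rw [hT_conj_wordG] at h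
  have := wordG_unique (by simp [Function.comp_def]) h2 h3 h.symm
  intro p hp
  have h4 : w.map id = w.map fun p => (p.1, chi D c p.1 * p.2) := by simpa using this
  exact (congrArg Prod.snd (List.map_inj_left.1 h4 p hp)).symm

theorem eq_one_of_chi {c : Nd D → Fˣ} (h : ∀ j : Nd D, chi D c (D.simple j) = 1) : hT D c = 1 :=
  hT_eq_one_iff.2 fun j => Units.ext (h j)

theorem omega_conj_xN {k : ℕ} (hk : k < D.nroots) (t : F) :
    omegaU D F * xN D k t * (omegaU D F)⁻¹ = xN D (D.neg k) (-t) := by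
  lift k to Rt D using hk
  rw [xN_val, ← ng_val, xN_val, omegaU_conj_xU]

theorem omega_conj_wordG {w : List (ℕ × F)} (hw : ∀ p ∈ w, p.1 < D.nroots) :
    omegaU D F * wordG D w * (omegaU D F)⁻¹ = wordG D (D.negWord w) := by
  induction w with
  | nil => simp [negWord]
  | cons p w ih =>
    rw [negWord, List.map_cons, wordG_cons, wordG_cons, ← negWord, ← ih fun q hq => hw q (List.mem_cons_of_mem _ hq)]
    show _ = xN D (D.neg p.1) (-p.2) * _
    rw [← omega_conj_xN (hw p List.mem_cons_self)]; group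

theorem xN_comm {r s : ℕ} (h : r < D.nroots ∧ s < D.nroots ∧ s ≠ D.neg r) (t u : F) :
    xN D s u * xN D r t = xN D r t * xN D s u * wordG D (D.commWord F r s t u) := by
  obtain ⟨hr, hs, hn⟩ := h
  lift r to Rt D using hr
  lift s to Rt D using hs
  rw [xN_val, xN_val, xU_comm (fun h => hn (congrArg Fin.val h)), wordG, commWord, List.map_map]
  rfl

theorem xN_commute {p : ℕ} (hp : (p : F) = 0) {a b : ℕ} (h : b ≠ D.neg a ∧ nrm p (D.commTerms a b) = [])
    (t u : F) : Commute (xN D a t) (xN D b u) := (stGL D F).xN_commute hp h.1 h.2 t u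

theorem nG_conj_xN (i : Nd D) {k : ℕ} (hk : k < D.nroots) : ∃ ε : F, (ε = 1 ∨ ε = -1) ∧ ∀ t,
    nG (sim i) 1 * xN D k t * (nG (sim i) 1)⁻¹ = xN D (D.reflectRoot i k) (ε * t) := by
  lift k to Rt D using hk
  refine ⟨(eta (sim i) k : ℤ), by rcases eta_unit (sim i) k with h | h <;> simp [h], fun t => ?_⟩
  rw [xN_val, nG_one_conj_xU, refl_sim, ← srefl_val, xN_val]

theorem nG_eq_xN (i : Nd D) (c : Fˣ) : nG (sim i) c =
    xN D (D.simple i) (c : F) * xN D (D.neg (D.simple i)) (-(c : F)⁻¹) * xN D (D.simple i) (c : F) := by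
  rw [nG_eq, ← sim_val, ← ng_val, xN_val, xN_val, Units.val_inv_eq_inv_val]

variable [W : WeylGood D]

theorem XS_eq_st (P : Rt D → Prop) : (sys D F).XS P = (stGL D F).XS P := by
  rw [StSys.XS_eq_iSup, Sys.XS]
  simp only [sys_X, rootSubgroup_eq]

variable (D) in
/-- `L` lists the positive roots supported on `J`. -/
def ClassOK (J : List (Nd D)) (L : List ℕ) : Prop :=
  L.Nodup ∧ (∀ r ∈ L, D.IsPosRoot r) ∧ ∀ r : Rt D, (r : ℕ) ∈ L ↔ (IsPos r ∧ ∀ i, i ∉ J → coef r i = 0)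

theorem exists_word {J : List (Nd D)} {L : List ℕ} (hL : ClassOK D J L) {g : GL D.Idx F}
    (hg : g ∈ (sys D F).XS fun r => (rs D).Pos r ∧ (rs D).InSub {j | j ∈ J} r) :
    ∃ t : ℕ → F, g = wordG D (L.map fun r => (r, t r)) := by
  obtain ⟨h1, h2, h3⟩ := hL
  lift L to List (Rt D) using fun r hr => (h2 r hr).1
  rw [XS_eq_st] at hg
  obtain ⟨t, rfl⟩ := (stGL D F).exists_prodL (f := ht) (L := L) (fun r s k hr hs h => ⟨closed_isPos r s k hr.1 hs.1 h,
    fun i hi => RootSys.Btw.coord_zero (R := rs D) h (hr.2 i hi) (hs.2 i hi)⟩) (fun r hr => isPos_iff_ht.1 hr.1)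
    (List.Nodup.of_map _ h1) (fun r => (List.mem_map_of_injective Fin.val_injective).symm.trans (h3 r)) hg
  refine ⟨fun k => if h : k < D.nroots then t ⟨k, h⟩ else 0, ?_⟩
  rw [← prodL_eq_wordG]
  simp

theorem word_mem {J : List (Nd D)} {L : List ℕ} (hL : ClassOK D J L) {w : List (ℕ × F)} (hw : ∀ p ∈ w, p.1 ∈ L) :
    wordG D w ∈ (sys D F).XS fun r => (rs D).Pos r ∧ (rs D).InSub {j | j ∈ J} r := by
  refine wordG_mem fun p hp => ?_
  rw [xN_of_lt (hL.2.1 _ (hw p hp)).1]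
  exact xU_mem_XS ((hL.2.2 _).1 (hw p hp)) _

theorem omega_XS {P Q : Rt D → Prop} (h : ∀ r, P r → Q (ng r)) {g : GL D.Idx F} (hg : g ∈ (sys D F).XS P) :
    omegaU D F * g * (omegaU D F)⁻¹ ∈ (sys D F).XS Q :=
  (sys D F).conj_XS (fun r hr x hx => by
    obtain ⟨t, rfl⟩ := mem_X.1 hx
    rw [omegaU_conj_xU]; exact xU_mem_XS (h r hr) _) hg

theorem Rep.conj_hG {m : GL D.Idx F} {w : (rs D).W} (h : (sys D F).Rep m w) (r : Rt D) (c : Fˣ) :
    m * hG r c * m⁻¹ = hG ((rs D).act w r) c := by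
  induction w using len_induction generalizing m r with
  | h1 => rw [diag_comm (Sys.rep_one_iff.1 h) (hG_mem r c)]; simp
  | hs w i _ ih =>
    have h1 : (sys D F).Rep (m * ((sys D F).ns i)⁻¹) w := by
      simpa [mul_assoc] using h.mul ((sys D F).rep_ns_inv i)
    rw [RootSys.act_mul_s, ← ih h1]
    show _ = m * (nG (sim i) 1)⁻¹ * hG (srefl i r) c * (m * (nG (sim i) 1)⁻¹)⁻¹
    rw [← refl_sim, ← nG_conj_hG (sim i) 1]; group

omit W in
theorem hG_ng (r : Rt D) (c : Fˣ) : hG (ng r) c = (hG r c)⁻¹ := by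
  rw [hG, hG, ← map_inv]
  congr 1
  ext v
  simp

theorem act_wordProd (l : List (Nd D)) (r : Rt D) :
    (rs D).act ((rs D).M.toCoxeterSystem.wordProd l) r = l.foldr srefl r := by
  induction l with
  | nil => simp
  | cons i l ih => rw [CoxeterSystem.wordProd_cons, RootSys.act_mul, ih]; exact (rs D).act_s i _

theorem Rep.conj_inv {m : GL D.Idx F} {l : List (Nd D)}
    (h : (sys D F).Rep m ((rs D).M.toCoxeterSystem.wordProd l))
    (hl : ∀ i, l.foldr srefl (sim i) = ng (sim i)) {g : GL D.Idx F} (hg : g ∈ D.diagonalSubgroup F) :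
    m * g * m⁻¹ = g⁻¹ := by
  let P : Subgroup (GL D.Idx F) :=
    { carrier := {g | g ∈ D.diagonalSubgroup F ∧ m * g * m⁻¹ = g⁻¹}
      mul_mem' := by
        rintro a b ⟨ha, ha'⟩ ⟨hb, hb'⟩
        refine ⟨mul_mem ha hb, ?_⟩
        rw [diag_comm ha hb, _root_.mul_inv_rev, diag_comm hb ha, ← ha', ← hb']; group
      one_mem' := ⟨one_mem _, by simp⟩
      inv_mem' := by
        rintro a ⟨ha, ha'⟩
        exact ⟨inv_mem ha, by rw [← congrArg Inv.inv ha']; group⟩ }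
  have : D.diagonalSubgroup F ≤ P := diag_induction fun i c =>
    ⟨hG_mem _ _, by rw [Rep.conj_hG h, act_wordProd, hl, hG_ng]⟩
  exact (this hg).2

variable (D F) in
/-- a graph-field automorphism. -/
structure TwData where
  p : ℕ
  φ : RMap D D p
  hp : (p : F) = 0
  σ : F ≃+* F
  β : D.group F ≃* D.group F
  hβ : ∀ r t, β (xG r t) = xG (φ.rt r) (φ.γ r * σ t ^ φ.e r)
  ρ : Equiv.Perm (Nd D)
  hρ : ∀ i j, W.M (ρ i) (ρ j) = W.M i j
  hι : ∀ i : Nd D, φ.ι (D.simple i) = D.simple (ρ i) ∧ φ.γ (D.simple i) = 1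

namespace TwData

variable (T : TwData D F)

open Classical in
/-- the automorphism as a map on the general linear group. -/
noncomputable def f (g : GL D.Idx F) : GL D.Idx F := if h : g ∈ D.group F then T.β ⟨g, h⟩ else g

theorem f_mul {a b : GL D.Idx F} (ha : a ∈ D.group F) (hb : b ∈ D.group F) : T.f (a * b) = T.f a * T.f b := by
  rw [f, f, f, dif_pos ha, dif_pos hb, dif_pos (mul_mem ha hb), ← Subgroup.coe_mul, ← map_mul]
  rfl

theorem f_one : T.f 1 = 1 := by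
  rw [f, dif_pos (one_mem _)]
  exact congrArg Subtype.val (map_one T.β)

theorem f_inv {a : GL D.Idx F} (ha : a ∈ D.group F) : T.f a⁻¹ = (T.f a)⁻¹ :=
  eq_inv_of_mul_eq_one_left (by rw [← T.f_mul (inv_mem ha) ha, inv_mul_cancel, T.f_one])

theorem f_xU (r : Rt D) (t : F) : T.f (xU r t) = xU (T.φ.rt r) (T.φ.γ r * T.σ t ^ T.φ.e r) := by
  rw [f, dif_pos (xU_mem_group r t)]
  exact congrArg Subtype.val (T.hβ r t)

theorem f_xN {k : ℕ} (hk : k < D.nroots) (t : F) :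
    T.f (xN D k t) = xN D (T.φ.ι k) (T.φ.γ k * T.σ t ^ T.φ.e k) := by
  lift k to Rt D using hk
  rw [xN_val, f_xU, ← T.φ.rt_val, xN_val]

theorem f_wordG {w : List (ℕ × F)} (hw : ∀ p ∈ w, p.1 < D.nroots) :
    T.f (wordG D w) = wordG D (w.map fun p => (T.φ.ι p.1, T.φ.γ p.1 * T.σ p.2 ^ T.φ.e p.1)) := by
  induction w with
  | nil => exact T.f_one
  | cons p w ih =>
    rw [List.map_cons, wordG_cons, wordG_cons, T.f_mul (xN_mem_group _ _) (wordG_mem_group _),
      ih fun q hq => hw q (List.mem_cons_of_mem _ hq), T.f_xN (hw p List.mem_cons_self)]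

theorem rt_sim (i : Nd D) : T.φ.rt (sim i) = sim (T.ρ i) := Fin.ext (T.hι i).1

theorem neg_pow_e (r : Rt D) (t : F) : (-t) ^ T.φ.e r = - t ^ T.φ.e r := by
  obtain ⟨g, hg⟩ := T.φ.exists_hom T.hp r
  rw [← hg, ← hg, map_neg]

/-- the action on the parameter of the `i`-th node. -/
def ψ (i : Nd D) : Fˣ →* Fˣ := (powMonoidHom (T.φ.e (D.simple i))).comp (Units.map (T.σ : F →* F))

theorem ψ_val (i : Nd D) (c : Fˣ) : ((T.ψ i c : Fˣ) : F) = T.σ c ^ T.φ.e (D.simple i) := by simp [ψ]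

theorem f_nG (i : Nd D) (c : Fˣ) : T.f (nG (sim i) c) = nG (sim (T.ρ i)) (T.ψ i c) := by
  rw [nG_eq, nG_eq, T.f_mul (mul_mem (xU_mem_group _ _) (xU_mem_group _ _)) (xU_mem_group _ _),
    T.f_mul (xU_mem_group _ _) (xU_mem_group _ _), f_xU, f_xU, T.φ.rt_ng, rt_sim, ng_val, T.φ.γ_neg _ (sim i).2,
    T.φ.e_neg _ (sim i).2, map_neg, T.neg_pow_e, sim_val, (T.hι i).2, ← map_inv, ψ_val, ψ_val]
  simp

theorem f_hG (i : Nd D) (c : Fˣ) : T.f (hG (sim i) c) = hG (sim (T.ρ i)) (T.ψ i c) := by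
  rw [hG_eq, hG_eq, T.f_mul (nG_mem_group _ _) (inv_mem (nG_mem_group _ _)), T.f_inv (nG_mem_group _ _), f_nG,
    f_nG, map_one]

/-- the action on the parameters of the torus. -/
def τ : (Nd D → Fˣ) →* (Nd D → Fˣ) where
  toFun c j := T.ψ (T.ρ.symm j) (c (T.ρ.symm j))
  map_one' := by ext; simp
  map_mul' a b := by ext; simp

theorem τ_apply (c : Nd D → Fˣ) (i : Nd D) : T.τ c (T.ρ i) = T.ψ i (c i) := by simp [τ]

theorem τ_eq_iff {c : Nd D → Fˣ} : T.τ c = c ↔ ∀ i, c (T.ρ i) = T.ψ i (c i) :=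
  ⟨fun h i => by rw [← τ_apply, h], fun h => funext fun j => by
    obtain ⟨i, rfl⟩ := T.ρ.surjective j; rw [τ_apply, h]⟩

theorem hT_mem_group (c : Nd D → Fˣ) : hT D c ∈ D.group F := hT_eq_prod c fun _ => hG_mem_group _ _

theorem f_hT (c : Nd D → Fˣ) : T.f (hT D c) = hT D (T.τ c) := by
  rw [← Finset.univ_prod_mulSingle c]
  refine Finset.prod_induction _ (fun c => T.f (hT D c) = hT D (T.τ c)) (fun a b ha hb => ?_)
    (by simp [T.f_one]) fun i _ => ?_
  · rw [map_mul, T.f_mul (hT_mem_group _) (hT_mem_group _), ha, hb, map_mul, map_mul]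
  · rw [hT_mulSingle, f_hG, ← hT_mulSingle]
    congr 1
    ext1 j
    obtain ⟨j, rfl⟩ := T.ρ.surjective j
    rw [τ_apply]
    by_cases h : j = i
    · subst h; simp
    · simp [h]

/-- the endomorphism of the root subgroup system. -/
noncomputable def aut : Aut (sys D F) where
  ρ := T.ρ
  hρ := T.hρ
  f := T.f
  mul a ha b hb := T.f_mul (sys_G (D := D) (F := F) ▸ ha) (sys_G (D := D) (F := F) ▸ hb)
  X_pos i x hx := by
    obtain ⟨t, rfl⟩ := mem_X.1 hx
    show T.f (xU (sim i) t) ∈ (sys D F).X (sim (T.ρ i))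
    rw [f_xU, rt_sim]; exact xU_mem_X _ _
  H_H h hh := by
    obtain ⟨c, rfl⟩ := mem_diag.1 hh
    rw [f_hT]; exact hT_mem _
  rep_ns i := by
    show (sys D F).Rep (T.f (nG (sim i) 1)) _
    rw [f_nG, map_one]; exact (sys D F).rep_ns (T.ρ i)

theorem mem_Fx {g : GL D.Idx F} : g ∈ T.aut.Fx ↔ g ∈ D.group F ∧ T.f g = g := by
  rw [Aut.mem_Fx, sys_G]; rfl

theorem wordG_mem_Fx {w : List (ℕ × F)} (hw : ∀ p ∈ w, p.1 < D.nroots) : wordG D w ∈ T.aut.Fx ↔
    wordG D (w.map fun p => (T.φ.ι p.1, T.φ.γ p.1 * T.σ p.2 ^ T.φ.e p.1)) = wordG D w := by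
  rw [mem_Fx, T.f_wordG hw, and_iff_right (wordG_mem_group w)]

theorem omega_mem_Fx {g : GL D.Idx F} (hg : g ∈ T.aut.Fx) : omegaU D F * g * (omegaU D F)⁻¹ ∈ T.aut.Fx := by
  let P : Subgroup (GL D.Idx F) :=
    { carrier := {g | g ∈ D.group F ∧ omegaU D F * g * (omegaU D F)⁻¹ ∈ D.group F ∧
        T.f (omegaU D F * g * (omegaU D F)⁻¹) = omegaU D F * T.f g * (omegaU D F)⁻¹}
      mul_mem' := by
        rintro a b ⟨ha, ha', ha''⟩ ⟨hb, hb', hb''⟩
        have : omegaU D F * (a * b) * (omegaU D F)⁻¹ =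
          omegaU D F * a * (omegaU D F)⁻¹ * (omegaU D F * b * (omegaU D F)⁻¹) := by group
        refine ⟨mul_mem ha hb, this ▸ mul_mem ha' hb', ?_⟩
        rw [this, T.f_mul ha' hb', ha'', hb'', T.f_mul ha hb]; group
      one_mem' := ⟨one_mem _, by simp, by simp [T.f_one]⟩
      inv_mem' := by
        rintro a ⟨ha, ha', ha''⟩
        have : omegaU D F * a⁻¹ * (omegaU D F)⁻¹ = (omegaU D F * a * (omegaU D F)⁻¹)⁻¹ := by group
        refine ⟨inv_mem ha, this ▸ inv_mem ha', ?_⟩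
        rw [this, T.f_inv ha', ha'', T.f_inv ha]; group }
  have : (sys D F).XS (fun _ => True) ≤ P := (sys D F).XS_le fun r _ x hx => by
    obtain ⟨t, rfl⟩ := mem_X.1 hx
    refine ⟨xU_mem_group _ _, omegaU_conj_xU r t ▸ xU_mem_group _ _, ?_⟩
    rw [omegaU_conj_xU, f_xU, f_xU, omegaU_conj_xU, T.φ.rt_ng, ng_val, T.φ.γ_neg _ r.2, T.φ.e_neg _ r.2, map_neg,
      T.neg_pow_e, mul_neg]
  rw [XS_true] at this
  rw [mem_Fx] at hg ⊢
  obtain ⟨-, h1, h2⟩ := this hg.1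
  exact ⟨h1, by rw [h2, hg.2]⟩

variable {K : Type*} (Fo : Fold (rs D).M K) (hF : ∀ w, permW T.hρ w = w → w ∈ Fo.W1) (G1 : Subgroup (GL D.Idx F))
  (hb : ∀ M : Subgroup (GL D.Idx F), (∀ k, ∀ x ∈ T.aut.Fx, x ∈ (sys D F).Um (Fo.g k) →
    x ∈ M ∧ omegaU D F * x * (omegaU D F)⁻¹ ∈ M) → G1 ≤ M)
  (hc : ∀ k, ∀ x ∈ T.aut.Fx, x ∈ (sys D F).Um (Fo.g k) → x ∈ G1 ∧ omegaU D F * x * (omegaU D F)⁻¹ ∈ G1)
  (hd : ∀ k, ∃ x ∈ T.aut.Fx, x ∈ (sys D F).Um (Fo.g k) ∧ x ≠ 1)

omit T in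
theorem Um_fold (k : K) : (sys D F).Um (Fo.g k) = (sys D F).XS fun r => (rs D).Pos r ∧ (rs D).InSub (Fo.Js k) r :=
  Sys.Um_par (Fo.g_mem_par k) fun _ hj => Fo.desc_g k hj

omit T in
theorem omega_Um {k : K} {x : GL D.Idx F} (hx : x ∈ (sys D F).Um (Fo.g k)) : omegaU D F * x * (omegaU D F)⁻¹ ∈
    (sys D F).XS fun r => ¬ (rs D).Pos r ∧ (rs D).InSub (Fo.Js k) r := by
  rw [Um_fold] at hx
  exact omega_XS (fun r hr => ⟨hr.1.not_ng, RootSys.inSub_ng.2 hr.2⟩) hx

/-- the twisted group. -/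
noncomputable def twist : Twist (sys D F) K :=
  T.aut.twist (faithful D F) Fo hF G1 (hb _ fun k x hx _ => ⟨hx, T.omega_mem_Fx hx⟩)
    (fun k x hx hx' => (hc k x hx hx').1) fun k => by
      obtain ⟨x, hx, hx', h1⟩ := hd k
      exact ⟨_, (hc k x hx hx').2, omega_Um Fo hx', by simpa [mul_inv_eq_iff_eq_mul] using h1⟩

theorem twist_gen : (T.twist Fo hF G1 hb hc hd).Gen := fun P h1 h2 =>
  hb P fun k x hx hx' => ⟨h1 k x hx hx', h2 k _ (T.omega_mem_Fx hx) (omega_Um Fo hx')⟩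

end TwData

end CA.ChevSys

theorem CA.realizeEqns_TwBase : True := by
  have := @CA.ChevSys.ClassOK.eq_1
  have := @CA.ChevSys.ClassOK.eq_def
  have := @CA.ChevSys.ClassOK.congr_simp
  have := @CA.ChevSys.TwData.τ.eq_1.{0}
  have := @CA.ChevSys.TwData.τ.eq_def.{0}
  have := @CA.ChevSys.TwData.τ.congr_simp.{0}
  have := @CA.ChevSys.TwData.ψ.eq_1.{0}
  have := @CA.ChevSys.TwData.ψ.eq_def.{0}
  have := @CA.ChevSys.TwData.ψ.congr_simp.{0}
  have := @CA.ChevSys.chi.eq_1.{0}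
  have := @CA.ChevSys.chi.eq_def.{0}
  have := @CA.ChevSys.chi.congr_simp.{0}
  have := @CA.ChevSys.TwData.f.eq_1.{0}
  have := @CA.ChevSys.TwData.f.eq_def.{0}
  have := @CA.ChevSys.TwData.f.congr_simp.{0}
  have := @CA.ChevSys.TwData.twist.eq_1.{0,0}
  have := @CA.ChevSys.TwData.twist.eq_def.{0,0}
  have := @CA.ChevSys.TwData.twist.congr_simp.{0,0}
  have := @CA.ChevSys.TwData.aut.eq_1.{0}
  have := @CA.ChevSys.TwData.aut.eq_def.{0}
  have := @CA.ChevSys.TwData.aut.congr_simp.{0}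
  trivial
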