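/-
The small Ree group over the field with three elements is `PΓL₂(8)`.
-/
import Cfsg.Agent.Chev.Pairs
import Cfsg.Agent.Chev.F8
import Cfsg.Agent.Chev.TwBase
import Cfsg.Agent.Chev.StInst

set_option autoImplicit false

namespace CA.Chev.Ree3
open CA.Chev CA.ChevSys Cfsg.Lie Cfsg.Lie.ChevalleyDatum Matrix Cfsg.Agent.Lin
open scoped MatrixGroups

/-- a matrix packed in a natural number -/
def mat (x : ℕ) : Matrix (Fin 2) (Fin 2) F8 := Matrix.of fun i j => F8.mk (Tab.d4 x (2 * i + j))
/-- an element of the special linear group -/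
def sl (A : Matrix (Fin 2) (Fin 2) F8) (h : A 0 0 * A 1 1 - A 0 1 * A 1 0 = 1) : SL(2, F8) :=
  ⟨A, (det_fin_two A).trans h⟩
/-- the orbit of the highest root vector -/
def vec (y : Fin 56) : chevG2.Idx → ZMod 3 := unp2 3 2 (List.getD
    [67108864, 100745361, 83968082, 75850272, 71737632, 68166249, 69214886, 86582613, 76895770, 72782488, 
    136319382, 107504794, 170547348, 89679957, 109483288, 105121830, 102312346, 103131300, 77945365, 
    73830996, 135270745, 152720472, 92707092, 88343593, 85304424, 153491045, 169220778, 32, 155806244, 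
    172582440, 110249382, 94521705, 141207845, 140158250, 144269736, 151158882, 145318244, 174393953, 
    167936161, 156567202, 176687126, 173115030, 105948754, 111806801, 90221201, 159908889, 143217168, 
    139104528, 93980050, 134217728, 178558122, 157387353, 160733285, 161503649, 177231202, 16] y 0)
/-- the elements of order three -/
def thrM (y : Fin 56) : Matrix (Fin 2) (Fin 2) F8 := mat (List.getD
    [1313, 12658, 13122, 25703, 10003, 16965, 16693, 593, 30502, 29494, 21060, 17173, 1857, 18293, 21540, 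
    9763, 1585, 4368, 29974, 29302, 20788, 273, 21860, 9555, 5952, 5680, 4688, 18005, 17445, 17765, 13362, 
    12898, 26407, 25879, 25207, 8563, 25399, 29014, 9027, 30278, 13650, 8803, 865, 26183, 1137, 13858, 14098, 
    29798, 24919, 5408, 22388, 9267, 21268, 4960, 5232, 22100] y 0)
/-- the action of the generators -/
def act (r : ℕ) (y : Fin 56) : Fin 56 := Fin.ofNat 56 (Tab.d8 (List.getD
    [
    0x37363534333231302f2e2d2c2b2a292827262524232221201f1e1d1c1b1a191817161514131211100f0e0d0c0b0a09080706050403020100, 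
    0x1111c271620312a10290b15370e020c1b2135321a032436261d250523171e0618302e2d2f090433340a08142b130d2c280f221f19120700, 
    0x21d182101253137073315162c0c0e0d36191b03203435221c230627261f0f0432140a090b2a052d112b302e12282f132924171e1a100800, 
    0x37363534333231302f2e2d2c2b2a292827262524232221201f1e1d1c1b1a191817161514131211100f0e0d0c0b0a09080706050403020100, 
    0x2e191a1f2b1e310b372f08100d0730123222340524061d1c2527170f0411183621282a021416350c202d332c29010a0e152623031b130900, 
    0x2f1811250d2731292e370e0c33150b161e061f230526170f34322120033536191d12071302281a2c1c082b103009012d2a22241b04140a00, 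
    0x37363534333231302f2e2d2c2b2a292827262524232221201f1e1d1c1b1a191817161514131211100f0e0d0c0b0a09080706050403020100, 
    0x2d241e18132631100e08280914332c370611191f343504213622031d0f2705231b2f0d072a2e320a171602010c3029122b1a25201c150b00, 
    0x281f22232a11310a161237290713092d1a320536181e200424351c03170625340f0e022b330826301b2f150b01102c2e142719211d0d0c00, 
    0x312b3010290737352e2f0a27362533142c022a0e011612081e1f1309000d0b1106220c281d21183405241a15192d1c2032170f030426231b] r 0) y)
/-- the matrices attached to the generators -/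
def imgM (r : Fin 10) : Matrix (Fin 2) (Fin 2) F8 := mat (List.getD
    [4097, 21830, 30023, 4097, 28676, 24579, 4097, 1313, 5408, 12611] r 0)
/-- the field automorphisms attached to the generators -/
def imgJ (r : Fin 10) : ℕ := List.getD [0, 1, 1, 0, 2, 1, 0, 0, 0, 0] r 0
/-- a basis -/
def bas : chevG2.Idx → Fin 56 := Sum.elim ![0, 1] ![2, 3, 4, 5, 6, 7, 8, 9, 11, 13, 14, 16]
/-- the inverse of the basis matrix -/
def inv : Matrix chevG2.Idx chevG2.Idx (ZMod 3) :=
  Matrix.of fun i j => unp2 3 2 ((Sum.elim ![107022416, 9060769]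
    ![37822553, 44341584, 35805760, 35165776, 42090816, 36241833, 39409045, 9873066, 10575896, 22286857, 
    38359322, 35193192] : chevG2.Idx → ℕ) i) j
/-- the generating words -/
def piece (k : Fin 3) (t : ZMod 3) : List (ℕ × ZMod 3) :=
  ![[(7, t), (6, t), (8, t ^ 2), (9, t ^ 3)], [(8, t), (10, t)], [(9, t), (11, t)]] k

theorem ok1 : ∀ y, thrM y 0 0 * thrM y 1 1 - thrM y 0 1 * thrM y 1 0 = 1 := by decide +kernel
theorem ok2 : ∀ r, imgM r 0 0 * imgM r 1 1 - imgM r 0 1 * imgM r 1 0 = 1 := by decide +kernel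
/-- the Frobenius automorphism -/
def sig : MulAut SL(2, F8) := slCongr F8.frob
theorem h0 : ∀ y, omega (ZMod 3) *ᵥ vec y = vec (act 9 y) := by decide +kernel
theorem h1 : ∀ k t y, chevG2.wordMat (ZMod 3) (piece k t) *ᵥ vec y = vec (act (3 * k + t.val) y) := by
  decide +kernel
theorem h2 : ∀ r y, sl _ (ok2 r) * sig^[imgJ r] (sl _ (ok1 y)) = sl _ (ok1 (act r y)) * sl _ (ok2 r) := by
  decide +kernel
theorem h3 : Function.Injective fun y => sl _ (ok1 y) := by decide +kernel
theorem h4 : (Matrix.of fun i j => vec (bas j) i) * inv = 1 := by decide +kernel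
theorem h5 : sig ^ 3 = 1 := by
  refine MulEquiv.ext fun g => Subtype.ext ?_
  ext i j : 2
  exact F8.frob_three (g.1 i j)

/-- the group of matrices permuting the vectors like an element of `PΓL₂(8)` -/
def P : Subgroup (GL chevG2.Idx (ZMod 3)) := pairG vec fun y => (SemidirectProduct.inl (sl _ (ok1 y)) : CycExt sig)

theorem piece_mem (k : Fin 3) (t : ZMod 3) : wordG chevG2 (piece k t) ∈ P := by
  have h : 3 * k.val + t.val < 10 := by have := ZMod.val_lt t; omega
  exact mem_pairG_cycExt h3 sig (act (3 * k + t.val)) _ _ (by rw [wordG_coe]; exact h1 k t) (h2 ⟨_, h⟩)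

theorem wordU_mem (t u v : ZMod 3) : wordG chevG2 (reeWordU 1 t u v) ∈ P := by
  have h := P.mul_mem (piece_mem 0 t) (P.mul_mem (piece_mem 1 u) (piece_mem 2 v))
  have c1 := xN_commute (D := chevG2) (F := ZMod 3) (p := 3) rfl (a := 9) (b := 8) (by decide +kernel) (t ^ 3) u
  have c2 := xN_commute (D := chevG2) (F := ZMod 3) (p := 3) rfl (a := 10) (b := 9) (by decide +kernel) u v
  convert h using 1
  change wordG chevG2 [(7, t ^ 1), (6, t), (8, t ^ 2 + u ^ 1), (9, t ^ 3 + v ^ 1), (10, u), (11, v)] =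
    wordG chevG2 [(7, t), (6, t), (8, t ^ 2), (9, t ^ 3)] * (wordG chevG2 [(8, u), (10, u)] *
      wordG chevG2 [(9, v), (11, v)])
  simp only [wordG_cons, wordG_nil, pow_one, mul_one, ← xN_add, mul_assoc]
  rw [c1.left_comm, c2.left_comm]

theorem twisted_le : twistedG2 (ZMod 3) 1 ≤ P := by
  rw [twistedG2, genSubgroup_eq, Subgroup.closure_le]
  rintro _ ⟨_, ⟨t, u, v, rfl | rfl⟩, rfl⟩
  · exact wordU_mem t u v
  · have h : omegaU chevG2 (ZMod 3) ∈ P := mem_pairG_cycExt h3 sig (act 9) _ _ h0 (h2 9)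
    rw [reeWordV, ← omega_conj_wordG (by simp only [reeWordU, List.forall_mem_cons]; decide)]
    exact P.mul_mem (P.mul_mem h (wordU_mem t u v)) (P.inv_mem h)

theorem nonempty_equiv (hc : Nat.card (twistedG2 (ZMod 3) 1) = 1512) :
    Nonempty (commutator (twistedG2 (ZMod 3) 1) ≃* PSL(2, F8)) := by
  obtain ⟨e⟩ := nonempty_equiv_of_pairs (SemidirectProduct.inl_injective.comp h3) bas inv h4 _ twisted_le (by
    refine (card_cycExt_le (k := 3) three_pos h5).trans ?_
    rw [card_SL2 F8.card, hc]; norm_num)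
  obtain ⟨e'⟩ := commutator_cycExt (SL2.commutator_eq_top (a := F8.mk 2) (by decide) (by decide)) sig
  have hz : Subgroup.center SL(2, F8) = ⊥ :=
    Subgroup.eq_bot_of_card_eq _ ((card_center_SL_fin F8.card 2 (by norm_num)).trans (by norm_num))
  exact ⟨(commutatorCongr e).trans (e'.trans (quotCenterOfEqBot hz).symm)⟩

end CA.Chev.Ree3

theorem CA.Chev.realizeEqnsRee3 : True := by
  have := @CA.Chev.Ree3.sig.eq_1
  have := @CA.Chev.Ree3.sig.eq_def
  have := @CA.Chev.Ree3.sig.congr_simp
  have := @CA.Chev.Ree3.imgJ.eq_1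
  have := @CA.Chev.Ree3.imgJ.eq_def
  have := @CA.Chev.Ree3.imgJ.congr_simp
  have := @CA.Chev.Ree3.act.eq_1
  have := @CA.Chev.Ree3.act.eq_def
  have := @CA.Chev.Ree3.act.congr_simp
  have := @CA.Chev.Ree3.sl.eq_1
  have := @CA.Chev.Ree3.sl.eq_def
  have := @CA.Chev.Ree3.sl.congr_simp
  have := @CA.Chev.Ree3.imgM.eq_1
  have := @CA.Chev.Ree3.imgM.eq_def
  have := @CA.Chev.Ree3.imgM.congr_simp
  have := @CA.Chev.Ree3.thrM.eq_1
  have := @CA.Chev.Ree3.thrM.eq_def
  have := @CA.Chev.Ree3.thrM.congr_simp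
  have := @CA.Chev.Ree3.P.eq_1
  have := @CA.Chev.Ree3.P.eq_def
  have := @CA.Chev.Ree3.P.congr_simp
  have := @CA.Chev.Ree3.bas.eq_1
  have := @CA.Chev.Ree3.bas.eq_def
  have := @CA.Chev.Ree3.bas.congr_simp
  have := @CA.Chev.Ree3.inv.eq_1
  have := @CA.Chev.Ree3.inv.eq_def
  have := @CA.Chev.Ree3.inv.congr_simp
  have := @CA.Chev.Ree3.vec.eq_1
  have := @CA.Chev.Ree3.vec.eq_def
  have := @CA.Chev.Ree3.vec.congr_simp
  have := @CA.Chev.Ree3.mat.eq_1
  have := @CA.Chev.Ree3.mat.eq_def
  have := @CA.Chev.Ree3.mat.congr_simp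
  have := @CA.Chev.Ree3.piece.eq_1
  have := @CA.Chev.Ree3.piece.eq_def
  have := @CA.Chev.Ree3.piece.congr_simp
  trivial
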