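/-
The homomorphism `SL₂(K) → ⟨X_r, X_{-r}⟩` in a Steinberg system.
-/
import Cfsg.Agent.Chev.St2

set_option autoImplicit false

namespace CA.Chev
open Cfsg.Lie Cfsg.Lie.ChevalleyDatum Matrix
open scoped MatrixGroups

variable {D : ChevalleyDatum} [RootGood D] [LieGood D] [StGood D] {K : Type*} [Field K] {Γ : Type*} [Group Γ]

/-- upper unitriangular element of `SL₂` -/
def slX (t : K) : SL(2, K) := ⟨!![1, t; 0, 1], by simp [det_fin_two]⟩
/-- diagonal element of `SL₂` -/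
def slH (e : Kˣ) : SL(2, K) := ⟨!![(e : K), 0; 0, (e⁻¹ : Kˣ)], by simp [det_fin_two]⟩
/-- the Weyl element of `SL₂` -/
def slW : SL(2, K) := ⟨!![0, 1; -1, 0], by simp [det_fin_two]⟩

lemma slX_val (t : K) : ((slX t : SL(2, K)) : Matrix (Fin 2) (Fin 2) K) = !![1, t; 0, 1] := rfl
lemma slH_val (e : Kˣ) : ((slH e : SL(2, K)) : Matrix (Fin 2) (Fin 2) K) = !![(e : K), 0; 0, (e⁻¹ : Kˣ)] := rfl
lemma slW_val : ((slW : SL(2, K)) : Matrix (Fin 2) (Fin 2) K) = !![0, 1; -1, 0] := rfl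

lemma sl_det (g : SL(2, K)) : g 0 0 * g 1 1 - g 0 1 * g 1 0 = 1 := by rw [← det_fin_two]; exact g.2

lemma sl_ne_zero {g : SL(2, K)} (h : g 1 0 = 0) : g 0 0 ≠ 0 := by
  intro h0; have := sl_det g; simp [h, h0] at this

namespace StSys
variable (S : StSys D K Γ) (r : Rt D)

lemma h_mul_x (e : Kˣ) (t : K) : S.h r e * S.x r t = S.x r (e ^ 2 * t) * S.h r e := by
  rw [← mul_inv_eq_iff_eq_mul, h_conj_x, pair_self]; norm_cast

omit [StGood D] in
lemma h_mul_n (e c : Kˣ) : S.h r e * S.n r c = S.n r (e * c) := by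
  rw [S.n_eq_h_mul r c, ← mul_assoc, h_mul, ← n_eq_h_mul]

lemma n_mul_h (c e : Kˣ) : S.n r c * S.h r e = S.n r (c * e⁻¹) := by
  have := S.n_conj_h r c r e
  rw [mul_inv_eq_iff_eq_mul, refl_self, h_ng, h_mul_n] at this
  rw [this, mul_comm]

lemma n_x_n (c u : Kˣ) : S.n r c * S.x r u * S.n r 1 =
    S.x r (-(c : K) ^ 2 * (u : K)⁻¹) * S.n r (-c * u⁻¹) * S.x r (-(u : K)⁻¹) := by
  have h1 := S.n_conj_x r 1 (ng r) (-u)
  have h2 : ((nF r (ng r) (1 : Kˣ) : Kˣ) : K) * -u = u := by simp [nF_one, etaK_ng, etaK_self]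
  rw [refl_ng_self, h2, mul_inv_eq_iff_eq_mul] at h1
  have h3 := S.x_ng_eq r (-u)
  have h4 : S.n r c * S.n r 1 = S.h r (-c) := by simpa using S.n_mul_n_neg r (-1) (-c)
  rw [mul_assoc, ← h1, ← mul_assoc, h4, ← Units.val_neg, h3, mul_assoc (S.x r _), ← n_eq_h_mul, ← mul_assoc, ← mul_assoc,
    h_mul_x, mul_assoc (S.x r _), h_mul_n]
  simp

/-- the image of a matrix, through the Bruhat decomposition -/
noncomputable def slFun (g : SL(2, K)) : Γ :=
  open Classical in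
  if h : g 1 0 = 0 then S.x r (g 0 0 * g 0 1) * S.h r (Units.mk0 (g 0 0) (sl_ne_zero h))
  else S.x r (g 0 0 / g 1 0) * S.n r (-(Units.mk0 (g 1 0) h)⁻¹) * S.x r (g 1 1 / g 1 0)

omit [StGood D] in
lemma slFun_zero {g : SL(2, K)} (h : g 1 0 = 0) {a : Kˣ} (ha : g 0 0 = a) :
    S.slFun r g = S.x r (a * g 0 1) * S.h r a := by
  rw [slFun, dif_pos h]; simp [ha]

omit [StGood D] in
lemma slFun_ne {g : SL(2, K)} {c : Kˣ} (h : g 1 0 = c) :
    S.slFun r g = S.x r (g 0 0 / c) * S.n r (-c⁻¹) * S.x r (g 1 1 / c) := by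
  rw [slFun, dif_neg (h ▸ c.ne_zero)]; simp [h]

omit [StGood D] in
lemma sl_cases (g : SL(2, K)) : (g 1 0 = 0 ∧ ∃ a : Kˣ, g 0 0 = a ∧ g 1 1 = (a : K)⁻¹) ∨ ∃ c : Kˣ, g 1 0 = c := by
  by_cases h : g 1 0 = 0
  · refine Or.inl ⟨h, Units.mk0 _ (sl_ne_zero h), rfl, ?_⟩
    have := sl_det g
    rw [h, mul_zero, sub_zero] at this
    exact eq_inv_of_mul_eq_one_right this
  · exact Or.inr ⟨Units.mk0 _ h, rfl⟩

lemma slFun_mul_X (g : SL(2, K)) (t : K) : S.slFun r (g * slX t) = S.slFun r g * S.x r t := by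
  rcases sl_cases g with ⟨h, a, ha, -⟩ | ⟨c, hc⟩
  · rw [S.slFun_zero r h ha, S.slFun_zero r (a := a) (by simp [slX_val, mul_apply, h]) (by simp [slX_val, mul_apply, ha]),
      mul_assoc, h_mul_x, ← mul_assoc, S.add]
    congr 2
    simp [slX_val, mul_apply, ha]; ring
  · rw [S.slFun_ne r hc, S.slFun_ne r (c := c) (by simp [slX_val, mul_apply, hc]), mul_assoc _ _ (S.x r t), S.add]
    congr 2
    · simp [slX_val, mul_apply]
    · simp [slX_val, mul_apply, hc]; field_simp; ring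

lemma slFun_mul_H (g : SL(2, K)) (e : Kˣ) : S.slFun r (g * slH e) = S.slFun r g * S.h r e := by
  rcases sl_cases g with ⟨h, a, ha, -⟩ | ⟨c, hc⟩
  · rw [S.slFun_zero r h ha, S.slFun_zero r (a := a * e) (by simp [slH_val, mul_apply, h]) (by simp [slH_val, mul_apply, ha]),
      mul_assoc (S.x r _), h_mul]
    congr 2
    simp [slH_val, mul_apply]; field_simp
  · have h1 := S.h_mul_x r e (((e : K) ^ 2)⁻¹ * (g 1 1 / c))
    rw [mul_inv_cancel_left₀ (pow_ne_zero 2 e.ne_zero)] at h1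
    rw [S.slFun_ne r hc, S.slFun_ne r (c := c * e) (by simp [slH_val, mul_apply, hc]), mul_assoc _ _ (S.h r e), ← h1,
      ← mul_assoc, mul_assoc (S.x r _) _ (S.h r e), n_mul_h]
    congr 3
    · simp [slH_val, mul_apply]; field_simp
    · simp [mul_comm]
    · simp [slH_val, mul_apply]; field_simp

lemma slFun_mul_W (g : SL(2, K)) : S.slFun r (g * slW) = S.slFun r g * S.n r 1 := by
  have hd := sl_det g
  rcases sl_cases g with ⟨h, a, ha, ha'⟩ | ⟨c, hc⟩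
  · rw [S.slFun_zero r h ha, S.slFun_ne r (c := -a⁻¹) (by simp [slW_val, mul_apply, ha']), mul_assoc _ _ (S.n r 1),
      ← n_eq_h_mul]
    simp [slW_val, mul_apply, h, mul_comm]
  · by_cases h0 : g 1 1 = 0
    · have h4 : S.n r (-c⁻¹) * S.n r 1 = S.h r c⁻¹ := by simpa using S.n_mul_n_neg r (-1) c⁻¹
      have h5 : -g 0 1 = (c : K)⁻¹ := eq_inv_of_mul_eq_one_left (by rw [h0, hc] at hd; linear_combination hd)
      rw [S.slFun_ne r hc, S.slFun_zero r (a := c⁻¹) (by simp [slW_val, mul_apply, h0]) (by simp [slW_val, mul_apply, h5]), h0,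
        zero_div, x_zero, mul_one, mul_assoc, h4]
      congr 2
      simp [slW_val, mul_apply, div_eq_inv_mul]
    · obtain ⟨d, hd'⟩ : ∃ d : Kˣ, g 1 1 = d := ⟨Units.mk0 _ h0, rfl⟩
      have h1 := S.n_x_n r (-c⁻¹) (d * c⁻¹)
      have h2 : g 1 1 / c = ((d * c⁻¹ : Kˣ) : K) := by simp [hd', div_eq_mul_inv]
      rw [S.slFun_ne r hc, S.slFun_ne r (c := -d) (by simp [slW_val, mul_apply, hd']), h2, mul_assoc (S.x r (g 0 0 / c)),
        mul_assoc (S.x r (g 0 0 / c)), h1, ← mul_assoc, ← mul_assoc, S.add]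
      rw [hc, hd'] at hd
      congr 3
      · simp [slW_val, mul_apply]; field_simp; linear_combination -hd
      · simp
      · simp [slW_val, mul_apply, hc]; field_simp

omit [StGood D] in
lemma sl_decomp (g : SL(2, K)) : (∃ s a, g = slX s * slH a ∧ S.slFun r g = S.x r s * S.h r a) ∨
    ∃ s a u, g = slX s * slH a * slW * slX u ∧ S.slFun r g = S.x r s * S.h r a * S.n r 1 * S.x r u := by
  have hd := sl_det g
  rcases sl_cases g with ⟨h, a, ha, ha'⟩ | ⟨c, hc⟩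
  · refine Or.inl ⟨_, a, ?_, S.slFun_zero r h ha⟩
    ext i j; fin_cases i <;> fin_cases j <;> simp [slH_val, slX_val, h, ha, ha', mul_comm]
  · refine Or.inr ⟨g 0 0 / c, -c⁻¹, g 1 1 / c, ?_, by rw [S.slFun_ne r hc, S.n_eq_h_mul r (-c⁻¹), mul_assoc _ _ (S.n r 1)]⟩
    rw [hc] at hd
    ext i j; fin_cases i <;> fin_cases j <;> simp [slX_val, slH_val, slW_val, hc]
    · field_simp; linear_combination -hd
    · field_simp

/-- the homomorphism `SL₂(K) → Γ` attached to the root `r` -/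
noncomputable def sl2 : SL(2, K) →* Γ := MonoidHom.mk' (S.slFun r) fun g g' => by
  rcases S.sl_decomp r g' with ⟨s, a, rfl, h⟩ | ⟨s, a, u, rfl, h⟩
  · rw [h, ← mul_assoc, slFun_mul_H, slFun_mul_X, mul_assoc]
  · rw [h, ← mul_assoc, ← mul_assoc, ← mul_assoc, slFun_mul_X, slFun_mul_W, slFun_mul_H, slFun_mul_X]
    simp only [mul_assoc]

lemma sl2_apply (g : SL(2, K)) : S.sl2 r g = S.slFun r g := rfl

lemma sl2_upper {g : SL(2, K)} {t : K} (h : (g : Matrix (Fin 2) (Fin 2) K) = !![1, t; 0, 1]) : S.sl2 r g = S.x r t := by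
  rw [sl2_apply, S.slFun_zero r (a := 1) (by simp [h]) (by simp [h])]; simp [h]

lemma sl2_lower {g : SL(2, K)} {t : K} (h : (g : Matrix (Fin 2) (Fin 2) K) = !![1, 0; t, 1]) :
    S.sl2 r g = S.x (ng r) t := by
  by_cases ht : t = 0
  · subst ht; rw [S.sl2_upper r h]; simp
  · lift t to Kˣ using Ne.isUnit ht
    rw [sl2_apply, S.slFun_ne r (c := t) (by simp [h]), x_ng_eq, mul_assoc _ _ (S.n r 1), ← n_eq_h_mul]
    simp [h]

lemma sl2_diag {g : SL(2, K)} {a : Kˣ} (h : (g : Matrix (Fin 2) (Fin 2) K) = !![(a : K), 0; 0, (a : K)⁻¹]) :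
    S.sl2 r g = S.h r a := by
  rw [sl2_apply, S.slFun_zero r (a := a) (by simp [h]) (by simp [h])]; simp [h]

theorem sl2_range : (S.sl2 r).range = S.XR r ⊔ S.XR (ng r) := by
  apply le_antisymm
  · rintro _ ⟨g, rfl⟩
    have hx := fun t => Subgroup.mem_sup_left (T := S.XR (ng r)) (S.x_mem_XR r t)
    rcases S.sl_decomp r g with ⟨s, a, -, h⟩ | ⟨s, a, u, -, h⟩ <;> rw [sl2_apply, h]
    · exact mul_mem (hx _) (S.h_mem_sup _ _)
    · exact mul_mem (mul_mem (mul_mem (hx _) (S.h_mem_sup _ _)) (S.n_mem_sup _ _)) (hx _)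
  · refine sup_le ?_ ?_ <;> rintro _ ⟨t, rfl⟩
    · exact ⟨slX t, S.sl2_upper r rfl⟩
    · exact ⟨⟨!![1, 0; t, 1], by simp [det_fin_two]⟩, S.sl2_lower r rfl⟩

end StSys

end CA.Chev

theorem CA.Chev.realizeEqnsStSL2 : True := by
  have := @CA.Chev.StSys.slFun.eq_1.{0,0}
  have := @CA.Chev.StSys.slFun.eq_def.{0,0}
  have := @CA.Chev.StSys.slFun.congr_simp.{0,0}
  have := @CA.Chev.StSys.sl2.eq_1.{0,0}
  have := @CA.Chev.StSys.sl2.eq_def.{0,0}
  have := @CA.Chev.StSys.sl2.congr_simp.{0,0}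
  have := @CA.Chev.slH.eq_1.{0}
  have := @CA.Chev.slH.eq_def.{0}
  have := @CA.Chev.slH.congr_simp.{0}
  have := @CA.Chev.slW.eq_1.{0}
  have := @CA.Chev.slW.eq_def.{0}
  have := @CA.Chev.slW.congr_simp.{0}
  have := @CA.Chev.slX.eq_1.{0}
  have := @CA.Chev.slX.eq_def.{0}
  have := @CA.Chev.slX.congr_simp.{0}
  trivial
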