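/-
General lemmas on twisted Chevalley groups: the torus, the classes of type A1, A1×A1, A1×A1×A1, finite fields.
-/
import Cfsg.Agent.Chev.TwBase

set_option autoImplicit false
set_option linter.unusedSectionVars false
set_option linter.unusedSimpArgs false
set_option linter.unusedVariables false

namespace CA.ChevSys

open Cfsg.Lie Cfsg.Lie.ChevalleyDatum CA.Chev CA.Weyl CA.RGD Matrix

/-! ### finite fields -/

theorem exists_frob_pow {K : Type*} [Field K] [Finite K] (p : ℕ) [Fact p.Prime] [CharP K p] (n : ℕ) :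
    ∃ σ : K ≃+* K, ∀ t, σ t = t ^ p ^ n :=
  ⟨iterateFrobeniusEquiv K p n, fun t => iterateFrobenius_def ..⟩

theorem charP_of_card {K : Type*} [Field K] [Fintype K] {p n : ℕ} (hp : p.Prime) (h : Fintype.card K = p ^ n) :
    CharP K p := by
  have := Fact.mk hp
  exact charP_of_card_eq_prime_pow h

theorem exists_frob_primePow {K : Type*} [Field K] [Fintype K] {q n : ℕ} (hq : IsPrimePow q)
    (hK : Fintype.card K = q ^ n) : ∃ σ : K ≃+* K, ∀ t, σ t = t ^ q := by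
  obtain ⟨p, k, hp, -, rfl⟩ := hq
  have hp' := Nat.prime_iff.2 hp
  have := Fact.mk hp'
  have := charP_of_card hp' (hK.trans (pow_mul p k n).symm)
  exact exists_frob_pow p k

theorem card_units_pow_eq_one {K : Type*} [Field K] [Fintype K] (d : ℕ) :
    Nat.card {c : Kˣ // c ^ d = 1} = Nat.gcd (Fintype.card K - 1) d := by
  rw [← Nat.card_eq_fintype_card, ← Nat.card_units, ← IsCyclic.card_powMonoidHom_ker]
  rfl

theorem card_units_fixed {K : Type*} [Field K] [Fintype K] {q n : ℕ} (hq : 0 < q) (hK : Fintype.card K = q ^ n) :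
    Nat.card {c : Kˣ // c ^ q = c} = q - 1 := by
  have h1 : ∀ c : Kˣ, c ^ q = c ↔ c ^ (q - 1) = 1 := fun c => by
    obtain ⟨q, rfl⟩ := Nat.exists_eq_succ_of_ne_zero hq.ne'
    simp [pow_succ]
  rw [Nat.card_congr (Equiv.subtypeEquivRight h1), card_units_pow_eq_one, hK]
  refine Nat.gcd_eq_right ?_
  simpa using Nat.sub_dvd_pow_sub_pow q 1 n

theorem card_fixed {K : Type*} [Field K] [Fintype K] {q n : ℕ} (hq : 0 < q) (hK : Fintype.card K = q ^ n) :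
    Nat.card {t : K // t ^ q = t} = q := by
  classical
  let e : {t : K // t ^ q = t} ≃ Option {c : Kˣ // c ^ q = c} :=
    { toFun := fun t => if h : t.1 = 0 then none else some ⟨Units.mk0 t.1 h, Units.ext (by simpa using t.2)⟩
      invFun := fun o => o.elim ⟨0, zero_pow hq.ne'⟩ fun c => ⟨c.1, by simpa using congrArg Units.val c.2⟩
      left_inv := fun t => by
        by_cases h : t.1 = 0
        · simp only [h, dif_pos, Option.elim]; exact Subtype.ext h.symm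
        · simp [h]
      right_inv := fun o => by cases o <;> simp }
  rw [Nat.card_congr e, Finite.card_option, card_units_fixed hq hK]
  omega

theorem exists_unit_pow_ne_one {K : Type*} [Field K] [Fintype K] {d : ℕ} (hd : 0 < d)
    (h : d + 1 < Fintype.card K) : ∃ c : Kˣ, c ^ d ≠ 1 := by
  by_contra hc
  push Not at hc
  have h1 := card_units_pow_eq_one (K := K) d
  rw [Nat.card_congr (Equiv.subtypeUnivEquiv hc), Nat.card_units, Nat.card_eq_fintype_card] at h1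
  have := Nat.gcd_le_right (Fintype.card K - 1) hd
  omega

theorem card_of_param {Γ ι : Type*} [Group Γ] {P : Subgroup Γ} (g : ι → Γ) (hg : Function.Injective g)
    (h : ∀ x, x ∈ P ↔ ∃ s, x = g s) : Nat.card P = Nat.card ι := by
  symm
  refine Nat.card_eq_of_bijective (fun s => ⟨g s, (h _).2 ⟨s, rfl⟩⟩) ⟨fun a b h => hg (congrArg Subtype.val h), ?_⟩
  rintro ⟨x, hx⟩
  obtain ⟨s, rfl⟩ := (h x).1 hx
  exact ⟨s, rfl⟩

theorem mul3_of_commute {Γ : Type*} [Group Γ] {a1 a2 a3 b1 b2 b3 : Γ} (h1 : Commute a2 b1) (h2 : Commute a3 b1)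
    (h3 : Commute a3 b2) : a1 * a2 * a3 * (b1 * b2 * b3) = a1 * b1 * (a2 * b2) * (a3 * b3) := by
  calc a1 * a2 * a3 * (b1 * b2 * b3) = a1 * (a2 * (a3 * b1)) * b2 * b3 := by group
    _ = a1 * (a2 * b1) * (a3 * b2) * b3 := by rw [h2.eq]; group
    _ = _ := by rw [h1.eq, h3.eq]; group

variable {D : ChevalleyDatum} [RootGood D] [LieGood D] {F : Type*} [Field F] [W : WeylGood D]

namespace TwData

variable (T : TwData D F)

theorem hT_mem_Fx {c : Nd D → Fˣ} : hT D c ∈ T.aut.Fx ↔ hT D (T.τ c) = hT D c := by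
  rw [mem_Fx, T.f_hT, and_iff_right (hT_mem_group c)]

theorem lift_of_inj (h : ∀ c : Nd D → Fˣ, hT D c = 1 → c = 1) (c : Nd D → Fˣ) (hc : hT D c ∈ T.aut.Fx) :
    ∃ c', T.τ c' = c' ∧ hT D c' = hT D c :=
  ⟨c, (injective_iff_map_eq_one _).2 h (T.hT_mem_Fx.1 hc), rfl⟩

theorem τ_pow_of_exp {e : ℕ} (h : ∀ c : Nd D → Fˣ, hT D c = 1 → c ^ e = 1) {c : Nd D → Fˣ}
    (hc : hT D c ∈ T.aut.Fx) : T.τ (c ^ e) = c ^ e := by
  have := h (T.τ c * c⁻¹) (by rw [map_mul, T.hT_mem_Fx.1 hc, map_inv, mul_inv_cancel])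
  rwa [mul_pow, inv_pow, mul_inv_eq_one, ← map_pow] at this

theorem lift_two (h2 : ∀ c, T.τ (T.τ c) = c) (h : ∀ c : Nd D → Fˣ, hT D c = 1 → c ^ 3 = 1) (c : Nd D → Fˣ)
    (hc : hT D c ∈ T.aut.Fx) : ∃ c', T.τ c' = c' ∧ hT D c' = hT D c := by
  refine ⟨c ^ 3 * (c * T.τ c)⁻¹, ?_, ?_⟩
  · rw [map_mul, T.τ_pow_of_exp h hc, map_inv, map_mul, h2, mul_comm c]
  · rw [map_mul, map_inv, map_mul, T.hT_mem_Fx.1 hc, map_pow]; group

theorem lift_three (h3 : ∀ c, T.τ (T.τ (T.τ c)) = c) (h : ∀ c : Nd D → Fˣ, hT D c = 1 → c ^ 2 = 1) (c : Nd D → Fˣ)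
    (hc : hT D c ∈ T.aut.Fx) : ∃ c', T.τ c' = c' ∧ hT D c' = hT D c := by
  have h1 := T.hT_mem_Fx.1 hc
  refine ⟨c * T.τ c * T.τ (T.τ c) * (c ^ 2)⁻¹, ?_, ?_⟩
  · rw [map_mul, map_inv, T.τ_pow_of_exp h hc, map_mul, map_mul, h3, mul_comm (_ * _) c, mul_assoc c (T.τ c)]
  · rw [map_mul, map_inv, map_mul, map_mul, ← T.f_hT (T.τ c), h1, T.f_hT, h1, map_pow]; group

theorem card_H1 {G1 : Subgroup (GL D.Idx F)} (h1 : G1 ≤ T.aut.Fx) (hin : ∀ c, T.τ c = c → hT D c ∈ G1)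
    (hlift : ∀ c, hT D c ∈ T.aut.Fx → ∃ c', T.τ c' = c' ∧ hT D c' = hT D c) :
    Nat.card {c // T.τ c = c ∧ hT D c = 1} * Nat.card ↥(D.diagonalSubgroup F ⊓ G1) =
      Nat.card {c // T.τ c = c} := by
  let ψ := (hT D).comp (T.τ.eqLocus (MonoidHom.id _)).subtype
  have h2 : ψ.range = D.diagonalSubgroup F ⊓ G1 := by
    apply le_antisymm
    · rintro _ ⟨⟨c, hc⟩, rfl⟩
      exact ⟨hT_mem c, hin c hc⟩
    · rintro g ⟨hg, hg'⟩
      obtain ⟨c, rfl⟩ := mem_diag.1 hg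
      obtain ⟨c', h3, h4⟩ := hlift c (h1 hg')
      exact ⟨⟨c', h3⟩, h4⟩
  have h3 : Nat.card {c // T.τ c = c ∧ hT D c = 1} = Nat.card ψ.ker :=
    Nat.card_congr (Equiv.subtypeSubtypeEquivSubtypeInter (fun c => T.τ c = c) (fun c => hT D c = 1)).symm
  rw [h3, ← h2, ← Subgroup.index_ker, Subgroup.card_mul_index]
  rfl

variable {K : Type*} (Fo : Fold (rs D).M K)

theorem mem_class {k : K} {L : List ℕ} (hL : ClassOK D (Fo.J k) L) {x : GL D.Idx F} :
    x ∈ T.aut.Fx ∧ x ∈ (sys D F).Um (Fo.g k) ↔ ∃ t : ℕ → F, x = wordG D (L.map fun r => (r, t r)) ∧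
      wordG D (L.map fun r => (T.φ.ι r, T.φ.γ r * T.σ (t r) ^ T.φ.e r)) = wordG D (L.map fun r => (r, t r)) := by
  have h1 : ∀ t : ℕ → F, wordG D (L.map fun r => (r, t r)) ∈ T.aut.Fx ↔
      wordG D (L.map fun r => (T.φ.ι r, T.φ.γ r * T.σ (t r) ^ T.φ.e r)) = wordG D (L.map fun r => (r, t r)) := by
    intro t
    rw [T.wordG_mem_Fx (by simpa using fun r hr => (hL.2.1 r hr).1), List.map_map]
    rfl
  rw [Um_fold]
  constructor
  · rintro ⟨h2, h3⟩
    obtain ⟨t, rfl⟩ := exists_word hL h3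
    exact ⟨t, rfl, (h1 t).1 h2⟩
  · rintro ⟨t, rfl, h⟩
    exact ⟨(h1 t).2 h, word_mem hL (by simp)⟩

theorem mem_class_one {k : K} {a : ℕ} (hL : ClassOK D (Fo.J k) [a])
    (h : T.φ.ι a = a ∧ T.φ.γ a = 1 ∧ T.φ.e a = 1) {x : GL D.Idx F} :
    x ∈ T.aut.Fx ∧ x ∈ (sys D F).Um (Fo.g k) ↔ ∃ t, T.σ t = t ∧ x = wordG D [(a, t)] := by
  rw [T.mem_class Fo hL]
  simp only [List.map_cons, List.map_nil, h.1, h.2.1, h.2.2, Int.cast_one, one_mul, pow_one]
  constructor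
  · rintro ⟨t, rfl, h1⟩
    have := wordG_unique (by simp) (by simp) (by simpa using hL.2.1) h1
    exact ⟨t a, by simpa using this, rfl⟩
  · rintro ⟨t, h1, rfl⟩
    exact ⟨fun _ => t, rfl, by rw [h1]⟩

theorem mem_class_two {k : K} {a b : ℕ} (hL : ClassOK D (Fo.J k) [a, b])
    (h : T.φ.ι a = b ∧ T.φ.ι b = a ∧ T.φ.γ a = 1 ∧ T.φ.γ b = 1) (hc : ∀ t u : F, Commute (xN D a t) (xN D b u))
    (hinv : ∀ t, T.σ (T.σ t ^ T.φ.e a) ^ T.φ.e b = t) {x : GL D.Idx F} :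
    x ∈ T.aut.Fx ∧ x ∈ (sys D F).Um (Fo.g k) ↔ ∃ t, x = wordG D [(a, t), (b, T.σ t ^ T.φ.e a)] := by
  rw [T.mem_class Fo hL]
  simp only [List.map_cons, List.map_nil, h.1, h.2.1, h.2.2.1, h.2.2.2, Int.cast_one, one_mul]
  have h1 : ∀ t u : F, wordG D [(b, u), (a, t)] = wordG D [(a, t), (b, u)] := fun t u => by
    simp only [wordG_cons, wordG_nil, mul_one]; exact (hc t u).eq.symm
  have hab : a ≠ b := by simpa using hL.1
  simp only [h1]
  constructor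
  · rintro ⟨t, rfl, h2⟩
    have := wordG_unique (by simp) (by simpa using hab) (by simpa using hL.2.1) h2
    simp only [List.cons.injEq, Prod.mk.injEq, true_and, and_true] at this
    exact ⟨t a, by rw [this.2]⟩
  · rintro ⟨t, rfl⟩
    exact ⟨fun r => if r = a then t else T.σ t ^ T.φ.e a, by simp [hab.symm], by simp [hab.symm, hinv, -map_pow]⟩

theorem mem_class_three {k : K} {a b c : ℕ} (hL : ClassOK D (Fo.J k) [a, b, c])
    (h : T.φ.ι a = b ∧ T.φ.ι b = c ∧ T.φ.ι c = a ∧ T.φ.γ a = 1 ∧ T.φ.γ b = 1 ∧ T.φ.γ c = 1 ∧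
      T.φ.e a = 1 ∧ T.φ.e b = 1 ∧ T.φ.e c = 1) (hc : ∀ t u : F, Commute (xN D a t) (xN D b u))
    (hc' : ∀ t u : F, Commute (xN D a t) (xN D c u))
    (hinv : ∀ t, T.σ (T.σ (T.σ t)) = t) {x : GL D.Idx F} :
    x ∈ T.aut.Fx ∧ x ∈ (sys D F).Um (Fo.g k) ↔ ∃ t, x = wordG D [(a, t), (b, T.σ t), (c, T.σ (T.σ t))] := by
  rw [T.mem_class Fo hL]
  obtain ⟨e1, e2, e3, e4, e5, e6, e7, e8, e9⟩ := h
  simp only [List.map_cons, List.map_nil, e1, e2, e3, e4, e5, e6, e7, e8, e9, Int.cast_one, one_mul, pow_one]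
  have h1 : ∀ t u v : F, wordG D [(b, u), (c, v), (a, t)] = wordG D [(a, t), (b, u), (c, v)] := fun t u v => by
    simp only [wordG_cons, wordG_nil, mul_one]
    rw [← (hc' t v).eq, ← mul_assoc, ← (hc t u).eq, mul_assoc]
  have hab : (a ≠ b ∧ a ≠ c) ∧ b ≠ c := by simpa using hL.1
  simp only [h1]
  constructor
  · rintro ⟨t, rfl, h2⟩
    have := wordG_unique (by simp) (by simpa using hab) (by simpa using hL.2.1) h2
    simp only [List.cons.injEq, Prod.mk.injEq, true_and, and_true] at this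
    exact ⟨t a, by rw [this.2.1, this.2.2]⟩
  · rintro ⟨t, rfl⟩
    exact ⟨fun r => if r = a then t else if r = b then T.σ t else T.σ (T.σ t),
      by simp [hab.1.1.symm, hab.1.2.symm, hab.2.symm], by simp [hab.1.1.symm, hab.1.2.symm, hab.2.symm, hinv]⟩

theorem f_xs (i : Nd D) (c : Fˣ) : T.f (xU (sim i) (c : F)) = xU (sim (T.ρ i)) (T.ψ i c : F) := by
  rw [f_xU, rt_sim, sim_val, (T.hι i).2, ψ_val]; simp

omit T in
theorem hT_mem_of_classes [Fintype K] (hnd : ∀ k, (Fo.J k).Nodup) {M : Subgroup (GL D.Idx F)} (c : Nd D → Fˣ)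
    (h : ∀ k, ((Fo.J k).map fun i => hG (sim i) (c i)).prod ∈ M) : hT D c ∈ M := by
  classical
  have h1 : c = ∏ k, ((Fo.J k).map fun i => Pi.mulSingle i (c i)).prod := by
    funext j
    obtain ⟨k, hk⟩ := Fo.cover j
    rw [Finset.prod_apply, Finset.prod_eq_single k (fun k' _ hk' => ?_) (by simp)]
    · rw [← List.prod_toFinset _ (hnd k), Finset.prod_apply, Finset.prod_eq_single j (fun i _ hi => by simp [hi])
        (by simp [hk])]
      simp
    · rw [← List.prod_toFinset _ (hnd k'), Finset.prod_apply]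
      refine Finset.prod_eq_one fun i hi => Pi.mulSingle_eq_of_ne ?_ _
      rintro rfl
      exact hk' (Fo.disj _ _ _ (List.mem_toFinset.1 hi) hk)
  rw [h1]
  refine Finset.prod_induction _ (fun c => hT D c ∈ M) (fun a b ha hb => ?_) (by simp) fun k _ => ?_
  · rw [map_mul]; exact mul_mem ha hb
  · rw [map_list_prod, List.map_map]
    simpa only [Function.comp_def, hT_mulSingle] using h k

end TwData

variable (D) in
/-- the nodes `a`, `b` are orthogonal. -/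
def Orth (a b : Nd D) : Prop := ∀ r ∈ [D.simple a, D.neg (D.simple a)], ∀ s ∈ [D.simple b, D.neg (D.simple b)],
  s ≠ D.neg r ∧ nrm 0 (D.commTerms r s) = []

omit W in
theorem Orth.commute {a b : Nd D} (h : Orth D a b) {r s : Rt D} (hr : r = sim a ∨ r = ng (sim a))
    (hs : s = sim b ∨ s = ng (sim b)) (t u : F) : Commute (xU r t) (xU s u) := by
  rw [← xN_val, ← xN_val]
  exact xN_commute Nat.cast_zero (h _ (by rcases hr with rfl | rfl <;> simp) _ (by rcases hs with rfl | rfl <;> simp))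
    t u

omit W in
theorem Orth.commute_nG {a b : Nd D} (h : Orth D a b) (c d : Fˣ) : Commute (nG (sim a) c) (nG (sim b) d) := by
  rw [nG_eq, nG_eq]
  refine Commute.mul_left (Commute.mul_left ?_ ?_) ?_ <;> refine Commute.mul_right (Commute.mul_right ?_ ?_) ?_ <;>
    exact h.commute (by simp) (by simp) _ _

namespace TwData

variable (T : TwData D F) {K : Type*} (Tw : Twist (sys D F) K) (hT : Tw.Fx = T.aut.Fx)
include hT

theorem mem_G1_of_U {u : GL D.Idx F} (h1 : u ∈ T.aut.Fx) (h2 : u ∈ (sys D F).U) :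
    u ∈ Tw.G1 ∧ omegaU D F * u * (omegaU D F)⁻¹ ∈ Tw.G1 :=
  ⟨Tw.U_le (faithful D F) (hT ▸ h1) h2, Tw.V_le (faithful D F) (hT ▸ T.omega_mem_Fx h1)
    (omega_XS (Q := fun r => ¬ (rs D).Pos r) (fun r hr => hr.not_ng) h2)⟩

theorem nG_mem_one {a : Nd D} (ha : T.ρ a = a) {c : Fˣ} (hc : T.ψ a c = c) : nG (sim a) c ∈ Tw.G1 := by
  have h : ∀ c : Fˣ, T.ψ a c = c → xU (sim a) (c : F) ∈ Tw.G1 ∧
      omegaU D F * xU (sim a) (c : F) * (omegaU D F)⁻¹ ∈ Tw.G1 := fun c hc =>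
    T.mem_G1_of_U Tw hT (T.mem_Fx.2 ⟨xU_mem_group _ _, by rw [f_xs, ha, hc]⟩) (xU_mem_XS (isPos_sim a) _)
  have h1 := (h c⁻¹ (by rw [map_inv, hc])).2
  rw [omegaU_conj_xU] at h1
  rw [nG_eq]
  exact mul_mem (mul_mem (h c hc).1 h1) (h c hc).1

theorem hG_mem_one {a : Nd D} (ha : T.ρ a = a) {c : Fˣ} (hc : T.ψ a c = c) : hG (sim a) c ∈ Tw.G1 := by
  rw [hG_eq]
  exact mul_mem (T.nG_mem_one Tw hT ha hc) (inv_mem (T.nG_mem_one Tw hT ha (map_one _)))

theorem nG_mem_two {a b : Nd D} (ha : T.ρ a = b) (hb : T.ρ b = a) (ho : Orth D a b)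
    (hinv : ∀ c, T.ψ b (T.ψ a c) = c) (c : Fˣ) : nG (sim a) c * nG (sim b) (T.ψ a c) ∈ Tw.G1 := by
  have h : ∀ c : Fˣ, xU (sim a) (c : F) * xU (sim b) (T.ψ a c : F) ∈ Tw.G1 ∧
      omegaU D F * (xU (sim a) (c : F) * xU (sim b) (T.ψ a c : F)) * (omegaU D F)⁻¹ ∈ Tw.G1 := fun c =>
    T.mem_G1_of_U Tw hT (T.mem_Fx.2 ⟨mul_mem (xU_mem_group _ _) (xU_mem_group _ _), by
      rw [T.f_mul (xU_mem_group _ _) (xU_mem_group _ _), f_xs, f_xs, ha, hb, hinv]
      exact (ho.commute (Or.inl rfl) (Or.inl rfl) _ _).eq.symm⟩)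
      (mul_mem (xU_mem_XS (isPos_sim a) _) (xU_mem_XS (isPos_sim b) _))
  have h1 := (h c⁻¹).2
  rw [← conj_mul, omegaU_conj_xU, omegaU_conj_xU, map_inv] at h1
  rw [nG_eq, nG_eq, mul3_of_commute (ho.commute (by simp) (by simp) _ _) (ho.commute (by simp) (by simp) _ _)
    (ho.commute (by simp) (by simp) _ _)]
  exact mul_mem (mul_mem (h c).1 h1) (h c).1

theorem hG_mem_two {a b : Nd D} (ha : T.ρ a = b) (hb : T.ρ b = a) (ho : Orth D a b)
    (hinv : ∀ c, T.ψ b (T.ψ a c) = c) (c : Fˣ) : hG (sim a) c * hG (sim b) (T.ψ a c) ∈ Tw.G1 := by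
  have h1 := mul_mem (T.nG_mem_two Tw hT ha hb ho hinv c) (inv_mem (T.nG_mem_two Tw hT ha hb ho hinv 1))
  rw [map_one, (ho.commute_nG 1 1).eq, _root_.mul_inv_rev] at h1
  rw [hG_eq, hG_eq, mul_assoc, ← mul_assoc _ (nG _ _), (ho.commute_nG 1 _).inv_left.eq]
  simpa only [mul_assoc] using h1

theorem nG_mem_three {a b c : Nd D} (ha : T.ρ a = b) (hb : T.ρ b = c) (hc : T.ρ c = a) (hab : Orth D a b)
    (hac : Orth D a c) (hbc : Orth D b c) (hinv : ∀ x, T.ψ c (T.ψ b (T.ψ a x)) = x) (x : Fˣ) :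
    nG (sim a) x * nG (sim b) (T.ψ a x) * nG (sim c) (T.ψ b (T.ψ a x)) ∈ Tw.G1 := by
  have h : ∀ x : Fˣ, xU (sim a) (x : F) * xU (sim b) (T.ψ a x : F) * xU (sim c) (T.ψ b (T.ψ a x) : F) ∈ Tw.G1 ∧
      omegaU D F * (xU (sim a) (x : F) * xU (sim b) (T.ψ a x : F) * xU (sim c) (T.ψ b (T.ψ a x) : F)) *
        (omegaU D F)⁻¹ ∈ Tw.G1 := fun x =>
    T.mem_G1_of_U Tw hT (T.mem_Fx.2 ⟨mul_mem (mul_mem (xU_mem_group _ _) (xU_mem_group _ _)) (xU_mem_group _ _), by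
      rw [T.f_mul (mul_mem (xU_mem_group _ _) (xU_mem_group _ _)) (xU_mem_group _ _),
        T.f_mul (xU_mem_group _ _) (xU_mem_group _ _), f_xs, f_xs, f_xs, ha, hb, hc, hinv, mul_assoc (xU (sim a) _)]
      exact ((hab.commute (Or.inl rfl) (Or.inl rfl) _ _).mul_right (hac.commute (Or.inl rfl) (Or.inl rfl) _ _)).eq.symm⟩)
      (mul_mem (mul_mem (xU_mem_XS (isPos_sim a) _) (xU_mem_XS (isPos_sim b) _)) (xU_mem_XS (isPos_sim c) _))
  have h1 := (h x⁻¹).2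
  rw [← conj_mul, ← conj_mul, omegaU_conj_xU, omegaU_conj_xU, omegaU_conj_xU, map_inv, map_inv] at h1
  rw [nG_eq, nG_eq, nG_eq, mul3_of_commute (hab.commute (by simp) (by simp) _ _) (hab.commute (by simp) (by simp) _ _)
    (hab.commute (by simp) (by simp) _ _), mul3_of_commute
    ((hac.commute (by simp) (by simp) _ _).mul_left (hbc.commute (by simp) (by simp) _ _))
    ((hac.commute (by simp) (by simp) _ _).mul_left (hbc.commute (by simp) (by simp) _ _))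
    ((hac.commute (by simp) (by simp) _ _).mul_left (hbc.commute (by simp) (by simp) _ _))]
  exact mul_mem (mul_mem (h x).1 h1) (h x).1

theorem hG_mem_three {a b c : Nd D} (ha : T.ρ a = b) (hb : T.ρ b = c) (hc : T.ρ c = a) (hab : Orth D a b)
    (hac : Orth D a c) (hbc : Orth D b c) (hinv : ∀ x, T.ψ c (T.ψ b (T.ψ a x)) = x) (x : Fˣ) :
    hG (sim a) x * hG (sim b) (T.ψ a x) * hG (sim c) (T.ψ b (T.ψ a x)) ∈ Tw.G1 := by
  have h1 := mul_mem (T.nG_mem_three Tw hT ha hb hc hab hac hbc hinv x)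
    (inv_mem (T.nG_mem_three Tw hT ha hb hc hab hac hbc hinv 1))
  rw [map_one, map_one, ((hac.commute_nG 1 1).mul_left (hbc.commute_nG 1 1)).eq, (hab.commute_nG 1 1).eq,
    _root_.mul_inv_rev, _root_.mul_inv_rev] at h1
  rw [hG_eq, hG_eq, hG_eq, mul_assoc (nG (sim a) x), ← mul_assoc _ (nG (sim b) _), (hab.commute_nG 1 _).inv_left.eq,
    mul_assoc (nG (sim b) _), ← mul_assoc (nG (sim a) x), mul_assoc, ← mul_assoc (_ * _) (nG (sim c) _),
    ((hac.commute_nG 1 _).inv_left.mul_left (hbc.commute_nG 1 _).inv_left).eq]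
  simpa only [mul_assoc] using h1

theorem sq_mem_G1 (hg : Tw.Gen) {l : List (Nd D)} (h1 : (rs D).M.toCoxeterSystem.wordProd l ∈ Tw.F.W1)
    (hl : ∀ i, l.foldr srefl (sim i) = ng (sim i)) {g : GL D.Idx F} (h2 : g ∈ D.diagonalSubgroup F)
    (h3 : g ∈ T.aut.Fx) : g ^ 2 ∈ Tw.G1 := by
  obtain ⟨m, hm, hr⟩ := Tw.exists_rep_W1 (faithful D F) h1
  have h4 := mul_mem (Tw.H_conj_G1 (faithful D F) hg h2 (hT ▸ h3) hm) (inv_mem hm)
  have h5 := Rep.conj_inv hr hl (inv_mem h2)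
  rwa [mul_assoc, mul_assoc, ← mul_assoc m, h5, inv_inv, ← sq] at h4

end TwData

/-- the normal core of `B¹` is trivial if every simple root occurs in some element of `U¹`. -/
theorem core_of_words {K : Type*} (Tw : Twist (sys D F) K)
    (h : ∀ j : Nd D, ∃ w : List (ℕ × F), wordG D w ∈ Tw.G1 ∧ (w.map Prod.fst).Nodup ∧
      (∀ r ∈ w.map Prod.fst, D.IsPosRoot r) ∧ ∃ t, t ≠ 0 ∧ (D.simple j, t) ∈ w) :
    (((sys D F).Bo ⊓ Tw.G1).subgroupOf Tw.G1).normalCore = ⊥ := by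
  refine Tw.normalCore_eq_bot (faithful D F) fun g hg _ hc => ?_
  obtain ⟨c, rfl⟩ := mem_diag.1 hg
  refine eq_one_of_chi fun j => ?_
  obtain ⟨w, h1, h2, h3, t, ht, h4⟩ := h j
  have h5 : wordG D w ∈ (sys D F).U := wordG_mem fun p hp => by
    have := h3 p.1 (List.mem_map_of_mem hp)
    rw [xN_of_lt this.1]
    exact xU_mem_XS ((isPosRoot_iff ⟨p.1, this.1⟩).1 this) _
  have := chi_of_fixed h2 h3 (by rw [hc _ h1 h5]; simp) _ h4
  exact (mul_eq_right₀ ht).1 this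

end CA.ChevSys

theorem CA.realizeEqns_TwGen : True := by
  have := @CA.ChevSys.Orth.eq_1
  have := @CA.ChevSys.Orth.eq_def
  have := @CA.ChevSys.Orth.congr_simp
  trivial
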