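/-
Twisted groups given by generating words.
-/
import Cfsg.Agent.Chev.TwGen
import Cfsg.Agent.Chev.WeylFold
import Cfsg.Agent.Chev.WeylPoly
import Cfsg.Prelude.Def_LieTwisted

set_option autoImplicit false
set_option linter.unusedSectionVars false
set_option linter.unusedSimpArgs false
set_option linter.unusedVariables false

namespace CA.ChevSys

open Cfsg.Lie Cfsg.Lie.ChevalleyDatum CA.Chev CA.Weyl CA.RGD Matrix

variable {D : ChevalleyDatum} [RootGood D] [LieGood D] {F : Type*} [Field F] [W : WeylGood D]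

instance instDecClassOK (J : List (Nd D)) (L : List ℕ) : Decidable (ClassOK D J L) := by
  unfold ClassOK; infer_instance

instance instDecOrth (a b : Nd D) : Decidable (Orth D a b) := by
  unfold Orth; infer_instance

omit W in
theorem wordG_mem_gen {S : Set (List (ℕ × F))} {w : List (ℕ × F)} (h : w ∈ S) : wordG D w ∈ D.genSubgroup F S := by
  rw [genSubgroup_eq]; exact Subgroup.subset_closure ⟨w, h, rfl⟩

omit W in
theorem wordG_eq_one {w : List (ℕ × F)} (h : ∀ p ∈ w, p.2 = 0) : wordG D w = 1 :=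
  Subgroup.mem_bot.1 (wordG_mem fun p hp => by rw [h p hp, xN_zero]; exact one_mem _)

omit W in
theorem eq_zero_of_wordG {w : List (ℕ × F)} (h2 : (w.map Prod.fst).Nodup)
    (h3 : ∀ r ∈ w.map Prod.fst, D.IsPosRoot r) (h : wordG D w = 1) : ∀ p ∈ w, p.2 = 0 := by
  have h4 := wordG_unique (w' := w.map fun p => (p.1, 0)) (by simp [Function.comp_def]) h2 h3
    (h.trans (wordG_eq_one (by simp +contextual [eq_comm])).symm)
  intro p hp
  have h5 : w.map id = w.map fun p => (p.1, (0 : F)) := by simpa using h4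
  exact congrArg Prod.snd (List.map_inj_left.1 h5 p hp)

omit W in
theorem xN_sign_mem {G : Subgroup (GL D.Idx F)} {k : ℕ} {ε t : F} (hε : ε = 1 ∨ ε = -1) :
    xN D k (ε * t) ∈ G ↔ xN D k t ∈ G := by
  rcases hε with rfl | rfl
  · rw [one_mul]
  · rw [neg_one_mul, ← xN_inv, inv_mem_iff]

omit W in
theorem xN_mem_der_of_comm {G : Subgroup (GL D.Idx F)} {r s k : ℕ}
    (h : (r < D.nroots ∧ s < D.nroots ∧ s ≠ D.neg r) ∧ ∃ ε ∈ [(1 : ℤ), -1], D.commTerms r s = [(k, ε, 1, 1)])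
    {t u : F} (ht : xN D r t ∈ G) (hu : xN D s u ∈ G) : xN D k (t * u) ∈ der G := by
  obtain ⟨h1, ε, hε, h2⟩ := h
  have h3 := comm_mem_der (inv_mem hu) (inv_mem ht)
  rw [inv_inv, inv_inv, mul_assoc, xN_comm h1, commWord, h2] at h3
  rw [← xN_sign_mem (ε := -(ε : F)) (by simp at hε; rcases hε with rfl | rfl <;> simp)]
  simpa [mul_assoc] using h3

omit W in
theorem xN_mem_der_of_refl {G : Subgroup (GL D.Idx F)} {i : Nd D} (hn : nG (sim i) 1 ∈ G) {k l : ℕ}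
    (hk : k < D.nroots ∧ D.reflectRoot i k = l) {t : F} (h : xN D k t ∈ der G) : xN D l t ∈ der G := by
  obtain ⟨ε, hε, h1⟩ := nG_conj_xN (F := F) i hk.1
  rw [← xN_sign_mem hε, ← hk.2, ← h1]
  exact conj_mem_der hn h

omit W in
theorem chi_mulSingle (i : Nd D) (a : Fˣ) (k : ℕ) : chi D (Pi.mulSingle i a) k = (a : F) ^ D.cartan i k := by
  rw [chi, Finset.prod_eq_single i (fun j _ hj => by simp [hj]) (by simp)]
  simp

omit W in
theorem chi_mul (c c' : Nd D → Fˣ) (k : ℕ) : chi D (c * c') k = chi D c k * chi D c' k := by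
  simp [chi, mul_zpow, Finset.prod_mul_distrib]

theorem wordG_mem_U {w : List (ℕ × F)} (h3 : ∀ r ∈ w.map Prod.fst, D.IsPosRoot r) : wordG D w ∈ (sys D F).U :=
  wordG_mem fun p hp => by
    have := h3 p.1 (List.mem_map_of_mem hp)
    rw [xN_of_lt this.1]
    exact xU_mem_XS ((isPosRoot_iff ⟨p.1, this.1⟩).1 this) _

theorem class_le_der_of_chi [Finite F] {K : Type*} (Tw : Twist (sys D F) K) (k : K) {L : List ℕ}
    (hL : ClassOK D (Tw.F.J k) L) {c : Nd D → Fˣ} (hc : hT D c ∈ Tw.G1) (h : ∀ r ∈ L, chi D c r ≠ 1)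
    {x : GL D.Idx F} (hx : x ∈ Tw.Fx) (hx' : x ∈ (sys D F).Um (Tw.F.g k)) : x ∈ der Tw.G1 := by
  refine Tw.class_le_der (faithful D F) k (hT_mem c) hc (fun y _ hy he => ?_) hx hx'
  rw [TwData.Um_fold] at hy
  obtain ⟨t, rfl⟩ := exists_word hL hy
  have h1 := chi_of_fixed (by simpa [Function.comp_def] using hL.1) (by simpa [Function.comp_def] using hL.2.1) he
  refine wordG_eq_one fun p hp => ?_
  obtain ⟨r, hr, rfl⟩ := List.mem_map.1 hp
  by_contra h0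
  exact h r hr ((mul_eq_right₀ h0).1 (h1 _ hp))

namespace TwData

theorem τ_mulSingle (T : TwData D F) (i : Nd D) (a : Fˣ) :
    T.τ (Pi.mulSingle i a) = Pi.mulSingle (T.ρ i) (T.ψ i a) := by
  ext1 j
  obtain ⟨j, rfl⟩ := T.ρ.surjective j
  rw [τ_apply]
  by_cases h : j = i
  · subst h; simp
  · simp [h]

theorem τ_pair (T : TwData D F) {i j : Nd D} (h1 : T.ρ i = j) (h2 : T.ρ j = i) (a : Fˣ)
    (h : T.ψ j (T.ψ i a) = a) :
    T.τ (Pi.mulSingle i a * Pi.mulSingle j (T.ψ i a)) = Pi.mulSingle i a * Pi.mulSingle j (T.ψ i a) := by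
  rw [map_mul, τ_mulSingle, τ_mulSingle, h1, h2, h, mul_comm]

variable (T : TwData D F) {K : Type*} (Fo : Fold (rs D).M K) (hF : ∀ w, permW T.hρ w = w → w ∈ Fo.W1)
  (S : Set (List (ℕ × F))) (P : K → List (ℕ × F) → Prop)

/-- the conditions on the generating words. -/
structure WordsOK : Prop where
  cls : ∀ k x, x ∈ T.aut.Fx ∧ x ∈ (sys D F).Um (Fo.g k) ↔ ∃ w, P k w ∧ x = wordG D w
  pos : ∀ k w, P k w → (w.map Prod.fst).Nodup ∧ ∀ r ∈ w.map Prod.fst, D.IsPosRoot r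
  gen : ∀ w, w ∈ S ↔ ∃ k w', P k w' ∧ (w = w' ∨ w = D.negWord w')
  ne : ∀ k, ∃ w, P k w ∧ ∃ p ∈ w, p.2 ≠ 0

variable {T Fo S P} (h : T.WordsOK Fo S P)
include h

theorem WordsOK.omega {k : K} {w : List (ℕ × F)} (hw : P k w) :
    omegaU D F * wordG D w * (omegaU D F)⁻¹ = wordG D (D.negWord w) :=
  omega_conj_wordG fun p hp => ((h.pos k w hw).2 _ (List.mem_map_of_mem hp)).1

theorem WordsOK.hb (M : Subgroup (GL D.Idx F)) (hM : ∀ k, ∀ x ∈ T.aut.Fx, x ∈ (sys D F).Um (Fo.g k) →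
    x ∈ M ∧ omegaU D F * x * (omegaU D F)⁻¹ ∈ M) : D.genSubgroup F S ≤ M := by
  rw [genSubgroup_eq, Subgroup.closure_le]
  rintro _ ⟨w, hw, rfl⟩
  obtain ⟨k, w', h1, h2⟩ := (h.gen w).1 hw
  obtain ⟨h3, h4⟩ := (h.cls k _).2 ⟨w', h1, rfl⟩
  rcases h2 with rfl | rfl
  · exact (hM k _ h3 h4).1
  · rw [← h.omega h1]; exact (hM k _ h3 h4).2

theorem WordsOK.hc (k : K) (x : GL D.Idx F) (hx : x ∈ T.aut.Fx) (hx' : x ∈ (sys D F).Um (Fo.g k)) :
    x ∈ D.genSubgroup F S ∧ omegaU D F * x * (omegaU D F)⁻¹ ∈ D.genSubgroup F S := by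
  obtain ⟨w, h1, rfl⟩ := (h.cls k x).1 ⟨hx, hx'⟩
  rw [h.omega h1]
  exact ⟨wordG_mem_gen ((h.gen _).2 ⟨k, w, h1, Or.inl rfl⟩), wordG_mem_gen ((h.gen _).2 ⟨k, w, h1, Or.inr rfl⟩)⟩

theorem WordsOK.hd (k : K) : ∃ x ∈ T.aut.Fx, x ∈ (sys D F).Um (Fo.g k) ∧ x ≠ 1 := by
  obtain ⟨w, h1, p, hp, h2⟩ := h.ne k
  obtain ⟨h3, h4⟩ := (h.cls k _).2 ⟨w, h1, rfl⟩
  exact ⟨_, h3, h4, fun h5 => h2 (eq_zero_of_wordG (h.pos k w h1).1 (h.pos k w h1).2 h5 p hp)⟩

/-- the twisted group generated by words. -/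
noncomputable def WordsOK.tw : Twist (sys D F) K := T.twist Fo hF (D.genSubgroup F S) h.hb h.hc h.hd

theorem WordsOK.tw_gen : (h.tw hF).Gen := T.twist_gen Fo hF _ h.hb h.hc h.hd

theorem WordsOK.card_class (k : K) {ι : Type*} (g : ι → List (ℕ × F)) (h1 : ∀ w, P k w ↔ ∃ s, w = g s)
    (h2 : Function.Injective g) (h3 : ∀ s s', (g s).map Prod.fst = (g s').map Prod.fst) :
    Nat.card ↥(T.aut.Fx ⊓ (sys D F).Um (Fo.g k)) = Nat.card ι := by
  refine card_of_param (fun s => wordG D (g s)) (fun s s' he => h2 ?_) fun x => ?_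
  · have := h.pos k _ ((h1 _).2 ⟨s, rfl⟩)
    exact wordG_unique (h3 _ _) this.1 this.2 he
  · rw [Subgroup.mem_inf, h.cls]
    constructor
    · rintro ⟨w, hw, rfl⟩
      obtain ⟨s, rfl⟩ := (h1 w).1 hw
      exact ⟨s, rfl⟩
    · rintro ⟨s, rfl⟩
      exact ⟨_, (h1 _).2 ⟨s, rfl⟩, rfl⟩

theorem WordsOK.core (hj : ∀ j : Nd D, ∃ k w, P k w ∧ ∃ t, t ≠ 0 ∧ (D.simple j, t) ∈ w) :
    (((sys D F).Bo ⊓ (h.tw hF).G1).subgroupOf (h.tw hF).G1).normalCore = ⊥ := by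
  refine core_of_words _ fun j => ?_
  obtain ⟨k, w, h1, h2⟩ := hj j
  exact ⟨w, wordG_mem_gen ((h.gen _).2 ⟨k, w, h1, Or.inl rfl⟩), (h.pos k w h1).1, (h.pos k w h1).2, h2⟩

end TwData

theorem realize_mk_congr : True := by
  have := @TwData.mk.congr_simp.{0}
  trivial

end CA.ChevSys

theorem CA.realizeEqns_TwWord : True := by
  have := @CA.ChevSys.TwData.WordsOK.tw.eq_1.{0,0}
  have := @CA.ChevSys.TwData.WordsOK.tw.eq_def.{0,0}
  have := @CA.ChevSys.TwData.WordsOK.tw.congr_simp.{0,0}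
  trivial
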