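/-
The twisted group of type F4.
-/
import Cfsg.Agent.Chev.TwWord

set_option autoImplicit false
set_option linter.unusedSectionVars false
set_option linter.unusedSimpArgs false
set_option linter.unusedVariables false

namespace CA.ChevSys

open Cfsg.Lie Cfsg.Lie.ChevalleyDatum CA.Chev CA.Weyl CA.RGD Matrix

variable {K : Type*} [Field K] [CharP K 2]

/-- the graph-field automorphism. -/
noncomputable def tdF4 (σ : K ≃+* K) (h2 : ∀ t, σ (σ t) ^ 2 = t) : TwData chevF4 K where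
  p := 2
  φ := exF4
  hp := CharP.cast_eq_zero K 2
  σ := σ
  β := (exF4.exists_aut coxF4 (CharP.cast_eq_zero K 2) (exF4_bij fun x => ⟨_, h2 x⟩) σ).choose_spec.choose
  hβ := (exF4.exists_aut coxF4 (CharP.cast_eq_zero K 2) (exF4_bij fun x => ⟨_, h2 x⟩) σ).choose_spec.choose_spec.2.1
  ρ := rhoF4
  hρ := rhoF4_M
  hι := by decide +kernel

/-- the words of the classes. -/
def PF4 (K : Type*) [Field K] (e : ℕ) : Fin 2 → List (ℕ × K) → Prop
  | 0, w => ∃ t, w = [(33, t ^ e), (24, t)]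
  | 1, w => ∃ t u, w = [(27, t ^ e), (25, t), (28, t ^ (e + 1) + u), (30, u ^ (2 * e))]

/-- the roots of the classes. -/
def LF4 : Fin 2 → List ℕ := ![[33, 24], [27, 25, 28, 30]]

/-- the folding. -/
def foF4 : Fold (rs chevF4).M (Fin 2) := foldF4

theorem classF4 : ∀ k, ClassOK chevF4 (foF4.J k) (LF4 k) := by decide +kernel

theorem hFF4 (σ : K ≃+* K) (h2 : ∀ t, σ (σ t) ^ 2 = t) : ∀ w, permW (tdF4 σ h2).hρ w = w → w ∈ foF4.W1 := fun _ h => h

theorem b2_reorder (A B C D : K) : wordG chevF4 [(25, A), (27, B), (30, C), (28, D)] =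
    wordG chevF4 [(27, B), (25, A), (28, B * A + D), (30, B ^ 2 * A + C)] := by
  have h1 := xN_comm (D := chevF4) (r := 27) (s := 25) (by decide +kernel) B A
  rw [commWord, show chevF4.commTerms 27 25 = [(28, -1, 1, 1), (30, -1, 2, 1)] by decide +kernel] at h1
  have h2 := xN_commute (D := chevF4) (F := K) (a := 30) (b := 28) Nat.cast_zero (by decide +kernel)
  simp only [List.map_cons, List.map_nil, wordG_cons, wordG_nil, mul_one, ← mul_assoc, Int.cast_neg, Int.cast_one,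
    CharTwo.neg_eq, one_mul, pow_one] at h1 ⊢
  rw [h1, mul_assoc _ _ (xN _ 30 C), xN_add, mul_assoc, (h2 _ _).eq, ← mul_assoc, mul_assoc _ _ (xN _ 28 D), xN_add]

section
variable {σ : K ≃+* K} {e : ℕ} (hσ : ∀ t, σ t = t ^ e) (h2 : ∀ t, σ (σ t) ^ 2 = t)
include hσ h2

theorem wordsF4 : (tdF4 σ h2).WordsOK foF4 (f4Words K e) (PF4 K e) where
  cls k x := by
    have he : exF4.e 33 = 2 ∧ exF4.e 24 = 1 := by decide +kernel
    fin_cases k
    · refine ((tdF4 σ h2).mem_class_two foF4 (classF4 0)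
        (show exF4.ι 33 = 24 ∧ exF4.ι 24 = 33 ∧ exF4.γ 33 = 1 ∧ exF4.γ 24 = 1 by decide +kernel)
        (xN_commute Nat.cast_zero (by decide +kernel)) (by simp [tdF4, he, h2])).trans ?_
      simp only [PF4, tdF4, he, ← hσ]
      constructor
      · rintro ⟨t, rfl⟩
        exact ⟨_, ⟨σ t ^ 2, rfl⟩, by rw [map_pow, h2]⟩
      · rintro ⟨_, ⟨t, rfl⟩, rfl⟩
        exact ⟨σ t, by rw [h2]⟩
    · refine ((tdF4 σ h2).mem_class foF4 (classF4 1)).trans ?_
      have he : (exF4.ι 27 = 25 ∧ exF4.γ 27 = 1 ∧ exF4.e 27 = 2) ∧ (exF4.ι 25 = 27 ∧ exF4.γ 25 = 1 ∧ exF4.e 25 = 1) ∧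
        (exF4.ι 28 = 30 ∧ exF4.γ 28 = 1 ∧ exF4.e 28 = 2) ∧ (exF4.ι 30 = 28 ∧ exF4.γ 30 = 1 ∧ exF4.e 30 = 1) := by
        decide +kernel
      simp only [PF4, tdF4, LF4, Matrix.cons_val_one, Matrix.cons_val_zero, List.map_cons, List.map_nil, he,
        Int.cast_one, one_mul, pow_one, b2_reorder, pow_succ _ e, pow_mul', ← hσ]
      constructor
      · rintro ⟨t, rfl, h⟩
        have := wordG_unique (by simp) (by simp) (by exact (classF4 1).2.1) h
        simp only [List.cons.injEq, Prod.mk.injEq, true_and, and_true] at this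
        obtain ⟨e1, e2, e3, -⟩ := this
        exact ⟨_, ⟨t 25, σ (t 30), rfl⟩, by rw [← e3, e2, h2, e1]⟩
      · rintro ⟨_, ⟨t, u, rfl⟩, rfl⟩
        refine ⟨fun r => if r = 27 then σ t else if r = 25 then t else if r = 28 then σ t * t + u else σ u ^ 2,
          by simp, ?_⟩
        simp [h2, CharTwo.add_sq, mul_pow, mul_comm t, ← add_assoc, CharTwo.add_self_eq_zero]
  pos k w hw := by
    fin_cases k
    · obtain ⟨t, rfl⟩ := hw
      exact ⟨(classF4 0).1, (classF4 0).2.1⟩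
    · obtain ⟨t, u, rfl⟩ := hw
      exact ⟨(classF4 1).1, (classF4 1).2.1⟩
  gen w := by
    have e : chevF4.negIdx.getD 33 0 = 14 ∧ chevF4.negIdx.getD 24 0 = 23 ∧ chevF4.negIdx.getD 27 0 = 20 ∧
      chevF4.negIdx.getD 25 0 = 22 ∧ chevF4.negIdx.getD 28 0 = 19 ∧ chevF4.negIdx.getD 30 0 = 17 := by decide +kernel
    constructor
    · rintro (⟨t, rfl | rfl⟩ | ⟨t, u, rfl | rfl⟩)
      · exact ⟨0, _, ⟨t, rfl⟩, .inl rfl⟩
      · exact ⟨0, _, ⟨t, rfl⟩, .inr (by simp [negWord, -Array.getD_eq_getD_getElem?, e, CharTwo.neg_eq]; rfl)⟩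
      · exact ⟨1, _, ⟨t, u, rfl⟩, .inl rfl⟩
      · exact ⟨1, _, ⟨t, u, rfl⟩, .inr (by simp [negWord, -Array.getD_eq_getD_getElem?, e, CharTwo.neg_eq]; rfl)⟩
    · rintro ⟨k, w', hw, h⟩
      fin_cases k
      · obtain ⟨t, rfl⟩ := hw
        rcases h with rfl | rfl
        · exact .inl ⟨t, .inl rfl⟩
        · exact .inl ⟨t, .inr (by simp [negWord, -Array.getD_eq_getD_getElem?, e, CharTwo.neg_eq]; rfl)⟩
      · obtain ⟨t, u, rfl⟩ := hw
        rcases h with rfl | rfl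
        · exact .inr ⟨t, u, .inl rfl⟩
        · exact .inr ⟨t, u, .inr (by simp [negWord, -Array.getD_eq_getD_getElem?, e, CharTwo.neg_eq]; rfl)⟩
  ne k := by
    fin_cases k
    · exact ⟨_, ⟨1, rfl⟩, by simp⟩
    · exact ⟨_, ⟨1, 0, rfl⟩, by simp⟩

/-- the twisted group. -/
noncomputable def twF4 : Twist (sys chevF4 K) (Fin 2) := (wordsF4 hσ h2).tw (hFF4 σ h2)

theorem twF4_G1 : (twF4 hσ h2).G1 = twistedF4 K e := rfl

theorem coreF4 : (((sys chevF4 K).Bo ⊓ twistedF4 K e).subgroupOf (twistedF4 K e)).normalCore = ⊥ := by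
  refine (wordsF4 hσ h2).core (hFF4 σ h2) fun j => ?_
  fin_cases j
  · exact ⟨0, _, ⟨1, rfl⟩, 1, one_ne_zero, by simp; decide +kernel⟩
  · exact ⟨1, _, ⟨1, 0, rfl⟩, 1, one_ne_zero, by simp; left; decide +kernel⟩
  · exact ⟨1, _, ⟨1, 0, rfl⟩, 1, one_ne_zero, by simp; right; left; decide +kernel⟩
  · exact ⟨0, _, ⟨1, rfl⟩, 1, one_ne_zero, by simp; decide +kernel⟩

theorem psiF4 (i : Nd chevF4) (c : Kˣ) : (tdF4 σ h2).ψ i c = (c ^ e) ^ exF4.e (chevF4.simple i) := by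
  ext
  rw [TwData.ψ_val]
  simp [tdF4, hσ]

theorem tauF4 {c : Fin 4 → Kˣ} : (tdF4 σ h2).τ c = c ↔
    c 3 = (c 0 ^ e) ^ 2 ∧ c 2 = (c 1 ^ e) ^ 2 ∧ c 1 = c 2 ^ e ∧ c 0 = c 3 ^ e := by
  refine (tdF4 σ h2).τ_eq_iff.trans ?_
  have he : ∀ i : Nd chevF4, exF4.e (chevF4.simple i) = [2, 2, 1, 1].getD i 0 := by decide +kernel
  simp only [psiF4 hσ h2, he]
  refine (Fin.forall_fin_succ.trans (and_congr_right fun _ => Fin.forall_fin_succ.trans (and_congr_right fun _ =>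
    Fin.forall_fin_two))).trans ?_
  rw [← pow_one (c 2 ^ e), ← pow_one (c 3 ^ e)]
  rfl

theorem unit_F4 (c : Kˣ) : ((c ^ e) ^ 2) ^ e = c ∧ ((c ^ e) ^ e) ^ 2 = c := by
  constructor <;> ext <;> simp [← hσ, h2]

omit hσ h2 in
theorem kerF4 (c : Nd chevF4 → Kˣ) (h : hT chevF4 c = 1) : c = 1 :=
  funext fun i => (((certF4.iff_mul c).1 (hT_eq_one_iff.1 h)).2 i).trans (by simp)

theorem hT_memF4 [Fintype K] (c : Nd chevF4 → Kˣ) (hc : (tdF4 σ h2).τ c = c) : hT chevF4 c ∈ twistedF4 K e := by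
  obtain ⟨n, -, hn⟩ := FiniteField.card K 2
  have h1 : (c ^ 2 ^ (n.natPred)) ^ 2 = c := by
    ext i
    rw [← pow_mul, ← pow_succ, PNat.natPred_add_one, ← hn]
    simp [FiniteField.pow_card]
  rw [← h1, map_pow]
  exact (tdF4 σ h2).sq_mem_G1 (twF4 hσ h2) rfl ((wordsF4 hσ h2).tw_gen _)
    (l := (List.replicate 4 ([0, 3, 1, 2, 1, 2] : List (Fin 4))).flatten)
    ((permW_wordProd rhoF4_M _).trans ((wordProd_eq_iff cartanF4 _ _).2 (by decide +kernel))) (by decide +kernel)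
    (hT_mem _) ((tdF4 σ h2).hT_mem_Fx.2 (by rw [map_pow, hc]))

theorem card_fixF4 [Fintype K] : Nat.card {c // (tdF4 σ h2).τ c = c} = (Fintype.card K - 1) ^ 2 := by
  let f : {c : Fin 4 → Kˣ // (tdF4 σ h2).τ c = c} ≃ Kˣ × Kˣ :=
    { toFun := fun c => (c.1 0, c.1 1)
      invFun := fun p => ⟨![p.1, p.2, (p.2 ^ e) ^ 2, (p.1 ^ e) ^ 2], (tauF4 hσ h2).2
        ⟨rfl, rfl, (unit_F4 hσ h2 _).1.symm, (unit_F4 hσ h2 _).1.symm⟩⟩
      left_inv := fun c => by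
        obtain ⟨h0, h1, -⟩ := (tauF4 hσ h2).1 c.2
        ext1; ext1 i
        fin_cases i <;> simp [h0, h1]
      right_inv := fun p => rfl }
  refine (Nat.card_congr f).trans ?_
  rw [Nat.card_prod, Nat.card_units, Nat.card_eq_fintype_card, sq]

theorem cardH_F4 [Fintype K] :
    Nat.card ↥(chevF4.diagonalSubgroup K ⊓ twistedF4 K e) = (Fintype.card K - 1) ^ 2 := by
  have h1 : Nat.card {c // (tdF4 σ h2).τ c = c ∧ hT chevF4 c = 1} = 1 :=
    Nat.card_eq_one_iff_exists.2 ⟨⟨1, map_one _, map_one _⟩, fun c => Subtype.ext (kerF4 _ c.2.2)⟩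
  rw [← card_fixF4 hσ h2, ← one_mul (Nat.card _), ← h1]
  exact (tdF4 σ h2).card_H1 (twF4 hσ h2).G1_le (hT_memF4 hσ h2) ((tdF4 σ h2).lift_of_inj kerF4)

theorem card_classF4 [Fintype K] (k : Fin 2) :
    Nat.card ↥((twF4 hσ h2).Fx ⊓ (sys chevF4 K).Um ((twF4 hσ h2).F.g k)) = Fintype.card K ^ expF4 k := by
  fin_cases k
  · exact ((wordsF4 hσ h2).card_class 0 (fun t : K => [(33, t ^ e), (24, t)]) (by simp [PF4])
      (fun a b h => by simp at h; exact h.2) (by simp)).trans (by simp [expF4])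
  · exact ((wordsF4 hσ h2).card_class 1
      (fun t : K × K => [(27, t.1 ^ e), (25, t.1), (28, t.1 ^ (e + 1) + t.2), (30, t.2 ^ (2 * e))]) (by simp [PF4])
      (fun a b h => by
        simp only [List.cons.injEq, Prod.mk.injEq, true_and] at h
        exact Prod.ext h.2.1 (by simpa [h.2.1] using h.2.2.1)) (by simp)).trans (by simp [expF4, sq])

theorem cardU_F4 [Fintype K] : Nat.card ↥(chevF4.posUnipotent K ⊓ twistedF4 K e) = Fintype.card K ^ 12 := by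
  rw [← sys_U]
  exact (twF4 hσ h2).card_U1 (faithful _ _) (card_classF4 hσ h2) len_foldF4 two_pos
    fun w hw => (len_longest hw).trans (by decide)

theorem cardG_F4 [Fintype K] {q : ℕ} (hK : Fintype.card K = q) :
    Nat.card ↥(twistedF4 K e) = q ^ 12 * (q - 1) * (q ^ 3 + 1) * (q ^ 4 - 1) * (q ^ 6 + 1) := by
  have h1 : Nat.card (twistedF4 K e) = Nat.card ↥((sys chevF4 K).U ⊓ twistedF4 K e) *
      Nat.card ↥(chevF4.diagonalSubgroup K ⊓ twistedF4 K e) * chainPoly (Fintype.card K) tchainF4 :=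
    (twF4 hσ h2).card_G1_chain (faithful _ _) cartanF4 (card_classF4 hσ h2) chk_tchainF4 all_tchainF4
  have h4 := tpolyF4 q
  have hq : 0 < q := hK ▸ Fintype.card_pos
  rw [← chainPoly_cast] at h4
  rw [h1, sys_U, cardU_F4 hσ h2, cardH_F4 hσ h2, hK]
  zify [hq, Nat.one_le_pow 4 q hq]
  linear_combination (q : ℤ) ^ 12 * h4

theorem perfectF4 [Fintype K] (hK : 2 < Fintype.card K) : commutator (twistedF4 K e) = ⊤ := by
  obtain ⟨a, ha⟩ := exists_unit_pow_ne_one (K := K) one_pos hK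
  have ha1 : (a : K) ≠ 1 := by simpa using ha
  have ha0 := a.ne_zero
  have hb : σ a ^ 2 ≠ 1 := fun h => ha1 (by rw [← h2 a, ← map_pow, h, map_one])
  have hab : σ a ^ 2 * a ≠ 1 := fun h => ha1 (by
    have h3 := congrArg (fun x => σ x ^ 2) h
    simp only [map_mul, map_pow, h2, mul_pow, map_one, one_pow] at h3
    exact mul_left_cancel₀ (a := σ a ^ 2 * a) (by rw [h]; exact one_ne_zero) (by linear_combination h3 - h))
  have hab' : σ a ^ 2 * a ^ 2 ≠ 1 := fun h => ha1 (by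
    have h3 := congrArg σ h
    have h4 : σ a * a = 1 := by rw [← mul_pow, sq_eq_one_iff, CharTwo.neg_eq, or_self] at h; exact h
    simp only [map_mul, map_pow, h2, map_one] at h3
    exact mul_left_cancel₀ (a := σ a ^ 2 * a) (by rw [mul_comm, h3]; exact one_ne_zero) (by linear_combination h - h3))
  have key : ∀ (k : Fin 2) (c : Fin 4 → Kˣ), (tdF4 σ h2).τ c = c → (∀ r ∈ LF4 k, chi chevF4 c r ≠ 1) →
      ∀ x ∈ (twF4 hσ h2).Fx, x ∈ (sys chevF4 K).Um ((twF4 hσ h2).F.g k) → x ∈ der (twF4 hσ h2).G1 :=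
    fun k c h3 h4 x hx hx' => class_le_der_of_chi _ k (classF4 k) (hT_memF4 hσ h2 _ h3) h4 hx hx'
  have hchi : ∀ (c : Fin 4 → Kˣ) (r : ℕ), chi chevF4 c r = c 0 ^ chevF4.cartan 0 r * c 1 ^ chevF4.cartan 1 r *
      c 2 ^ chevF4.cartan 2 r * c 3 ^ chevF4.cartan 3 r := fun c r =>
    (congrArg Units.val (Fin.prod_univ_four fun i => c i ^ chevF4.cartan i r)).trans (by simp)
  refine (twF4 hσ h2).perfect (faithful _ _) ((wordsF4 hσ h2).tw_gen _) fun k => ?_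
  fin_cases k
  · refine key 0 ![1, a, (a ^ e) ^ 2, 1] ((tauF4 hσ h2).2 ⟨by simp, rfl, (unit_F4 hσ h2 _).1.symm, by simp⟩) ?_
    have : chevF4.cartan 1 33 = -1 ∧ chevF4.cartan 2 33 = 0 ∧ chevF4.cartan 1 24 = 0 ∧ chevF4.cartan 2 24 = -1 := by
      decide +kernel
    simp [LF4, hchi, this, ha, ← hσ, hb, ha1, -sq_eq_one_iff]
  · refine key 1 ![a, 1, 1, (a ^ e) ^ 2] ((tauF4 hσ h2).2 ⟨rfl, by simp, by simp, (unit_F4 hσ h2 _).1.symm⟩) ?_
    have : (chevF4.cartan 0 27 = -1 ∧ chevF4.cartan 0 25 = 0 ∧ chevF4.cartan 0 28 = -1 ∧ chevF4.cartan 0 30 = -2) ∧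
      chevF4.cartan 3 27 = 0 ∧ chevF4.cartan 3 25 = -1 ∧ chevF4.cartan 3 28 = -1 ∧ chevF4.cartan 3 30 = -1 := by
      decide +kernel
    simp [LF4, hchi, this, ha, ← hσ, hb, ha1, -sq_eq_one_iff, ← mul_inv, zpow_ofNat, hab, hab', mul_comm (a : K),
      mul_comm ((a : K) ^ 2), -_root_.mul_inv_rev]

theorem simpleF4 [Fintype K] (hK : 2 < Fintype.card K) :
    IsSimpleGroup (twistedF4 K e) ∧ ¬ IsMulCommutative (twistedF4 K e) :=
  (twF4 hσ h2).isSimpleGroup (faithful _ _) (conn_of_tree _ 0 (fun k => k.1) conn_foldF4) (coreF4 hσ h2)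
    isSolvable_sys_Bo (perfectF4 hσ h2 hK)

end

theorem exists_frobRee {K : Type*} [Field K] [Fintype K] {p m : ℕ} (hp : p.Prime) (hK : Fintype.card K = p ^ (2 * m + 1)) :
    ∃ (_ : CharP K p) (σ : K ≃+* K), (∀ t, σ t = t ^ p ^ m) ∧ ∀ t, σ (σ t) ^ p = t := by
  have := Fact.mk hp
  have := charP_of_card hp hK
  obtain ⟨σ, hσ⟩ := exists_frob_pow (K := K) p m
  exact ⟨this, σ, hσ, fun t => by
    rw [hσ, hσ, ← pow_mul, ← pow_mul, ← pow_succ, ← pow_add, ← add_assoc, ← two_mul, ← hK, FiniteField.pow_card]⟩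

end CA.ChevSys

theorem CA.realizeEqns_TwF4 : True := by
  have := @CA.ChevSys.foF4.eq_1
  have := @CA.ChevSys.foF4.eq_def
  have := @CA.ChevSys.foF4.congr_simp
  have := @CA.ChevSys.LF4.eq_1
  have := @CA.ChevSys.LF4.eq_def
  have := @CA.ChevSys.LF4.congr_simp
  have := @CA.ChevSys.tdF4.eq_1.{0}
  have := @CA.ChevSys.tdF4.eq_def.{0}
  have := @CA.ChevSys.tdF4.congr_simp.{0}
  have := @CA.ChevSys.PF4.eq_1.{0}
  have := @CA.ChevSys.PF4.eq_2.{0}
  have := @CA.ChevSys.PF4.eq_def.{0}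
  have := @CA.ChevSys.PF4.congr_simp.{0}
  have := @CA.ChevSys.twF4.eq_1.{0}
  have := @CA.ChevSys.twF4.eq_def.{0}
  have := @CA.ChevSys.twF4.congr_simp.{0}
  trivial
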