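/-
The Tits group.
-/
import Cfsg.Agent.Chev.TwF4
import Cfsg.Agent.Chev.RGDTrans
import Cfsg.Agent.Chev.TitsTab

set_option autoImplicit false
set_option linter.unusedSectionVars false
set_option linter.unusedSimpArgs false
set_option linter.unusedVariables false

namespace CA.Bits

open Cfsg.Lie Cfsg.Lie.ChevalleyDatum CA.Chev CA.Weyl CA.RGD CA.ChevSys Matrix

theorem hs1 : ∀ t : ZMod 2, RingEquiv.refl (ZMod 2) t = t ^ 1 := fun t => (pow_one t).symm
theorem hs2 : ∀ t : ZMod 2, RingEquiv.refl (ZMod 2) (RingEquiv.refl (ZMod 2) t) ^ 2 = t := by decide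

/-- the twisted group over the field with two elements. -/
noncomputable def tw2 : Twist (sys chevF4 (ZMod 2)) (Fin 2) := twF4 hs1 hs2

theorem H_triv (h : GL chevF4.Idx (ZMod 2)) (hh : h ∈ (sys chevF4 (ZMod 2)).H) : h = 1 := by
  obtain ⟨c, rfl⟩ := mem_diag.1 hh
  rw [Subsingleton.elim c 1, map_one]

theorem W_nil : W [] = 1 := rfl
theorem W_cons (r : ℕ) (l : List ℕ) : W (r :: l) = xN chevF4 r 1 * W l := by simp [W]
theorem W_append (l l' : List ℕ) : W (l ++ l') = W l * W l' := by simp [W]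

/-- the action of the generators of the twisted Weyl group on the roots. -/
def rfN (k : Fin 2) (r : ℕ) : ℕ := (wdF4 k).foldr (fun i s => chevF4.reflectRoot i s) r

theorem rfN_lt : ∀ k, ∀ r < 48, rfN k r < 48 := by decide +kernel

theorem conj_W {m : GL chevF4.Idx (ZMod 2)} {k : Fin 2} (hm : (sys chevF4 (ZMod 2)).Rep m (foF4.g k)) {l : List ℕ}
    (hl : ∀ r ∈ l, r < 48) : m * W l * m⁻¹ = W (l.map (rfN k)) := by
  induction l with
  | nil => simp [W]
  | cons r l ih =>
    suffices h : m * xN chevF4 r 1 * m⁻¹ = xN chevF4 (rfN k r) 1 by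
      rw [List.map_cons, W_cons, W_cons, ← ih fun s hs => hl s (List.mem_cons_of_mem _ hs), ← h, conj_mul]
    have h1 := hl r List.mem_cons_self
    lift r to Rt chevF4 using h1
    obtain ⟨t, ht⟩ := mem_X.1 (hm.conj_X (xU_mem_X r 1))
    have h2 : rfN k r = ((rs chevF4).act (foF4.g k) r : Rt chevF4) := by
      rw [Fold.g, act_wordProd]
      exact (by decide +kernel : ∀ k, ∀ r : Rt chevF4, rfN k r = ((foF4.wd k).foldr srefl r : Rt chevF4)) k r
    rw [h2, xN_val, xN_val, ht]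
    refine congrArg _ ?_
    have : t ≠ 0 := by
      rintro rfl
      rw [xU_zero, mul_inv_eq_one, mul_eq_left, xU_eq_one_iff] at ht
      exact one_ne_zero ht
    exact (by decide : ∀ t : ZMod 2, t ≠ 0 → t = 1) t this

theorem conj_W' (m : Fin 2 → GL chevF4.Idx (ZMod 2)) (hm : ∀ k, (sys chevF4 (ZMod 2)).Rep (m k) (foF4.g k))
    (L : List (Fin 2)) {l : List ℕ} (hl : ∀ r ∈ l, r < 48) :
    ((L.map m).prod)⁻¹ * W l * (L.map m).prod = W (L.foldl (fun w k => w.map (rfN k)) l) := by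
  induction L generalizing l with
  | nil => simp
  | cons k L ih =>
    have := conj_W (m := (m k)⁻¹) (k := k) (by simpa [foF4.g_inv (rs chevF4).hA] using (hm k).inv) hl
    rw [List.foldl_cons, ← ih (by simpa using fun r hr => rfN_lt k r (hl r hr)), ← this]
    simp [mul_assoc]

/-- the elements of the classes. -/
def clsW : Fin 2 → List (List ℕ) := ![[[], [33, 24]], [[], [27, 25, 28], [28, 30], [27, 25, 30]]]

theorem mem_cls {k : Fin 2} {x : GL chevF4.Idx (ZMod 2)} :
    x ∈ tw2.Fx ∧ x ∈ (sys chevF4 (ZMod 2)).Um (foF4.g k) ↔ ∃ w ∈ clsW k, x = W w := by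
  refine ((wordsF4 hs1 hs2).cls k x).trans ?_
  have h : ∀ P : ZMod 2 → Prop, (∃ t, P t) ↔ P 0 ∨ P 1 := fun P => Fin.exists_fin_two
  have h2 : (1 + 1 : ZMod 2) = 0 := rfl
  fin_cases k <;> simp only [PF4, clsW, h, W, or_and_right, exists_or, h2, or_assoc, or_left_comm, exists_eq_left,
    wordG_cons, wordG_nil, pow_one, one_pow, zero_pow two_ne_zero, mul_one, Nat.reduceAdd, xN_zero, one_mul, add_zero,
    zero_add, Fin.zero_eta, Fin.mk_one, cons_val_zero, cons_val_one, List.mem_cons, List.not_mem_nil, or_false,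
    List.map_cons, List.map_nil, List.prod_cons, List.prod_nil]

/-- two sets of vectors. -/
def Om : Bool → List ℕ
  | false => [101223789232128, 514640161275904, 646581556609024, 778522951942144, 1359065091407872, 1508598672785408,
      2053956440162304, 2185897835495424, 2353023602917376, 2766439974961152, 2898381370294272, 3030322765627392,
      3610864905093120, 3760398486470656, 4305756253847552, 4437697649180672]
  | true => [233165184565248, 382698765942784, 928056533319680, 1059997928652800, 1227123696074752, 1640540068118528,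
      1772481463451648, 1904422858784768, 2484964998250496, 2634498579628032, 3179856347004928, 3311797742338048,
      3478923509760000, 3892339881803776, 4024281277136896, 4156222672470016]

/-- `g` preserves or swaps the two sets. -/
def Par (g : GL chevF4.Idx (ZMod 2)) (ε : Bool) : Prop :=
  ∀ i, ∀ v ∈ Om i, ∃ v' ∈ Om (i ^^ ε), g.1 *ᵥ vec chevF4 v = vec chevF4 v'

theorem Par.mul {a b : GL chevF4.Idx (ZMod 2)} {ε δ : Bool} (ha : Par a ε) (hb : Par b δ) : Par (a * b) (δ ^^ ε) := by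
  intro i v hv
  obtain ⟨v', h1, h2⟩ := hb i v hv
  obtain ⟨v'', h3, h4⟩ := ha _ v' h1
  exact ⟨v'', by rwa [← Bool.xor_assoc], by rw [Units.val_mul, ← mulVec_mulVec, h2, h4]⟩

theorem par_one : Par 1 false := fun i v hv => ⟨v, by simpa using hv, by simp⟩

theorem Par.not {a : GL chevF4.Idx (ZMod 2)} (ha : Par a false) : ¬ Par a true := fun hb => by
  obtain ⟨v, h1, h2⟩ := ha false _ List.mem_cons_self
  obtain ⟨v', h3, h4⟩ := hb false _ List.mem_cons_self
  have h5 : ∀ i, ∀ v ∈ Om i, v < 2 ^ 52 := by decide +kernel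
  have h6 : ∀ v ∈ Om false, v ∉ Om true := by decide +kernel
  exact h6 v h1 (vec_inj (h5 _ v h1) (h5 _ v' h3) (h2.symm.trans h4) ▸ h3)

open Classical in
/-- the sign. -/
noncomputable def lam (g : GL chevF4.Idx (ZMod 2)) : ℤˣ := if Par g true then -1 else 1

theorem Par.lam {a : GL chevF4.Idx (ZMod 2)} {ε : Bool} (ha : Par a ε) : lam a = if ε then -1 else 1 := by
  cases ε
  · exact if_neg ha.not
  · exact if_pos ha

/-- the check on a word. -/
def chkP (l : List ℕ) (ε : Bool) : Prop := (∀ r ∈ l, 24 ≤ r ∧ r < 48) ∧ ∀ i, ∀ v ∈ Om i, actW l v ∈ Om (i ^^ ε)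

instance instDecChkP (l : List ℕ) (ε : Bool) : Decidable (chkP l ε) := by unfold chkP; infer_instance

theorem chkP.par {l : List ℕ} {ε : Bool} (h : chkP l ε) : Par (W l) ε :=
  fun i v hv => ⟨_, h.2 i v hv, (vec_actW h.1 v).symm⟩

theorem prod_g (l : List (Fin 2)) :
    (l.map foF4.g).prod = CoxeterMatrix.F₄.toCoxeterSystem.wordProd (l.flatMap wdF4) := by
  induction l with
  | nil => simp; rfl
  | cons k l ih => rw [List.map_cons, List.prod_cons, ih, List.flatMap_cons, CoxeterSystem.wordProd_append]; rfl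

theorem par_of_chk (m : Fin 2 → GL chevF4.Idx (ZMod 2)) (hm1 : ∀ k, m k ∈ tw2.G1)
    (hm : ∀ k, (sys chevF4 (ZMod 2)).Rep (m k) (foF4.g k)) (n : GL chevF4.Idx (ZMod 2)) (f : ℕ → ℕ)
    (hn : ∀ l : List ℕ, (∀ r ∈ l, r < 48) → n * W l * n⁻¹ = W (l.map f)) (L : List (Fin 2))
    (h : ∀ i : Fin L.length, (∀ j ∈ orbF4 L[i],
      ¬ (dactL alF4 ((L.take i).flatMap wdF4) (List.replicate 4 1)).getD j 0 ≤ 0) ∧
      ∀ w ∈ clsW L[i], ∃ ε, chkP ((L.drop (i + 1)).foldl (fun w k => w.map (rfN k)) w) ε ∧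
        chkP (((L.drop (i + 1)).foldl (fun w k => w.map (rfN k)) w).map f) ε)
    {x : GL chevF4.Idx (ZMod 2)} (hx : x ∈ tw2.Fx) (hx' : x ∈ (sys chevF4 (ZMod 2)).Um (L.map foF4.g).prod) :
    ∃ ε, Par x ε ∧ Par (n * x * n⁻¹) ε := by
  have := tw2.Um_induction (faithful _ _) m hm1 hm (P := fun x => ∃ ε, Par x ε ∧ Par (n * x * n⁻¹) ε)
    ⟨false, par_one, by simpa using par_one⟩
    (fun a b ⟨ε, h1, h2⟩ ⟨δ, h3, h4⟩ => ⟨_, h1.mul h3, conj_mul (b := n) ▸ h2.mul h4⟩) L 1 ?_ hx hx'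
  · simpa using this
  rintro l1 k l2 rfl
  obtain ⟨h1, h2⟩ := h ⟨l1.length, by simp⟩
  simp only [Fin.getElem_fin, List.getElem_append_right le_rfl, Nat.sub_self, List.getElem_cons_zero,
    List.take_left', List.drop_length_add_append, List.drop_succ_cons, List.drop_zero] at h1 h2
  refine ⟨fun j hj hd => h1 j hj ((desc_wordProd_iff cartanF4 _ _).1 (prod_g l1 ▸ hd)), fun y hy hy' => ?_⟩
  obtain ⟨w, hw, rfl⟩ := mem_cls.1 ⟨hy, hy'⟩
  obtain ⟨ε, h3, h4⟩ := h2 w hw
  have h5 : ∀ k, ∀ w ∈ clsW k, ∀ r ∈ w, r < 48 := by decide +kernel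
  rw [mul_one, conj_W' m hm l2 (h5 k w hw), hn _ fun r hr => (h3.1 r hr).2]
  exact ⟨ε, h3.par, h4.par⟩

theorem card_G : Nat.card tw2.G1 = 35942400 := cardG_F4 hs1 hs2 (q := 2) rfl

theorem card_U : Nat.card ((sys chevF4 (ZMod 2)).U.subgroupOf tw2.G1) = 2 ^ 12 := by
  rw [← Subgroup.inf_subgroupOf_right, Nat.card_congr (Subgroup.subgroupOfEquivOfLe inf_le_right).toEquiv, sys_U]
  exact cardU_F4 hs1 hs2

theorem z_not_mem : W [27, 25, 28] ∉ der tw2.G1 := by
  intro hz
  choose m hm1 hm using tw2.exists_rep_g (faithful _ _)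
  have h0 : ∀ j, Desc (rs chevF4).M (([0, 1, 0, 1, 0, 1, 0, 1] : List (Fin 2)).map foF4.g).prod j := fun j =>
    prod_g _ ▸ (desc_wordProd_iff cartanF4 _ j).2 (by revert j; decide +kernel)
  have hA : ∀ x ∈ tw2.Fx, x ∈ (sys chevF4 (ZMod 2)).U → ∃ ε, Par x ε := fun x hx hx' => by
    obtain ⟨ε, h, -⟩ := par_of_chk m hm1 hm 1 id (by simp) [0, 1, 0, 1, 0, 1, 0, 1] (by decide +kernel) hx
      (by rwa [Sys.Um_longest h0])
    exact ⟨ε, h⟩
  have hB : ∀ k, ∀ x ∈ tw2.Fx, x ∈ (sys chevF4 (ZMod 2)).Up (foF4.g k) → lam (m k * x * (m k)⁻¹) = lam x := by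
    intro k x hx hx'
    rw [← Sys.Um_longest_mul h0, ← List.prod_concat, ← List.map_concat, prod_g] at hx'
    have : ∃ ε, Par x ε ∧ Par (m k * x * (m k)⁻¹) ε := by
      fin_cases k
      · refine par_of_chk m hm1 hm _ _ (fun l => conj_W (hm 0)) [1, 0, 1, 0, 1, 0, 1] (by decide +kernel) hx ?_
        rw [prod_g]
        refine (congrArg (fun w => x ∈ (sys chevF4 (ZMod 2)).Um w) ((wordProd_eq_iff cartanF4 _ _).2 ?_)).mp hx'
        decide +kernel
      · refine par_of_chk m hm1 hm _ _ (fun l => conj_W (hm 1)) [0, 1, 0, 1, 0, 1, 0] (by decide +kernel) hx ?_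
        rw [prod_g]
        refine (congrArg (fun w => x ∈ (sys chevF4 (ZMod 2)).Um w) ((wordProd_eq_iff cartanF4 _ _).2 ?_)).mp hx'
        decide +kernel
    obtain ⟨ε, h1, h2⟩ := this
    rw [h1.lam, h2.lam]
  have h1 := tw2.lam_pow_index (faithful _ _) m hm1 hm lam (fun a ha ha' b hb hb' => by
    obtain ⟨ε, h1⟩ := hA a ha ha'
    obtain ⟨δ, h2⟩ := hA b hb hb'
    rw [(h1.mul h2).lam, h1.lam, h2.lam]
    cases ε <;> cases δ <;> simp) H_triv hB hz (wordG_mem_U (w := [(27, 1), (25, 1), (28, 1)]) (by decide +kernel))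
  rw [(chkP.par (ε := true) (by decide +kernel)).lam] at h1
  have h2 := ((sys chevF4 (ZMod 2)).U.subgroupOf tw2.G1).card_mul_index
  rw [card_U, card_G] at h2
  rw [show ((sys chevF4 (ZMod 2)).U.subgroupOf tw2.G1).index = 8775 by omega] at h1
  rw [if_pos rfl, Odd.neg_one_pow (by decide)] at h1
  exact absurd h1 (by decide)

theorem index_der : (commutator tw2.G1).index = 2 := by
  choose m hm1 hm using tw2.exists_rep_g (faithful _ _)
  have h1 : ∀ k, ∀ w ∈ clsW k, W w ∈ tw2.G1 := fun k w hw => by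
    obtain ⟨h1, h2⟩ := mem_cls.2 ⟨w, hw, rfl⟩
    exact tw2.up_le k _ h1 h2
  have h2 : ∀ k (l : List ℕ), (∀ r ∈ l, r < 48) → W l ∈ tw2.G1 → W (l.map (rfN k)) ∈ tw2.G1 := fun k l hl h => by
    rw [← conj_W (hm k) hl]; exact mul_mem (mul_mem (hm1 k) h) (inv_mem (hm1 k))
  have h3 : ∀ k (l : List ℕ), (∀ r ∈ l, r < 48) → W (l.map (rfN k)) ∈ der tw2.G1 → W l ∈ der tw2.G1 :=
    fun k l hl h => by
      rw [← conj_W (hm k) hl] at h
      simpa only [mul_assoc, inv_inv, inv_mul_cancel_left, inv_mul_cancel, mul_one] using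
        conj_mem_der (inv_mem (hm1 k)) h
  have hz := h1 1 [27, 25, 28] (by decide)
  have h4 : ∀ a c : List ℕ, W a ∈ tw2.G1 → W (a ++ [27, 25, 28]) = W (c ++ ([27, 25, 28] ++ a)) →
      W c ∈ der tw2.G1 := fun a c ha he => by
    have := comm_mem_der ha hz
    rw [← W_append, he, W_append, W_append] at this
    simpa [mul_assoc] using this
  have hy : W [33, 24] ∈ der tw2.G1 := h3 1 _ (by decide) (h4 _ _ (h2 1 _ (by decide +kernel) (h2 0 _ (by decide) hz))
    (W_eq (by decide +kernel) (by decide +kernel) (by decide +kernel)))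
  have hzz : W [28, 30] ∈ der tw2.G1 := h3 0 _ (by decide) (h3 1 _ (by decide +kernel) (h4 _ _ (h2 1 _ (by decide +kernel)
    (h2 0 _ (by decide +kernel) (h2 1 _ (by decide) (h1 0 [33, 24] (by decide)))))
    (W_eq (by decide +kernel) (by decide +kernel) (by decide +kernel))))
  refine index_two_of (z := ⟨_, hz⟩) (fun h => z_not_mem ⟨_, h, rfl⟩) (mem_der_iff.1 ?_) ?_
  · show W _ * W _ ∈ _
    rwa [← W_append, W_eq (l' := [28, 30]) (by decide +kernel) (by decide +kernel) (by decide +kernel)]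
  have h5 : tw2.G1 ≤ (commutator tw2.G1 ⊔ Subgroup.zpowers ⟨_, hz⟩).map tw2.G1.subtype := by
    have h6 : der tw2.G1 ≤ (commutator tw2.G1 ⊔ Subgroup.zpowers ⟨_, hz⟩).map tw2.G1.subtype :=
      Subgroup.map_mono le_sup_left
    have h7 : W [27, 25, 28] ∈ (commutator tw2.G1 ⊔ Subgroup.zpowers ⟨_, hz⟩).map tw2.G1.subtype :=
      ⟨_, Subgroup.mem_sup_right (Subgroup.mem_zpowers _), rfl⟩
    refine tw2.le_of_normal (faithful _ _) ((wordsF4 hs1 hs2).tw_gen (hFF4 _ hs2)) ?_ fun k x hx hx' => ?_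
    · rintro g hg _ ⟨a, ha, rfl⟩
      exact ⟨_, (Subgroup.Normal.of_commutator_le _ le_sup_left).conj_mem a ha ⟨g, hg⟩, rfl⟩
    obtain ⟨w, hw, rfl⟩ := mem_cls.1 ⟨hx, hx'⟩
    fin_cases k <;> simp only [clsW, Fin.zero_eta, Fin.mk_one, cons_val_zero, cons_val_one, List.mem_cons,
      List.not_mem_nil, or_false] at hw
    · rcases hw with rfl | rfl
      exacts [one_mem _, h6 hy]
    · rcases hw with rfl | rfl | rfl | rfl
      exacts [one_mem _, h7, h6 hzz, by
        rw [← W_eq (l := [27, 25, 28] ++ [28, 30]) (l' := [27, 25, 30]) (by decide +kernel)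
          (by decide +kernel) (by decide +kernel), W_append]
        exact mul_mem h7 (h6 hzz)]
  rw [eq_top_iff]
  rintro g -
  obtain ⟨a, ha, he⟩ := h5 g.2
  exact (Subtype.ext he : a = g) ▸ ha

theorem card_der : Nat.card (commutator tw2.G1) = 17971200 := by
  have h2 := (commutator tw2.G1).card_mul_index
  rw [index_der, card_G] at h2
  omega

theorem simple_der : IsSimpleGroup (commutator tw2.G1) := by
  refine simple_of_index_two index_der (fun M hM => ?_) (by rw [card_der]; norm_num)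
  refine (tw2.normal_eq_bot_or (faithful _ _) (conn_of_tree _ 0 (fun k => k.1) conn_foldF4) (coreF4 hs1 hs2) M).imp_right
    fun h => ?_
  have h1 : IsPGroup 2 (((sys chevF4 (ZMod 2)).Bo ⊓ tw2.G1).subgroupOf tw2.G1) := by
    rw [show (sys chevF4 (ZMod 2)).Bo = (sys chevF4 (ZMod 2)).U from sup_eq_left.2 fun h hh => H_triv h hh ▸ one_mem _,
      Subgroup.inf_subgroupOf_right]
    exact IsPGroup.of_card card_U
  have h2 := (h1.of_surjective _ h).isNilpotent
  have h3 : IsCyclic (tw2.G1 ⧸ commutator tw2.G1) := isCyclic_of_prime_card (p := 2) index_der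
  have h4 := Subgroup.map_commutator (⊤ : Subgroup tw2.G1) ⊤ (QuotientGroup.mk' M)
  rw [Subgroup.map_top_of_surjective _ (QuotientGroup.mk'_surjective M), ← commutator_def, ← commutator_def] at h4
  have h5 := commutator_eq_bot_of_cyclic (isCyclic_of_surjective (QuotientGroup.map (commutator tw2.G1)
    (commutator (tw2.G1 ⧸ M)) (QuotientGroup.mk' M) (Subgroup.map_le_iff_le_comap.1 h4.le))
    (QuotientGroup.map_surjective_of_surjective _ _ _
      (QuotientGroup.mk_surjective.comp (QuotientGroup.mk'_surjective M)) _))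
  rwa [← h4, Subgroup.map_eq_bot_iff, QuotientGroup.ker_mk'] at h5

theorem not_comm_der : ¬ IsMulCommutative (commutator tw2.G1) := fun h => by
  have := simple_der
  have h1 := (Group.is_simple_iff_prime_card (α := commutator tw2.G1)).1 this
  rw [card_der] at h1
  exact absurd h1 (by norm_num)

end CA.Bits

theorem CA.realizeEqns_Tits : True := by
  have := @CA.Bits.rfN.eq_1
  have := @CA.Bits.rfN.eq_def
  have := @CA.Bits.rfN.congr_simp
  have := @CA.Bits.lam.eq_1
  have := @CA.Bits.lam.eq_def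
  have := @CA.Bits.lam.congr_simp
  have := @CA.Bits.tw2.eq_1
  have := @CA.Bits.tw2.eq_def
  have := @CA.Bits.tw2.congr_simp
  have := @CA.Bits.chkP.eq_1
  have := @CA.Bits.chkP.eq_def
  have := @CA.Bits.chkP.congr_simp
  have := @CA.Bits.clsW.eq_1
  have := @CA.Bits.clsW.eq_def
  have := @CA.Bits.clsW.congr_simp
  have := @CA.Bits.Par.eq_1
  have := @CA.Bits.Par.eq_def
  have := @CA.Bits.Par.congr_simp
  have := @CA.Bits.Om.eq_1
  have := @CA.Bits.Om.eq_2
  have := @CA.Bits.Om.eq_def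
  have := @CA.Bits.Om.congr_simp
  trivial
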