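/-
The twisted group of type D4.
-/
import Cfsg.Agent.Chev.TwWord

set_option autoImplicit false
set_option linter.unusedSectionVars false
set_option linter.unusedSimpArgs false
set_option linter.unusedVariables false

namespace CA.ChevSys

open Cfsg.Lie Cfsg.Lie.ChevalleyDatum CA.Chev CA.Weyl CA.RGD Matrix

theorem xN_mem_der_of_refl3 {D : ChevalleyDatum} [RootGood D] [LieGood D] {F : Type*} [Field F]
    {G : Subgroup (GL D.Idx F)} {a b c : Nd D} (hn : nG (sim a) 1 * nG (sim b) 1 * nG (sim c) 1 ∈ G) {k l : ℕ}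
    (hk : k < D.nroots ∧ D.reflectRoot c k < D.nroots ∧ D.reflectRoot b (D.reflectRoot c k) < D.nroots ∧
      D.reflectRoot a (D.reflectRoot b (D.reflectRoot c k)) = l) {t : F} (h : xN D k t ∈ der G) :
    xN D l t ∈ der G := by
  obtain ⟨ε, hε, h1⟩ := nG_conj_xN (F := F) c hk.1
  obtain ⟨ε', hε', h2⟩ := nG_conj_xN (F := F) b hk.2.1
  obtain ⟨ε'', hε'', h3⟩ := nG_conj_xN (F := F) a hk.2.2.1
  rw [← xN_sign_mem hε, ← xN_sign_mem hε', ← xN_sign_mem hε'', ← hk.2.2.2, ← h3, ← h2, ← h1]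
  simpa only [_root_.mul_inv_rev, mul_assoc] using conj_mem_der hn h

variable {K : Type*} [Field K]

/-- the graph-field automorphism. -/
noncomputable def tdD4 (σ : K ≃+* K) : TwData chevD4 K where
  p := 0
  φ := triD4
  hp := Nat.cast_zero
  σ := σ
  β := (triD4.exists_aut coxD4 Nat.cast_zero triD4_bij σ).choose_spec.choose
  hβ := (triD4.exists_aut coxD4 Nat.cast_zero triD4_bij σ).choose_spec.choose_spec.2.1
  ρ := rhoD4
  hρ := rhoD4_M
  hι := by decide +kernel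

/-- the words of the classes. -/
def PD4 (K : Type*) [Field K] (q : ℕ) : Fin 2 → List (ℕ × K) → Prop
  | 0, w => ∃ t, w = [(18, t), (13, t ^ q), (12, t ^ q ^ 2)]
  | 1, w => ∃ t, t ^ q = t ∧ w = [(14, t)]

/-- the roots of the classes. -/
def LD4 : Fin 2 → List ℕ := ![[18, 13, 12], [14]]

/-- the folding. -/
def foD4 : Fold (rs chevD4).M (Fin 2) := foldD4

theorem classD4 : ∀ k, ClassOK chevD4 (foD4.J k) (LD4 k) := by decide +kernel

theorem hFD4 (σ : K ≃+* K) : ∀ w, permW (tdD4 σ).hρ w = w → w ∈ foD4.W1 := fun _ h => h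

section
variable {σ : K ≃+* K} {q : ℕ} (hσ : ∀ t, σ t = t ^ q) (h3 : ∀ t, σ (σ (σ t)) = t)
include hσ h3

theorem wordsD4 : (tdD4 σ).WordsOK foD4 (d4Words K q) (PD4 K q) where
  cls k x := by
    fin_cases k
    · refine ((tdD4 σ).mem_class_three foD4 (classD4 0)
        (show triD4.ι 18 = 13 ∧ triD4.ι 13 = 12 ∧ triD4.ι 12 = 18 ∧ triD4.γ 18 = 1 ∧ triD4.γ 13 = 1 ∧ triD4.γ 12 = 1 ∧
          triD4.e 18 = 1 ∧ triD4.e 13 = 1 ∧ triD4.e 12 = 1 by decide +kernel)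
        (xN_commute Nat.cast_zero (by decide +kernel)) (xN_commute Nat.cast_zero (by decide +kernel)) h3).trans ?_
      simp [PD4, tdD4, hσ, ← pow_mul, sq]
    · refine ((tdD4 σ).mem_class_one foD4 (classD4 1)
        (show triD4.ι 14 = 14 ∧ triD4.γ 14 = 1 ∧ triD4.e 14 = 1 by decide +kernel)).trans ?_
      simp [PD4, tdD4, hσ]
  pos k w hw := by
    fin_cases k
    · obtain ⟨t, rfl⟩ := hw
      exact ⟨(classD4 0).1, (classD4 0).2.1⟩
    · obtain ⟨t, -, rfl⟩ := hw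
      exact ⟨(classD4 1).1, (classD4 1).2.1⟩
  gen w := by
    have hn : ∀ t : K, (-t) ^ q = - t ^ q := fun t => by rw [← hσ, ← hσ, map_neg]
    have hn' : ∀ t : K, (-t) ^ q ^ 2 = - t ^ q ^ 2 := fun t => by rw [sq, pow_mul, pow_mul, hn, hn]
    have e : chevD4.negIdx.getD 18 0 = 5 ∧ chevD4.negIdx.getD 14 0 = 9 ∧ chevD4.negIdx.getD 13 0 = 10 ∧
      chevD4.negIdx.getD 12 0 = 11 := by decide +kernel
    constructor
    · rintro (⟨t, ht, r, hr, rfl⟩ | ⟨t, r, hr, rfl⟩) <;> simp only [List.mem_cons, List.not_mem_nil, or_false] at hr <;>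
        rcases hr with rfl | rfl
      · exact ⟨1, _, ⟨t, ht, rfl⟩, .inl rfl⟩
      · exact ⟨1, _, ⟨-t, by rw [hn, ht], rfl⟩, .inr (by simp [negWord, -Array.getD_eq_getD_getElem?, e, d4m2])⟩
      · exact ⟨0, _, ⟨t, rfl⟩, .inl rfl⟩
      · exact ⟨0, _, ⟨-t, rfl⟩, .inr (by simp [negWord, -Array.getD_eq_getD_getElem?, e, d4m1, d4m3, d4m4, hn, hn'])⟩
    · rintro ⟨k, w', hw, h⟩
      fin_cases k
      · obtain ⟨t, rfl⟩ := hw
        rcases h with rfl | rfl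
        · exact .inr ⟨t, (d4p1, d4p3, d4p4), by simp, rfl⟩
        · exact .inr ⟨-t, (d4m1, d4m3, d4m4), by simp,
            by simp [negWord, -Array.getD_eq_getD_getElem?, e, d4m1, d4m3, d4m4, hn, hn']⟩
      · obtain ⟨t, ht, rfl⟩ := hw
        rcases h with rfl | rfl
        · exact .inl ⟨t, ht, d4p2, by simp, rfl⟩
        · exact .inl ⟨-t, by rw [hn, ht], d4m2, by simp, by simp [negWord, -Array.getD_eq_getD_getElem?, e, d4m2]⟩
  ne k := by
    fin_cases k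
    · exact ⟨_, ⟨1, rfl⟩, by simp⟩
    · exact ⟨_, ⟨1, one_pow _, rfl⟩, by simp⟩

/-- the twisted group. -/
noncomputable def twD4 : Twist (sys chevD4 K) (Fin 2) := (wordsD4 hσ h3).tw (hFD4 σ)

theorem twD4_G1 : (twD4 hσ h3).G1 = twistedD4 K q := rfl

theorem coreD4 : (((sys chevD4 K).Bo ⊓ twistedD4 K q).subgroupOf (twistedD4 K q)).normalCore = ⊥ := by
  refine (wordsD4 hσ h3).core (hFD4 σ) fun j => ?_
  fin_cases j
  · exact ⟨0, _, ⟨1, rfl⟩, 1, one_ne_zero, by simp; decide +kernel⟩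
  · exact ⟨1, _, ⟨1, one_pow _, rfl⟩, 1, one_ne_zero, by simp; decide +kernel⟩
  · exact ⟨0, _, ⟨1, rfl⟩, 1, one_ne_zero, by simp; decide +kernel⟩
  · exact ⟨0, _, ⟨1, rfl⟩, 1, one_ne_zero, by simp; decide +kernel⟩

omit h3 in
theorem psiD4 (i : Nd chevD4) (c : Kˣ) : (tdD4 σ).ψ i c = c ^ q := by
  have : ∀ i : Nd chevD4, triD4.e (chevD4.simple i) = 1 := by decide +kernel
  ext
  rw [TwData.ψ_val]
  simp [tdD4, this, hσ]

theorem unit_qqD4 (c : Kˣ) : ((c ^ q) ^ q) ^ q = c := by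
  ext; simp [← hσ, h3]

omit h3 in
theorem tauD4 {c : Fin 4 → Kˣ} : (tdD4 σ).τ c = c ↔
    c 2 = c 0 ^ q ∧ c 1 = c 1 ^ q ∧ c 3 = c 2 ^ q ∧ c 0 = c 3 ^ q := by
  refine (tdD4 σ).τ_eq_iff.trans ?_
  simp only [psiD4 hσ]
  exact Fin.forall_fin_succ.trans (and_congr_right fun _ => Fin.forall_fin_succ.trans (and_congr_right fun _ =>
    Fin.forall_fin_two))

theorem hT_memD4 (c : Nd chevD4 → Kˣ) (hc : (tdD4 σ).τ c = c) : hT chevD4 c ∈ twistedD4 K q := by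
  have h1 := (tdD4 σ).τ_eq_iff.1 hc
  refine TwData.hT_mem_of_classes foD4 (by decide +kernel) c fun k => ?_
  have h5 : ∀ a : Nd chevD4, rhoD4 a = a → ([a].map fun i => hG (sim i) (c i)).prod ∈ twistedD4 K q := fun a ha => by
    rw [List.map_singleton, List.prod_singleton]
    exact (tdD4 σ).hG_mem_one (twD4 hσ h3) rfl ha ((h1 _).symm.trans (congrArg c ha))
  have h6 : ∀ a b d : Nd chevD4, rhoD4 a = b → rhoD4 b = d → rhoD4 d = a → Orth chevD4 a b → Orth chevD4 a d →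
      Orth chevD4 b d → ([a, b, d].map fun i => hG (sim i) (c i)).prod ∈ twistedD4 K q :=
    fun a b d ha hb hd ho ho' ho'' => by
    have := (tdD4 σ).hG_mem_three (twD4 hσ h3) rfl ha hb hd ho ho' ho''
      (fun x => by rw [psiD4 hσ, psiD4 hσ, psiD4 hσ, unit_qqD4 hσ h3]) (c a)
    rw [← h1, show (tdD4 σ).ρ a = b from ha, ← h1, show (tdD4 σ).ρ b = d from hb] at this
    simpa [twD4_G1, mul_assoc] using this
  fin_cases k
  · exact h6 ⟨0, by decide⟩ ⟨2, by decide⟩ ⟨3, by decide⟩ rfl rfl rfl (by decide +kernel) (by decide +kernel)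
      (by decide +kernel)
  · exact h5 _ rfl

theorem card_fixD4 [Fintype K] (hq : 0 < q) (hK : Fintype.card K = q ^ 3) :
    Nat.card {c // (tdD4 σ).τ c = c} = (q - 1) ^ 2 * (q ^ 2 + q + 1) := by
  let e : {c : Fin 4 → Kˣ // (tdD4 σ).τ c = c} ≃ {c : Kˣ // c ^ q = c} × Kˣ :=
    { toFun := fun c => (⟨c.1 1, ((tauD4 hσ).1 c.2).2.1.symm⟩, c.1 0)
      invFun := fun p => ⟨![p.2, p.1, p.2 ^ q, (p.2 ^ q) ^ q], (tauD4 hσ).2
        ⟨rfl, p.1.2.symm, rfl, (unit_qqD4 hσ h3 _).symm⟩⟩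
      left_inv := fun c => by
        obtain ⟨h0, -, h1, -⟩ := (tauD4 hσ).1 c.2
        ext1; ext1 i
        fin_cases i <;> simp [h0, h1]
      right_inv := fun p => rfl }
  refine (Nat.card_congr e).trans ?_
  rw [Nat.card_prod, card_units_fixed hq hK, Nat.card_units, Nat.card_eq_fintype_card, hK]
  zify [hq, Nat.one_le_pow 3 q hq]
  ring

omit hσ h3 in
theorem kerD4 {c : Fin 4 → Kˣ} (h : hT chevD4 c = 1) :
    c 0 ^ 2 = 1 ∧ c 2 ^ 2 = 1 ∧ c 1 = 1 ∧ c 3 = c 0 * c 2 := by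
  obtain ⟨h1, h2⟩ := (certD4.iff_mul c).1 (hT_eq_one_iff.1 h)
  have h4 := h2 (1 : Fin 4)
  have h5 := h2 (3 : Fin 4)
  rw [Fin.prod_univ_two] at h4 h5
  exact ⟨h1 0, h1 1, by simpa [lmat] using h4, h5.trans (by simp [lmat]; rfl)⟩

theorem card_kerD4 : Nat.card {c // (tdD4 σ).τ c = c ∧ hT chevD4 c = 1} = 1 := by
  refine Nat.card_eq_one_iff_exists.2 ⟨⟨1, map_one _, map_one _⟩, fun c => Subtype.ext ?_⟩
  obtain ⟨c, h1, h2⟩ := c
  obtain ⟨h4, h5, h6, h7⟩ := kerD4 h2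
  obtain ⟨e1, -, e2, -⟩ := (tauD4 hσ).1 h1
  have key : ∀ z : Kˣ, z ^ 2 = 1 → z ^ q = z := fun z hz => by
    ext
    rw [Units.val_pow_eq_pow_val, ← hσ]
    have : (z : K) ^ 2 = 1 := congrArg Units.val hz
    rcases sq_eq_one_iff.1 this with h | h <;> simp [h]
  rw [key _ h4] at e1
  rw [key _ h5, h7] at e2
  have e3 := mul_eq_right.1 e2
  funext (i : Fin 4)
  fin_cases i
  exacts [e3, h6, e1.trans e3, h7.trans (by simp [e1, e3]; rfl)]

theorem cardH_D4 [Fintype K] (hq : 0 < q) (hK : Fintype.card K = q ^ 3) :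
    Nat.card ↥(chevD4.diagonalSubgroup K ⊓ twistedD4 K q) = (q - 1) ^ 2 * (q ^ 2 + q + 1) := by
  rw [← card_fixD4 hσ h3 hq hK, ← one_mul (Nat.card _), ← card_kerD4 hσ h3]
  refine (tdD4 σ).card_H1 (twD4 hσ h3).G1_le (hT_memD4 hσ h3) ((tdD4 σ).lift_three (fun c => ?_) fun c hc => ?_)
  · funext i
    have : ∀ i, rhoD4 (rhoD4 (rhoD4 i)) = i := by decide
    calc _ = (tdD4 σ).τ ((tdD4 σ).τ ((tdD4 σ).τ c)) ((tdD4 σ).ρ ((tdD4 σ).ρ ((tdD4 σ).ρ i))) := congrArg _ (this i).symm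
      _ = c i := by rw [TwData.τ_apply, TwData.τ_apply, TwData.τ_apply, psiD4 hσ, psiD4 hσ, psiD4 hσ, unit_qqD4 hσ h3]
  · obtain ⟨h4, h5, h6, h7⟩ := kerD4 hc
    funext (i : Fin 4)
    fin_cases i
    exacts [h4, (congrArg (· ^ 2) h6).trans (one_pow 2), h5,
      (congrArg (· ^ 2) h7).trans ((mul_pow _ _ 2).trans (by rw [h4, h5, one_mul]; rfl))]

theorem card_classD4 [Fintype K] (hq : 0 < q) (hK : Fintype.card K = q ^ 3) (k : Fin 2) :
    Nat.card ↥((twD4 hσ h3).Fx ⊓ (sys chevD4 K).Um ((twD4 hσ h3).F.g k)) = q ^ expD4 k := by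
  have h1 := card_fixed hq hK
  have h4 : Nat.card K = q ^ 3 := Nat.card_eq_fintype_card.trans hK
  fin_cases k
  · exact ((wordsD4 hσ h3).card_class 0 (fun t : K => [(18, t), (13, t ^ q), (12, t ^ q ^ 2)]) (by simp [PD4])
      (fun a b h => by simp at h; exact h.1) (by simp)).trans h4
  · exact ((wordsD4 hσ h3).card_class 1 (fun t : {t : K // t ^ q = t} => [(14, t.1)]) (by simp [PD4])
      (fun a b h => by simpa [Subtype.ext_iff] using h) (by simp)).trans (by simpa [expD4] using h1)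

theorem cardU_D4 [Fintype K] (hq : 0 < q) (hK : Fintype.card K = q ^ 3) :
    Nat.card ↥(chevD4.posUnipotent K ⊓ twistedD4 K q) = q ^ 12 := by
  rw [← sys_U]
  exact (twD4 hσ h3).card_U1 (faithful _ _) (card_classD4 hσ h3 hq hK) len_foldD4 one_pos
    fun w hw => (len_longest hw).trans (by decide)

theorem cardG_D4 [Fintype K] (hq : 0 < q) (hK : Fintype.card K = q ^ 3) :
    Nat.card ↥(twistedD4 K q) = q ^ 12 * (q ^ 2 - 1) * (q ^ 6 - 1) * (q ^ 8 + q ^ 4 + 1) := by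
  have h1 : Nat.card (twistedD4 K q) = Nat.card ↥((sys chevD4 K).U ⊓ twistedD4 K q) *
      Nat.card ↥(chevD4.diagonalSubgroup K ⊓ twistedD4 K q) * chainPoly q tchainD4 :=
    (twD4 hσ h3).card_G1_chain (faithful _ _) cartanD4 (card_classD4 hσ h3 hq hK) chk_tchainD4 all_tchainD4
  have h4 := tpolyD4 q
  rw [← chainPoly_cast] at h4
  rw [h1, sys_U, cardU_D4 hσ h3 hq hK, cardH_D4 hσ h3 hq hK]
  zify [hq, Nat.one_le_pow 2 q hq, Nat.one_le_pow 6 q hq]
  linear_combination (q : ℤ) ^ 12 * h4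

theorem perfectD4 [Fintype K] (hq : 1 < q) (hK : Fintype.card K = q ^ 3) : commutator (twistedD4 K q) = ⊤ := by
  have h14 : ∀ t : K, t ^ q = t → xN chevD4 14 t ∈ twistedD4 K q := fun t ht => by
    have : wordG chevD4 [(14, t)] ∈ twistedD4 K q :=
      wordG_mem_gen (((wordsD4 hσ h3).gen _).2 ⟨1, _, ⟨t, ht, rfl⟩, .inl rfl⟩)
    simpa using this
  have h22 : xN chevD4 22 1 ∈ twistedD4 K q := by
    have e : triD4.ι 22 = 22 ∧ triD4.γ 22 = 1 := by decide +kernel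
    have := ((tdD4 σ).mem_G1_of_U (twD4 hσ h3) rfl (u := wordG chevD4 [(22, 1)])
      (((tdD4 σ).wordG_mem_Fx (by simp; decide)).2 (by simp [tdD4, e])) (wordG_mem_U (by simp; decide +kernel))).1
    simpa [twD4_G1] using this
  obtain ⟨a, ha⟩ := exists_unit_pow_ne_one (K := K) two_pos (by rw [hK]; nlinarith [Nat.one_lt_pow two_ne_zero hq])
  have ha1 : (a : K) ^ 2 ≠ 1 := fun h => ha (Units.ext h)
  have ha2 : ∀ a : K, a ^ 2 ≠ 1 → (a ^ q) ^ 2 ≠ 1 := fun a ha h => ha (σ.injective (by rw [map_pow, hσ, h, map_one]))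
  refine (twD4 hσ h3).perfect (faithful _ _) ((wordsD4 hσ h3).tw_gen _) fun k => ?_
  fin_cases k
  · intro x hx hx'
    have key : ∀ i j l : Nd chevD4, rhoD4 i = j ∧ rhoD4 j = l ∧ rhoD4 l = i → (∀ r ∈ LD4 0,
        chevD4.cartan i r = 2 ∧ chevD4.cartan j r = 0 ∧ chevD4.cartan l r = 0 ∨
        chevD4.cartan i r = 0 ∧ chevD4.cartan j r = 2 ∧ chevD4.cartan l r = 0 ∨
        chevD4.cartan i r = 0 ∧ chevD4.cartan j r = 0 ∧ chevD4.cartan l r = 2) → x ∈ der (twD4 hσ h3).G1 := by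
      rintro i j l ⟨e1, e2, e3⟩ h4
      refine class_le_der_of_chi _ 0 (classD4 0) (hT_memD4 hσ h3
        (Pi.mulSingle i a * Pi.mulSingle j (a ^ q) * Pi.mulSingle l ((a ^ q) ^ q)) ?_) (fun r hr => ?_) hx hx'
      · rw [map_mul, map_mul, TwData.τ_mulSingle, TwData.τ_mulSingle, TwData.τ_mulSingle, psiD4 hσ, psiD4 hσ, psiD4 hσ,
          unit_qqD4 hσ h3, show (tdD4 σ).ρ i = j from e1, show (tdD4 σ).ρ j = l from e2, show (tdD4 σ).ρ l = i from e3,
          mul_comm, mul_assoc]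
      · rw [chi_mul, chi_mul, chi_mulSingle, chi_mulSingle, chi_mulSingle]
        rcases h4 r hr with h5 | h5 | h5 <;> simp [h5, zpow_ofNat, ha1, ha2 _ ha1, ha2 _ (ha2 _ ha1), -sq_eq_one_iff]
    exact key ⟨0, by decide⟩ ⟨2, by decide⟩ ⟨3, by decide⟩ ⟨rfl, rfl, rfl⟩ (by decide +kernel)
  · intro x hx hx'
    obtain ⟨_, ⟨t, ht, rfl⟩, rfl⟩ := ((wordsD4 hσ h3).cls 1 x).1 ⟨hx, hx'⟩
    have h23 := xN_mem_der_of_comm (k := 23) (by decide +kernel) (h14 t ht) h22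
    have h22' := xN_mem_der_of_refl (l := 22)
      ((tdD4 σ).nG_mem_one (twD4 hσ h3) rfl (a := ⟨1, by decide⟩) rfl (map_one _)) (by decide +kernel) h23
    have hn := (tdD4 σ).nG_mem_three (twD4 hσ h3) rfl (a := ⟨0, by decide⟩) (b := ⟨2, by decide⟩) (c := ⟨3, by decide⟩)
      rfl rfl rfl (by decide +kernel) (by decide +kernel) (by decide +kernel)
      (fun x => by rw [psiD4 hσ, psiD4 hσ, psiD4 hσ, unit_qqD4 hσ h3]) 1
    rw [map_one, map_one] at hn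
    simpa using xN_mem_der_of_refl3 (l := 14) hn (by decide +kernel) h22'

theorem simpleD4 [Fintype K] (hq : 1 < q) (hK : Fintype.card K = q ^ 3) :
    IsSimpleGroup (twistedD4 K q) ∧ ¬ IsMulCommutative (twistedD4 K q) :=
  (twD4 hσ h3).isSimpleGroup (faithful _ _) (conn_of_tree _ 0 (fun k => k.1) conn_foldD4) (coreD4 hσ h3)
    isSolvable_sys_Bo (perfectD4 hσ h3 hq hK)

end

theorem exists_frobD4 [Fintype K] {q : ℕ} (hq : IsPrimePow q) (hK : Fintype.card K = q ^ 3) :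
    ∃ σ : K ≃+* K, (∀ t, σ t = t ^ q) ∧ ∀ t, σ (σ (σ t)) = t := by
  obtain ⟨σ, hσ⟩ := exists_frob_primePow hq hK
  exact ⟨σ, hσ, fun t => by rw [hσ, hσ, hσ, ← pow_mul, ← pow_mul, ← pow_three, ← hK, FiniteField.pow_card]⟩

end CA.ChevSys

theorem CA.realizeEqns_TwD4 : True := by
  have := @CA.ChevSys.PD4.eq_1.{0}
  have := @CA.ChevSys.PD4.eq_2.{0}
  have := @CA.ChevSys.PD4.eq_def.{0}
  have := @CA.ChevSys.PD4.congr_simp.{0}
  have := @CA.ChevSys.twD4.eq_1.{0}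
  have := @CA.ChevSys.twD4.eq_def.{0}
  have := @CA.ChevSys.twD4.congr_simp.{0}
  have := @CA.ChevSys.foD4.eq_1
  have := @CA.ChevSys.foD4.eq_def
  have := @CA.ChevSys.foD4.congr_simp
  have := @CA.ChevSys.tdD4.eq_1.{0}
  have := @CA.ChevSys.tdD4.eq_def.{0}
  have := @CA.ChevSys.tdD4.congr_simp.{0}
  have := @CA.ChevSys.LD4.eq_1
  have := @CA.ChevSys.LD4.eq_def
  have := @CA.ChevSys.LD4.congr_simp
  trivial
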