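/-
The twisted group of type E6.
-/
import Cfsg.Agent.Chev.TwWord

set_option autoImplicit false
set_option linter.unusedSectionVars false
set_option linter.unusedSimpArgs false
set_option linter.unusedVariables false

namespace CA.ChevSys

open Cfsg.Lie Cfsg.Lie.ChevalleyDatum CA.Chev CA.Weyl CA.RGD Matrix

variable {K : Type*} [Field K]

/-- the graph-field automorphism. -/
noncomputable def tdE6 (σ : K ≃+* K) : TwData chevE6 K where
  p := 0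
  φ := grE6
  hp := Nat.cast_zero
  σ := σ
  β := (grE6.exists_aut coxE6 Nat.cast_zero grE6_bij σ).choose_spec.choose
  hβ := (grE6.exists_aut coxE6 Nat.cast_zero grE6_bij σ).choose_spec.choose_spec.2.1
  ρ := rhoE6
  hρ := rhoE6_M
  hι := by decide +kernel

/-- the words of the classes. -/
def PE6 (K : Type*) [Field K] (q : ℕ) : Fin 4 → List (ℕ × K) → Prop
  | 0, w => ∃ t, t ^ q = t ∧ w = [(46, t)]
  | 1, w => ∃ t, t ^ q = t ∧ w = [(39, t)]
  | 2, w => ∃ t, w = [(42, t), (37, t ^ q)]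
  | 3, w => ∃ t, w = [(56, t), (36, t ^ q)]

/-- the roots of the classes. -/
def LE6 : Fin 4 → List ℕ := ![[46], [39], [42, 37], [56, 36]]

/-- the folding. -/
def foE6 : Fold (rs chevE6).M (Fin 4) := foldE6

theorem classE6 : ∀ k, ClassOK chevE6 (foE6.J k) (LE6 k) := by decide +kernel

theorem hFE6 (σ : K ≃+* K) : ∀ w, permW (tdE6 σ).hρ w = w → w ∈ foE6.W1 := fun _ h => h

theorem eE6 : ∀ r, r < 72 → grE6.e r = 1 := by decide +kernel

section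
variable {σ : K ≃+* K} {q : ℕ} (hσ : ∀ t, σ t = t ^ q) (h2 : ∀ t, σ (σ t) = t)
include hσ h2

theorem wordsE6 : (tdE6 σ).WordsOK foE6 (e6Words K q) (PE6 K q) where
  cls k x := by
    fin_cases k
    · refine ((tdE6 σ).mem_class_one foE6 (classE6 0)
        (show grE6.ι 46 = 46 ∧ grE6.γ 46 = 1 ∧ grE6.e 46 = 1 by decide +kernel)).trans ?_
      simp [PE6, tdE6, hσ]
    · refine ((tdE6 σ).mem_class_one foE6 (classE6 1)
        (show grE6.ι 39 = 39 ∧ grE6.γ 39 = 1 ∧ grE6.e 39 = 1 by decide +kernel)).trans ?_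
      simp [PE6, tdE6, hσ]
    · refine ((tdE6 σ).mem_class_two foE6 (classE6 2)
        (show grE6.ι 42 = 37 ∧ grE6.ι 37 = 42 ∧ grE6.γ 42 = 1 ∧ grE6.γ 37 = 1 by decide +kernel)
        (xN_commute Nat.cast_zero (by decide +kernel)) (by simp [tdE6, eE6, h2])).trans ?_
      simp [PE6, tdE6, hσ, eE6]
    · refine ((tdE6 σ).mem_class_two foE6 (classE6 3)
        (show grE6.ι 56 = 36 ∧ grE6.ι 36 = 56 ∧ grE6.γ 56 = 1 ∧ grE6.γ 36 = 1 by decide +kernel)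
        (xN_commute Nat.cast_zero (by decide +kernel)) (by simp [tdE6, eE6, h2])).trans ?_
      simp [PE6, tdE6, hσ, eE6]
  pos k w hw := by
    fin_cases k
    · obtain ⟨t, -, rfl⟩ := hw
      exact ⟨(classE6 0).1, (classE6 0).2.1⟩
    · obtain ⟨t, -, rfl⟩ := hw
      exact ⟨(classE6 1).1, (classE6 1).2.1⟩
    · obtain ⟨t, rfl⟩ := hw
      exact ⟨(classE6 2).1, (classE6 2).2.1⟩
    · obtain ⟨t, rfl⟩ := hw
      exact ⟨(classE6 3).1, (classE6 3).2.1⟩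
  gen w := by
    have hn : ∀ t : K, (-t) ^ q = - t ^ q := fun t => by rw [← hσ, ← hσ, map_neg]
    have e : chevE6.negIdx.getD 46 0 = 25 ∧ chevE6.negIdx.getD 39 0 = 32 ∧ chevE6.negIdx.getD 42 0 = 29 ∧
      chevE6.negIdx.getD 37 0 = 34 ∧ chevE6.negIdx.getD 56 0 = 15 ∧ chevE6.negIdx.getD 36 0 = 35 := by decide +kernel
    constructor
    · rintro (⟨t, ht, r, hr, rfl⟩ | ⟨t, r, hr, rfl⟩) <;> simp only [List.mem_cons, List.not_mem_nil, or_false] at hr <;>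
        rcases hr with rfl | rfl | rfl | rfl
      · exact ⟨0, _, ⟨t, ht, rfl⟩, .inl rfl⟩
      · exact ⟨0, _, ⟨-t, by rw [hn, ht], rfl⟩, .inr (by simp [negWord, -Array.getD_eq_getD_getElem?, e, e6m2])⟩
      · exact ⟨1, _, ⟨t, ht, rfl⟩, .inl rfl⟩
      · exact ⟨1, _, ⟨-t, by rw [hn, ht], rfl⟩, .inr (by simp [negWord, -Array.getD_eq_getD_getElem?, e, e6m4])⟩
      · exact ⟨3, _, ⟨t, rfl⟩, .inl rfl⟩
      · exact ⟨3, _, ⟨-t, rfl⟩, .inr (by simp [negWord, -Array.getD_eq_getD_getElem?, e, e6m1, e6m6, hn])⟩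
      · exact ⟨2, _, ⟨t, rfl⟩, .inl rfl⟩
      · exact ⟨2, _, ⟨-t, rfl⟩, .inr (by simp [negWord, -Array.getD_eq_getD_getElem?, e, e6m3, e6m5, hn])⟩
    · rintro ⟨k, w', hw, h⟩
      fin_cases k
      · obtain ⟨t, ht, rfl⟩ := hw
        rcases h with rfl | rfl
        · exact .inl ⟨t, ht, e6p2, by simp, rfl⟩
        · exact .inl ⟨-t, by rw [hn, ht], e6m2, by simp, by simp [negWord, -Array.getD_eq_getD_getElem?, e, e6m2]⟩
      · obtain ⟨t, ht, rfl⟩ := hw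
        rcases h with rfl | rfl
        · exact .inl ⟨t, ht, e6p4, by simp, rfl⟩
        · exact .inl ⟨-t, by rw [hn, ht], e6m4, by simp, by simp [negWord, -Array.getD_eq_getD_getElem?, e, e6m4]⟩
      · obtain ⟨t, rfl⟩ := hw
        rcases h with rfl | rfl
        · exact .inr ⟨t, (e6p3, e6p5), by simp, rfl⟩
        · exact .inr ⟨-t, (e6m3, e6m5), by simp, by simp [negWord, -Array.getD_eq_getD_getElem?, e, e6m3, e6m5, hn]⟩
      · obtain ⟨t, rfl⟩ := hw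
        rcases h with rfl | rfl
        · exact .inr ⟨t, (e6p1, e6p6), by simp, rfl⟩
        · exact .inr ⟨-t, (e6m1, e6m6), by simp, by simp [negWord, -Array.getD_eq_getD_getElem?, e, e6m1, e6m6, hn]⟩
  ne k := by
    fin_cases k
    · exact ⟨_, ⟨1, one_pow _, rfl⟩, by simp⟩
    · exact ⟨_, ⟨1, one_pow _, rfl⟩, by simp⟩
    · exact ⟨_, ⟨1, rfl⟩, by simp⟩
    · exact ⟨_, ⟨1, rfl⟩, by simp⟩

/-- the twisted group. -/
noncomputable def twE6 : Twist (sys chevE6 K) (Fin 4) := (wordsE6 hσ h2).tw (hFE6 σ)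

theorem twE6_G1 : (twE6 hσ h2).G1 = twistedE6 K q := rfl

theorem coreE6 : (((sys chevE6 K).Bo ⊓ twistedE6 K q).subgroupOf (twistedE6 K q)).normalCore = ⊥ := by
  refine (wordsE6 hσ h2).core (hFE6 σ) fun j => ?_
  fin_cases j
  · exact ⟨3, _, ⟨1, rfl⟩, 1, one_ne_zero, by simp; decide +kernel⟩
  · exact ⟨0, _, ⟨1, one_pow _, rfl⟩, 1, one_ne_zero, by simp; decide +kernel⟩
  · exact ⟨2, _, ⟨1, rfl⟩, 1, one_ne_zero, by simp; decide +kernel⟩
  · exact ⟨1, _, ⟨1, one_pow _, rfl⟩, 1, one_ne_zero, by simp; decide +kernel⟩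
  · exact ⟨2, _, ⟨1, rfl⟩, 1, one_ne_zero, by simp; decide +kernel⟩
  · exact ⟨3, _, ⟨1, rfl⟩, 1, one_ne_zero, by simp; decide +kernel⟩

omit h2 in
theorem psiE6 (i : Nd chevE6) (c : Kˣ) : (tdE6 σ).ψ i c = c ^ q := by
  have : ∀ i : Nd chevE6, grE6.e (chevE6.simple i) = 1 := by decide +kernel
  ext
  rw [TwData.ψ_val]
  simp [tdE6, this, hσ]

theorem unit_qqE6 (c : Kˣ) : (c ^ q) ^ q = c := by
  ext; simp [← hσ, h2]

omit h2 in
theorem tauE6 {c : Fin 6 → Kˣ} : (tdE6 σ).τ c = c ↔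
    c 5 = c 0 ^ q ∧ c 1 = c 1 ^ q ∧ c 4 = c 2 ^ q ∧ c 3 = c 3 ^ q ∧ c 2 = c 4 ^ q ∧ c 0 = c 5 ^ q := by
  refine (tdE6 σ).τ_eq_iff.trans ?_
  simp only [psiE6 hσ]
  exact Fin.forall_fin_succ.trans (and_congr_right fun _ => Fin.forall_fin_succ.trans (and_congr_right fun _ =>
    Fin.forall_fin_succ.trans (and_congr_right fun _ => Fin.forall_fin_succ.trans (and_congr_right fun _ =>
    Fin.forall_fin_two))))

theorem hT_memE6 (c : Nd chevE6 → Kˣ) (hc : (tdE6 σ).τ c = c) : hT chevE6 c ∈ twistedE6 K q := by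
  have h3 := (tdE6 σ).τ_eq_iff.1 hc
  have h4 : ∀ a b c, (tdE6 σ).ψ b ((tdE6 σ).ψ a c) = c := fun a b c => by
    rw [psiE6 hσ, psiE6 hσ, unit_qqE6 hσ h2]
  refine TwData.hT_mem_of_classes foE6 (by decide +kernel) c fun k => ?_
  have h5 : ∀ a : Nd chevE6, rhoE6 a = a → ([a].map fun i => hG (sim i) (c i)).prod ∈ twistedE6 K q := fun a ha => by
    rw [List.map_singleton, List.prod_singleton]
    exact (tdE6 σ).hG_mem_one (twE6 hσ h2) rfl ha ((h3 _).symm.trans (congrArg c ha))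
  have h6 : ∀ a b : Nd chevE6, rhoE6 a = b → rhoE6 b = a → Orth chevE6 a b →
      ([a, b].map fun i => hG (sim i) (c i)).prod ∈ twistedE6 K q := fun a b ha hb ho => by
    have := (tdE6 σ).hG_mem_two (twE6 hσ h2) rfl ha hb ho (h4 _ _) (c a)
    rw [← h3, show (tdE6 σ).ρ a = b from ha] at this
    simpa [twE6_G1] using this
  fin_cases k
  · exact h5 _ rfl
  · exact h5 _ rfl
  · exact h6 ⟨2, by decide⟩ ⟨4, by decide⟩ rfl rfl (by decide +kernel)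
  · exact h6 ⟨0, by decide⟩ ⟨5, by decide⟩ rfl rfl (by decide +kernel)

theorem card_fixE6 [Fintype K] (hq : 0 < q) (hK : Fintype.card K = q ^ 2) :
    Nat.card {c // (tdE6 σ).τ c = c} = (q - 1) ^ 4 * (q + 1) ^ 2 := by
  let e : {c : Fin 6 → Kˣ // (tdE6 σ).τ c = c} ≃ ({c : Kˣ // c ^ q = c} × {c : Kˣ // c ^ q = c}) × Kˣ × Kˣ :=
    { toFun := fun c => ((⟨c.1 1, ((tauE6 hσ).1 c.2).2.1.symm⟩, ⟨c.1 3, ((tauE6 hσ).1 c.2).2.2.2.1.symm⟩), c.1 0, c.1 2)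
      invFun := fun p => ⟨![p.2.1, p.1.1, p.2.2, p.1.2, p.2.2 ^ q, p.2.1 ^ q], (tauE6 hσ).2
        ⟨rfl, p.1.1.2.symm, rfl, p.1.2.2.symm, (unit_qqE6 hσ h2 _).symm, (unit_qqE6 hσ h2 _).symm⟩⟩
      left_inv := fun c => by
        obtain ⟨h0, -, h1, -⟩ := (tauE6 hσ).1 c.2
        ext1; ext1 i
        fin_cases i <;> simp [h0, h1]
      right_inv := fun p => rfl }
  refine (Nat.card_congr e).trans ?_
  rw [Nat.card_prod, Nat.card_prod, Nat.card_prod, card_units_fixed hq hK, Nat.card_units, Nat.card_eq_fintype_card, hK]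
  zify [hq, Nat.one_le_pow 2 q hq]
  ring

omit hσ h2 in
theorem kerE6 {c : Fin 6 → Kˣ} : hT chevE6 c = 1 ↔
    c 0 ^ 3 = 1 ∧ c = ![c 0, 1, c 0 ^ 2, 1, c 0, c 0 ^ 2] := by
  refine hT_eq_one_iff.trans ((certE6.iff_mul c).trans ?_)
  refine and_congr Fin.forall_fin_one (Iff.trans ?_ funext_iff.symm)
  refine forall_congr' fun i : Fin 6 => ?_
  rw [Fin.prod_univ_one]
  fin_cases i <;> simp [lmat, zpow_ofNat] <;> rfl

theorem card_kerE6 [Fintype K] (hq : 0 < q) (hK : Fintype.card K = q ^ 2) :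
    Nat.card {c // (tdE6 σ).τ c = c ∧ hT chevE6 c = 1} = Nat.gcd 3 (q + 1) := by
  let e : {c : Fin 6 → Kˣ // (tdE6 σ).τ c = c ∧ hT chevE6 c = 1} ≃ {z : Kˣ // z ^ Nat.gcd 3 (q + 1) = 1} :=
    { toFun := fun c => ⟨c.1 0, by
        obtain ⟨h3, h4⟩ := kerE6.1 c.2.2
        have h5 := ((tauE6 hσ).1 c.2.1).1
        rw [show c.1 5 = c.1 0 ^ 2 from congrFun h4 5] at h5
        rw [pow_gcd_eq_one, pow_succ _ q, ← h5, ← pow_succ]
        exact ⟨h3, h3⟩⟩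
      invFun := fun z => ⟨![z.1, 1, z.1 ^ 2, 1, z.1, z.1 ^ 2], by
        obtain ⟨h3, h4⟩ := pow_gcd_eq_one.1 z.2
        have h5 : z.1 ^ q = z.1 ^ 2 := mul_right_cancel (b := z.1) (by rw [← pow_succ, ← pow_succ, h3, h4])
        have h6 : (z.1 ^ 2) ^ q = z.1 := by rw [← h5, unit_qqE6 hσ h2]
        exact ⟨(tauE6 hσ).2 ⟨h5.symm, (one_pow _).symm, h6.symm, (one_pow _).symm, h5.symm, h6.symm⟩,
          kerE6.2 ⟨h3, rfl⟩⟩⟩
      left_inv := fun c => Subtype.ext (kerE6.1 c.2.2).2.symm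
      right_inv := fun p => rfl }
  refine (Nat.card_congr e).trans ?_
  rw [card_units_pow_eq_one, hK]
  refine Nat.gcd_eq_right ((Nat.gcd_dvd_right _ _).trans ⟨q - 1, ?_⟩)
  zify [hq, Nat.one_le_pow 2 q hq]
  ring

theorem cardH_E6 [Fintype K] (hq : 0 < q) (hK : Fintype.card K = q ^ 2) :
    Nat.gcd 3 (q + 1) * Nat.card ↥(chevE6.diagonalSubgroup K ⊓ twistedE6 K q) = (q - 1) ^ 4 * (q + 1) ^ 2 := by
  rw [← card_kerE6 hσ h2 hq hK, ← card_fixE6 hσ h2 hq hK]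
  refine (tdE6 σ).card_H1 (twE6 hσ h2).G1_le (hT_memE6 hσ h2) ((tdE6 σ).lift_two (fun c => ?_) fun c hc => ?_)
  · funext i
    have : ∀ i, rhoE6 (rhoE6 i) = i := by decide
    calc (tdE6 σ).τ ((tdE6 σ).τ c) i = (tdE6 σ).τ ((tdE6 σ).τ c) ((tdE6 σ).ρ ((tdE6 σ).ρ i)) := congrArg _ (this i).symm
      _ = c i := by rw [TwData.τ_apply, TwData.τ_apply, psiE6 hσ, psiE6 hσ, unit_qqE6 hσ h2]
  · obtain ⟨h3, h4⟩ := kerE6.1 hc
    have h5 : ∀ c : Fin 6 → Kˣ, c 0 ^ 3 = 1 → ![c 0, 1, c 0 ^ 2, 1, c 0, c 0 ^ 2] ^ 3 = 1 := fun c h3 => by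
      funext i
      fin_cases i <;> simp [h3, pow_right_comm _ 2 3]
    exact h4 ▸ h5 c h3

theorem card_classE6 [Fintype K] (hq : 0 < q) (hK : Fintype.card K = q ^ 2) (k : Fin 4) :
    Nat.card ↥((twE6 hσ h2).Fx ⊓ (sys chevE6 K).Um ((twE6 hσ h2).F.g k)) = q ^ expE6 k := by
  have h3 := card_fixed hq hK
  have h4 : Nat.card K = q ^ 2 := Nat.card_eq_fintype_card.trans hK
  fin_cases k
  · exact ((wordsE6 hσ h2).card_class 0 (fun t : {t : K // t ^ q = t} => [(46, t.1)]) (by simp [PE6])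
      (fun a b h => by simpa [Subtype.ext_iff] using h) (by simp)).trans (by simpa [expE6] using h3)
  · exact ((wordsE6 hσ h2).card_class 1 (fun t : {t : K // t ^ q = t} => [(39, t.1)]) (by simp [PE6])
      (fun a b h => by simpa [Subtype.ext_iff] using h) (by simp)).trans (by simpa [expE6] using h3)
  · exact ((wordsE6 hσ h2).card_class 2 (fun t : K => [(42, t), (37, t ^ q)]) (by simp [PE6])
      (fun a b h => by simp at h; exact h.1) (by simp)).trans h4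
  · exact ((wordsE6 hσ h2).card_class 3 (fun t : K => [(56, t), (36, t ^ q)]) (by simp [PE6])
      (fun a b h => by simp at h; exact h.1) (by simp)).trans h4

theorem cardU_E6 [Fintype K] (hq : 0 < q) (hK : Fintype.card K = q ^ 2) :
    Nat.card ↥(chevE6.posUnipotent K ⊓ twistedE6 K q) = q ^ 36 := by
  rw [← sys_U]
  exact (twE6 hσ h2).card_U1 (faithful _ _) (card_classE6 hσ h2 hq hK) len_foldE6 one_pos
    fun w hw => (len_longest hw).trans (by decide)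

theorem cardG_E6 [Fintype K] (hq : 0 < q) (hK : Fintype.card K = q ^ 2) :
    Nat.gcd 3 (q + 1) * Nat.card ↥(twistedE6 K q) =
      q ^ 36 * (q ^ 2 - 1) * (q ^ 5 + 1) * (q ^ 6 - 1) * (q ^ 8 - 1) * (q ^ 9 + 1) * (q ^ 12 - 1) := by
  have h1 : Nat.card (twistedE6 K q) = Nat.card ↥((sys chevE6 K).U ⊓ twistedE6 K q) *
      Nat.card ↥(chevE6.diagonalSubgroup K ⊓ twistedE6 K q) * chainPoly q tchainE6 :=
    (twE6 hσ h2).card_G1_chain (faithful _ _) cartanE6 (card_classE6 hσ h2 hq hK) chk_tchainE6 all_tchainE6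
  have h3 := cardH_E6 hσ h2 hq hK
  have h4 := tpolyE6 q
  rw [← chainPoly_cast] at h4
  rw [h1, sys_U, cardU_E6 hσ h2 hq hK]
  zify [hq, Nat.one_le_pow 2 q hq, Nat.one_le_pow 6 q hq, Nat.one_le_pow 8 q hq, Nat.one_le_pow 12 q hq] at h3 ⊢
  linear_combination (q : ℤ) ^ 36 * h4 + (q : ℤ) ^ 36 * (chainPoly q tchainE6 : ℕ) * h3

theorem perfectE6 [Fintype K] (hq : 1 < q) (hK : Fintype.card K = q ^ 2) : commutator (twistedE6 K q) = ⊤ := by
  have h46 : ∀ t : K, t ^ q = t → xN chevE6 46 t ∈ twistedE6 K q := fun t ht => by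
    have : wordG chevE6 [(46, t)] ∈ twistedE6 K q :=
      wordG_mem_gen (((wordsE6 hσ h2).gen _).2 ⟨0, _, ⟨t, ht, rfl⟩, .inl rfl⟩)
    simpa using this
  have h39 : ∀ t : K, t ^ q = t → xN chevE6 39 t ∈ twistedE6 K q := fun t ht => by
    have : wordG chevE6 [(39, t)] ∈ twistedE6 K q :=
      wordG_mem_gen (((wordsE6 hσ h2).gen _).2 ⟨1, _, ⟨t, ht, rfl⟩, .inl rfl⟩)
    simpa using this
  have h47 : ∀ t : K, t ^ q = t → xN chevE6 47 t ∈ der (twistedE6 K q) := fun t ht => by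
    simpa using xN_mem_der_of_comm (k := 47) (by decide +kernel) (h46 t ht) (h39 1 (one_pow _))
  obtain ⟨a, ha⟩ := exists_unit_pow_ne_one (K := K) one_pos (by rw [hK]; nlinarith)
  have ha1 : (a : K) ≠ 1 := by simpa using ha
  have ha2 : (a : K) ^ q ≠ 1 := by rw [← hσ]; simpa using ha1
  have key : ∀ (k : Fin 4) (i j : Nd chevE6), rhoE6 i = j ∧ rhoE6 j = i → (∀ r ∈ LE6 k, chevE6.cartan i r = -1 ∧ chevE6.cartan j r = 0 ∨
        chevE6.cartan i r = 0 ∧ chevE6.cartan j r = -1) → ∀ x ∈ (twE6 hσ h2).Fx,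
      x ∈ (sys chevE6 K).Um ((twE6 hσ h2).F.g k) → x ∈ der (twE6 hσ h2).G1 := fun k i j h3 h4 x hx hx' => by
    refine class_le_der_of_chi _ k (classE6 k) (hT_memE6 hσ h2 _ ((tdE6 σ).τ_pair h3.1 h3.2 a (by
      rw [psiE6 hσ, psiE6 hσ, unit_qqE6 hσ h2]))) (fun r hr => ?_) hx hx'
    rw [psiE6 hσ]
    rw [chi_mul, chi_mulSingle, chi_mulSingle]
    rcases h4 r hr with h5 | h5 <;> simp [h5, ha1, ha2]
  refine (twE6 hσ h2).perfect (faithful _ _) ((wordsE6 hσ h2).tw_gen _) fun k => ?_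
  fin_cases k
  · intro x hx hx'
    obtain ⟨_, ⟨t, ht, rfl⟩, rfl⟩ := ((wordsE6 hσ h2).cls 0 x).1 ⟨hx, hx'⟩
    simpa [twE6_G1] using xN_mem_der_of_refl (l := 46)
      ((tdE6 σ).nG_mem_one (twE6 hσ h2) rfl (a := ⟨3, by decide⟩) rfl (map_one _)) (by decide +kernel) (h47 t ht)
  · intro x hx hx'
    obtain ⟨_, ⟨t, ht, rfl⟩, rfl⟩ := ((wordsE6 hσ h2).cls 1 x).1 ⟨hx, hx'⟩
    simpa [twE6_G1] using xN_mem_der_of_refl (l := 39)
      ((tdE6 σ).nG_mem_one (twE6 hσ h2) rfl (a := ⟨1, by decide⟩) rfl (map_one _)) (by decide +kernel) (h47 t ht)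
  · exact key 2 ⟨0, by decide⟩ ⟨5, by decide⟩ ⟨rfl, rfl⟩ (by decide +kernel)
  · exact key 3 ⟨2, by decide⟩ ⟨4, by decide⟩ ⟨rfl, rfl⟩ (by decide +kernel)

theorem simpleE6 [Fintype K] (hq : 1 < q) (hK : Fintype.card K = q ^ 2) :
    IsSimpleGroup (twistedE6 K q) ∧ ¬ IsMulCommutative (twistedE6 K q) :=
  (twE6 hσ h2).isSimpleGroup (faithful _ _) (conn_of_tree _ 0 (fun k => k.1) conn_foldE6) (coreE6 hσ h2)
    isSolvable_sys_Bo (perfectE6 hσ h2 hq hK)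

end

theorem exists_frobE6 [Fintype K] {q : ℕ} (hq : IsPrimePow q) (hK : Fintype.card K = q ^ 2) :
    ∃ σ : K ≃+* K, (∀ t, σ t = t ^ q) ∧ ∀ t, σ (σ t) = t := by
  obtain ⟨σ, hσ⟩ := exists_frob_primePow hq hK
  exact ⟨σ, hσ, fun t => by rw [hσ, hσ, ← pow_mul, ← sq, ← hK, FiniteField.pow_card]⟩

end CA.ChevSys

theorem CA.realizeEqns_TwE6 : True := by
  have := @CA.ChevSys.LE6.eq_1
  have := @CA.ChevSys.LE6.eq_def
  have := @CA.ChevSys.LE6.congr_simp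
  have := @CA.ChevSys.tdE6.eq_1.{0}
  have := @CA.ChevSys.tdE6.eq_def.{0}
  have := @CA.ChevSys.tdE6.congr_simp.{0}
  have := @CA.ChevSys.PE6.eq_1.{0}
  have := @CA.ChevSys.PE6.eq_2.{0}
  have := @CA.ChevSys.PE6.eq_3.{0}
  have := @CA.ChevSys.PE6.eq_4.{0}
  have := @CA.ChevSys.PE6.eq_def.{0}
  have := @CA.ChevSys.PE6.congr_simp.{0}
  have := @CA.ChevSys.foE6.eq_1
  have := @CA.ChevSys.foE6.eq_def
  have := @CA.ChevSys.foE6.congr_simp
  have := @CA.ChevSys.twE6.eq_1.{0}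
  have := @CA.ChevSys.twE6.eq_def.{0}
  have := @CA.ChevSys.twE6.congr_simp.{0}
  trivial
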