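/-
The twisted group of type G2.
-/
import Cfsg.Agent.Chev.TwF4

set_option autoImplicit false
set_option linter.unusedSectionVars false
set_option linter.unusedSimpArgs false
set_option linter.unusedVariables false

namespace CA.ChevSys

open Cfsg.Lie Cfsg.Lie.ChevalleyDatum CA.Chev CA.Weyl CA.RGD Matrix

section corner
variable {D : ChevalleyDatum} [RootGood D] [LieGood D] {F : Type*} [Field F]

/-- strictly upper unitriangular for the height. -/
def Up1 (g : Matrix D.Idx D.Idx F) : Prop := ∀ a b, wtI a ≤ wtI b → (g - 1) a b = 0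

theorem Up1.mul {g g' : Matrix D.Idx D.Idx F} (h : Up1 g) (h' : Up1 g') : Up1 (g * g') := by
  intro a b hab
  have : g * g' - 1 = (g - 1) * (g' - 1) + (g - 1) + (g' - 1) := by noncomm_ring
  rw [this, Matrix.add_apply, Matrix.add_apply, h a b hab, h' a b hab, add_zero, add_zero, Matrix.mul_apply]
  refine Finset.sum_eq_zero fun c _ => ?_
  by_cases hc : wtI a ≤ wtI c
  · rw [h a c hc, zero_mul]
  · rw [h' c b (by omega), mul_zero]

theorem up1_X {r : Rt D} (hr : IsPos r) (t : F) : Up1 (X r t) := by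
  intro a b hab
  have h0 := isPos_iff_ht.1 hr
  have h : ∀ k, 1 ≤ k → E F r k a b = 0 := fun k hk => by
    by_contra h; have := E_wt hk h; have : 0 < (k : ℤ) * ht (coef r) := by positivity
    linarith
  simp [X, h]

variable [W : WeylGood D]

theorem up1_of_mem_U {u : GL D.Idx F} (hu : u ∈ (sys D F).U) : Up1 (u : Matrix D.Idx D.Idx F) := by
  let Q : Subgroup (GL D.Idx F) :=
    { carrier := {g | Up1 (g : Matrix D.Idx D.Idx F) ∧ Up1 ((g⁻¹ : GL D.Idx F) : Matrix D.Idx D.Idx F)}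
      mul_mem' := fun ha hb => ⟨ha.1.mul hb.1, by rw [_root_.mul_inv_rev]; exact hb.2.mul ha.2⟩
      one_mem' := ⟨fun a b _ => by simp, fun a b _ => by simp⟩
      inv_mem' := fun ha => ⟨ha.2, ha.1⟩ }
  have : (sys D F).U ≤ Q := (sys D F).XS_le fun r hr x hx => by
    obtain ⟨t, rfl⟩ := mem_X.1 hx
    exact ⟨up1_X hr t, up1_X hr (-t)⟩
  exact (this hu).1

theorem corner_entry {u m x : GL D.Idx F} (hu : u ∈ (sys D F).U) (hx : x ∈ (sys D F).U) {a b : D.Idx}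
    (ha : ∀ c : D.Idx, wtI a ≤ wtI c) (hb : ∀ c : D.Idx, wtI c ≤ wtI b) : (u * m * x).1 a b = m.1 a b := by
  have h1 : ∀ c, u.1 a c = (1 : Matrix D.Idx D.Idx F) a c := fun c => sub_eq_zero.1 (up1_of_mem_U hu a c (ha c))
  have h2 : ∀ c, x.1 c b = (1 : Matrix D.Idx D.Idx F) c b := fun c => sub_eq_zero.1 (up1_of_mem_U hx c b (hb c))
  simp only [Units.val_mul, Matrix.mul_apply, h1, h2]
  simp [Matrix.one_apply]

omit W in
theorem hT_mul_entry (c : Nd D → Fˣ) (m : GL D.Idx F) (r : Rt D) (b : D.Idx) :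
    (hT D c * m).1 (Sum.inr r) b = chi D c r * m.1 (Sum.inr r) b := by
  rw [hT_apply, Units.val_mul, torU_val, tor, diagonal_mul, chi]
  simp only [Sum.elim_inr, prod_zch_apply, cartan_eq_cpair]

omit W in
theorem wordG_intCast (w : List (ℕ × ℤ)) (a b : D.Idx) :
    (wordG D (w.map fun p => (p.1, (p.2 : F)))).1 a b = ((wordG D w).1 a b : ℤ) := by
  have : (wordG D (w.map fun p => (p.1, (p.2 : F)))).1 = (wordG D w).1.map (Int.castRingHom F) := by
    induction w with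
    | nil => simp
    | cons p w ih => rw [List.map_cons, wordG_cons, wordG_cons, Units.val_mul, Units.val_mul, Matrix.map_mul, ih,
        xN_coe, xN_coe, XN_map]; rfl
  rw [this]; rfl

end corner

variable {K : Type*} [Field K] [CharP K 3]

/-- the graph-field automorphism. -/
noncomputable def tdG2 (σ : K ≃+* K) (h2 : ∀ t, σ (σ t) ^ 3 = t) : TwData chevG2 K where
  p := 3
  φ := exG2
  hp := CharP.cast_eq_zero K 3
  σ := σ
  β := (exG2.exists_aut coxG2 (CharP.cast_eq_zero K 3) (exG2_bij fun x => ⟨_, h2 x⟩) σ).choose_spec.choose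
  hβ := (exG2.exists_aut coxG2 (CharP.cast_eq_zero K 3) (exG2_bij fun x => ⟨_, h2 x⟩) σ).choose_spec.choose_spec.2.1
  ρ := rhoG2
  hρ := rhoG2_M
  hι := by decide +kernel

/-- the folding. -/
def foG2 : Fold (rs chevG2).M (Fin 1) := foldG2

theorem classG2 : ∀ k, ClassOK chevG2 (foG2.J k) [7, 6, 8, 9, 10, 11] := by decide +kernel

theorem hFG2 (σ : K ≃+* K) (h2 : ∀ t, σ (σ t) ^ 3 = t) : ∀ w, permW (tdG2 σ h2).hρ w = w → w ∈ foG2.W1 := fun _ h => h

theorem g2_reorder (A B C D E G : K) : wordG chevG2 [(6, A), (7, B), (10, C), (11, D), (8, E), (9, G)] =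
    wordG chevG2 [(7, B), (6, A), (8, B * A + E), (9, B ^ 2 * A + G), (10, C - B ^ 3 * A), (11, D - B ^ 3 * A ^ 2)] := by
  have h1 := xN_comm (D := chevG2) (r := 7) (s := 6) (by decide +kernel) B A
  rw [commWord, show chevG2.commTerms 7 6 = [(8, -1, 1, 1), (9, 1, 2, 1), (10, 1, 3, 1), (11, 1, 3, 2)] by
    decide +kernel] at h1
  have h2 : ∀ a ∈ [8, 9, 10, 11], ∀ b ∈ [8, 9, 10, 11], ∀ t u : K, Commute (xN chevG2 a t) (xN chevG2 b u) :=
    fun a ha b hb => xN_commute (CharP.cast_eq_zero K 3) (by revert a b; decide +kernel)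
  have h3 : ∀ a ∈ [8, 9, 10, 11], ∀ b ∈ [8, 9, 10, 11], ∀ (t u : K) (g : GL chevG2.Idx K),
      xN chevG2 a t * (xN chevG2 b u * g) = xN chevG2 b u * (xN chevG2 a t * g) :=
    fun a ha b hb t u g => (h2 a ha b hb t u).left_comm g
  have h4 : ∀ a (t u : K) (g : GL chevG2.Idx K), xN chevG2 a t * (xN chevG2 a u * g) = xN chevG2 a (t + u) * g :=
    fun a t u g => by rw [← mul_assoc, xN_add]
  simp only [List.map_cons, List.map_nil, wordG_cons, wordG_nil, Int.cast_neg, Int.cast_one,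
    one_mul, pow_one] at h1 ⊢
  rw [← mul_assoc, h1]
  simp only [mul_assoc, one_mul]
  rw [h3 11 (by simp) 10 (by simp), h4 11, h4 10, h3 11 (by simp) 8 (by simp), h3 10 (by simp) 8 (by simp),
    h3 9 (by simp) 8 (by simp), h4 8, h3 11 (by simp) 9 (by simp), h3 10 (by simp) 9 (by simp), h4 9]
  congr 4
  · ring
  congr 1
  · congr 1; ring
  congr 1
  · congr 1; ring
  congr 2; ring

section
variable {σ : K ≃+* K} {e : ℕ} (hσ : ∀ t, σ t = t ^ e) (h2 : ∀ t, σ (σ t) ^ 3 = t)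
include hσ h2

omit h2 in
theorem reeWordU_eq (t u v : K) : reeWordU e t u v =
    [(7, σ t), (6, t), (8, σ t * t + σ u), (9, σ t ^ 2 * t + σ v), (10, u), (11, v)] := by
  simp only [hσ, ← pow_succ, ← pow_mul']; rfl

theorem wordsG2 : (tdG2 σ h2).WordsOK foG2 (g2Words K e) fun _ w => ∃ t u v, w = reeWordU e t u v where
  cls k x := by
    refine ((tdG2 σ h2).mem_class foG2 (classG2 k)).trans ?_
    have he : (exG2.ι 7 = 6 ∧ exG2.γ 7 = 1 ∧ exG2.e 7 = 3) ∧ (exG2.ι 6 = 7 ∧ exG2.γ 6 = 1 ∧ exG2.e 6 = 1) ∧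
      (exG2.ι 8 = 10 ∧ exG2.γ 8 = 1 ∧ exG2.e 8 = 3) ∧ (exG2.ι 9 = 11 ∧ exG2.γ 9 = 1 ∧ exG2.e 9 = 3) ∧
      (exG2.ι 10 = 8 ∧ exG2.γ 10 = 1 ∧ exG2.e 10 = 1) ∧ (exG2.ι 11 = 9 ∧ exG2.γ 11 = 1 ∧ exG2.e 11 = 1) := by
      decide +kernel
    simp only [tdG2, List.map_cons, List.map_nil, he, Int.cast_one, one_mul, pow_one, g2_reorder, reeWordU_eq hσ]
    constructor
    · rintro ⟨t, rfl, h⟩
      have := wordG_unique (by simp) (by simp) (by exact (classG2 0).2.1) h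
      simp only [List.cons.injEq, Prod.mk.injEq, true_and, and_true] at this
      obtain ⟨e1, e2, e3, e4, -⟩ := this
      exact ⟨_, ⟨t 6, t 10, t 11, rfl⟩, by rw [← e3, ← e4, e2, e1]⟩
    · rintro ⟨_, ⟨t, u, v, rfl⟩, rfl⟩
      refine ⟨fun r => if r = 7 then σ t else if r = 6 then t else if r = 8 then σ t * t + σ u else
        if r = 9 then σ t ^ 2 * t + σ v else if r = 10 then u else v, by simp, ?_⟩
      have := Fact.mk Nat.prime_three
      simp [h2, add_pow_char, mul_pow, mul_comm t, pow_right_comm _ 2 3, mul_comm (t ^ 2)]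
  pos k w hw := by
    obtain ⟨t, u, v, rfl⟩ := hw
    exact ⟨(classG2 0).1, (classG2 0).2.1⟩
  gen w := ⟨fun ⟨t, u, v, h⟩ => ⟨0, _, ⟨t, u, v, rfl⟩, h⟩, fun ⟨_, _, ⟨t, u, v, h⟩, h'⟩ => ⟨t, u, v, by subst h; exact h'⟩⟩
  ne k := ⟨_, ⟨1, 0, 0, rfl⟩, (6, 1), by simp [reeWordU_eq hσ], one_ne_zero⟩

/-- the twisted group. -/
noncomputable def twG2 : Twist (sys chevG2 K) (Fin 1) := (wordsG2 hσ h2).tw (hFG2 σ h2)

theorem twG2_G1 : (twG2 hσ h2).G1 = twistedG2 K e := rfl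

theorem coreG2 : (((sys chevG2 K).Bo ⊓ twistedG2 K e).subgroupOf (twistedG2 K e)).normalCore = ⊥ := by
  refine (wordsG2 hσ h2).core (hFG2 σ h2) fun j => ⟨0, _, ⟨1, 0, 0, rfl⟩, 1, one_ne_zero, ?_⟩
  fin_cases j <;> simp [reeWordU_eq hσ] <;> decide +kernel

theorem psiG2 (i : Nd chevG2) (c : Kˣ) : (tdG2 σ h2).ψ i c = (c ^ e) ^ exG2.e (chevG2.simple i) := by
  ext
  rw [TwData.ψ_val]
  simp [tdG2, hσ]

theorem tauG2 {c : Fin 2 → Kˣ} : (tdG2 σ h2).τ c = c ↔ c 1 = (c 0 ^ e) ^ 3 ∧ c 0 = c 1 ^ e := by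
  refine (tdG2 σ h2).τ_eq_iff.trans ?_
  have he : ∀ i : Nd chevG2, exG2.e (chevG2.simple i) = [3, 1].getD i 0 := by decide +kernel
  simp only [psiG2 hσ h2, he]
  refine Fin.forall_fin_two.trans ?_
  exact and_congr Iff.rfl (Eq.congr_right (pow_one (c 1 ^ e)))

theorem unit_G2 (c : Kˣ) : ((c ^ e) ^ 3) ^ e = c := by
  ext; simp [← hσ, h2]

omit hσ h2 in
theorem kerG2 (c : Nd chevG2 → Kˣ) (h : hT chevG2 c = 1) : c = 1 :=
  funext fun i => (((certG2.iff_mul c).1 (hT_eq_one_iff.1 h)).2 i).trans (by simp)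

omit hσ h2 in
theorem chiG2 (c : Fin 2 → Kˣ) (r : ℕ) : chi chevG2 c r = c 0 ^ chevG2.cartan 0 r * c 1 ^ chevG2.cartan 1 r :=
  (congrArg Units.val (Fin.prod_univ_two fun i => c i ^ chevG2.cartan i r)).trans (by simp)

theorem hT_negG2 : hT chevG2 (fun _ => -1) ∈ twistedG2 K e := by
  have key : ∀ (t u v : K) (w : List (ℕ × ℤ)), wordG chevG2 (reeWordV e t u v) =
      wordG chevG2 (w.map fun p => (p.1, (p.2 : K))) → (t ≠ 0 ∨ u ≠ 0) →
      ∃ m ∈ twistedG2 K e, (sys chevG2 K).Rep m (foG2.g 0) ∧ m.1 (Sum.inr ⟨0, by decide⟩) (Sum.inr ⟨11, by decide⟩) =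
        ((wordG chevG2 w).1 (Sum.inr ⟨0, by decide⟩) (Sum.inr ⟨11, by decide⟩) : ℤ) := by
    intro t u v w hw h0
    have hW := wordsG2 hσ h2
    obtain ⟨h3, h4⟩ := (hW.cls 0 _).2 ⟨_, ⟨t, u, v, rfl⟩, rfl⟩
    have h5 := (hW.hc 0 _ h3 h4).2
    obtain ⟨m, -, hm, a, ha, ha', b, hb, hb', he⟩ := (twG2 hσ h2).bruhat_Vp (faithful _ _)
      ((tdG2 σ h2).omega_mem_Fx h3) (TwData.omega_Um foG2 h4) (fun h => by
        rw [mul_inv_eq_iff_eq_mul, one_mul, mul_eq_left] at h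
        have := eq_zero_of_wordG (by exact (classG2 0).1) (by exact (classG2 0).2.1) h
        rcases h0 with h0 | h0
        · exact h0 (this (6, t) (by simp [reeWordU_eq hσ]))
        · exact h0 (this (10, u) (by simp [reeWordU_eq hσ])))
    refine ⟨m, ?_, hm, ?_⟩
    · rw [he] at h5
      exact (mul_mem_cancel_left ha).1 ((mul_mem_cancel_right hb).1 h5)
    · rw [← corner_entry ((sys chevG2 K).Um_le_U _ ha') ((sys chevG2 K).Um_le_U _ hb') (by decide +kernel)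
        (by decide +kernel), ← he, hW.omega (k := 0) ⟨t, u, v, rfl⟩, ← wordG_intCast, ← hw]
      rfl
  have e0 : chevG2.negIdx.getD 7 0 = 4 ∧ chevG2.negIdx.getD 6 0 = 5 ∧ chevG2.negIdx.getD 8 0 = 3 ∧
    chevG2.negIdx.getD 9 0 = 2 ∧ chevG2.negIdx.getD 10 0 = 1 := by decide +kernel
  obtain ⟨m, hm, hr, he⟩ := key 1 0 0 [(4, -1), (5, -1), (3, -1), (2, -1)]
    (by simp [reeWordV, reeWordU_eq hσ, negWord, -Array.getD_eq_getD_getElem?, e0]) (by simp)
  obtain ⟨m', hm', hr', he'⟩ := key 0 1 0 [(3, -1), (1, -1)]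
    (by simp [reeWordV, reeWordU_eq hσ, negWord, -Array.getD_eq_getD_getElem?, e0]) (by simp)
  rw [show (wordG chevG2 [(4, (-1 : ℤ)), (5, -1), (3, -1), (2, -1)]).1 (Sum.inr ⟨0, by decide⟩)
    (Sum.inr ⟨11, by decide⟩) = -2 by decide +kernel] at he
  rw [show (wordG chevG2 [(3, (-1 : ℤ)), (1, -1)]).1 (Sum.inr ⟨0, by decide⟩)
    (Sum.inr ⟨11, by decide⟩) = -1 by decide +kernel] at he'
  obtain ⟨c, hc⟩ := mem_diag.1 (hr.mul_inv_mem hr')
  have h1 : hT chevG2 c ∈ twistedG2 K e := hc ▸ mul_mem hm (inv_mem hm')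
  have h3 := (tauG2 hσ h2).1 ((injective_iff_map_eq_one _).2 kerG2
    ((tdG2 σ h2).hT_mem_Fx.1 ((twG2 hσ h2).G1_le h1)))
  rw [mul_inv_eq_iff_eq_mul.1 hc.symm, hT_mul_entry, he'] at he
  replace he := (congrArg (· * _) (chiG2 c 0)).symm.trans he
  rw [show chevG2.cartan 0 0 = 0 by decide +kernel, show chevG2.cartan 1 0 = -1 by decide +kernel] at he
  have h4 : (3 : K) = 0 := CharP.cast_eq_zero K 3
  have h5 : ∀ c : Fin 2 → Kˣ, c 0 = c 1 ^ e → ((c 1 : K))⁻¹ = 2 → c = fun _ => -1 := fun c h6 h7 => by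
    have h8 : c 1 = -1 := Units.ext (inv_injective (by rw [h7]; simp; linear_combination h4))
    funext i
    fin_cases i
    · ext
      simp [h6, h8, ← hσ]
    · exact h8
  exact h5 c h3.2 (by simpa using he) ▸ h1

theorem hT_memG2 [Fintype K] (h4 : Fintype.card K % 4 = 3) (c : Nd chevG2 → Kˣ) (hc : (tdG2 σ h2).τ c = c) :
    hT chevG2 c ∈ twistedG2 K e := by
  obtain ⟨k, hk⟩ : ∃ k, Fintype.card K = 4 * k + 3 := ⟨Fintype.card K / 4, by omega⟩
  have h1 : ∀ d : Fin 2 → Kˣ, (tdG2 σ h2).τ d = d → d ^ 2 = 1 → hT chevG2 d ∈ twistedG2 K e := fun d h5 h6 => by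
    have h7 := ((tauG2 hσ h2).1 h5).2
    have h8 : (d 1 : K) ^ 2 = 1 := congrArg Units.val (congrFun h6 1)
    rcases sq_eq_one_iff.1 h8 with h | h
    · have : d = 1 := by
        funext i; ext; fin_cases i <;> simp [h7, h]
      rw [this]; exact (map_one (hT chevG2 (A := K))).symm ▸ one_mem _
    · have : d = fun _ => -1 := by
        funext i; ext; fin_cases i <;> simp [h7, h, ← hσ]
      rw [this]; exact hT_negG2 hσ h2
  have h5 := h1 (c ^ (2 * k + 1)) (by rw [map_pow, hc]) (by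
    funext i
    have := FiniteField.pow_card_sub_one_eq_one _ (c i).ne_zero
    rw [hk, show 4 * k + 3 - 1 = (2 * k + 1) * 2 by omega] at this
    exact Units.ext ((pow_mul (c i : K) _ 2).symm.trans this))
  have h6 := (tdG2 σ h2).sq_mem_G1 (twG2 hσ h2) rfl ((wordsG2 hσ h2).tw_gen _)
    (l := ([0, 1, 0, 1, 0, 1] : List (Fin 2))) (foG2.g_mem_W1 0) (by decide +kernel)
    (hT_mem (c ^ (k + 1))) ((tdG2 σ h2).hT_mem_Fx.2 (by rw [map_pow, hc]))
  rw [← map_pow, ← pow_mul, show (k + 1) * 2 = 2 * k + 1 + 1 by ring, pow_succ, map_mul] at h6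
  exact (mul_mem_cancel_left h5).1 h6

theorem card_fixG2 [Fintype K] : Nat.card {c // (tdG2 σ h2).τ c = c} = Fintype.card K - 1 := by
  let f : {c : Fin 2 → Kˣ // (tdG2 σ h2).τ c = c} ≃ Kˣ :=
    { toFun := fun c => c.1 0
      invFun := fun p => ⟨![p, (p ^ e) ^ 3], (tauG2 hσ h2).2 ⟨rfl, (unit_G2 hσ h2 _).symm⟩⟩
      left_inv := fun c => by
        obtain ⟨h0, -⟩ := (tauG2 hσ h2).1 c.2
        ext1; ext1 i
        fin_cases i <;> simp [h0]
      right_inv := fun p => rfl }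
  refine (Nat.card_congr f).trans ?_
  rw [Nat.card_units, Nat.card_eq_fintype_card]

theorem cardH_G2 [Fintype K] (h4 : Fintype.card K % 4 = 3) :
    Nat.card ↥(chevG2.diagonalSubgroup K ⊓ twistedG2 K e) = Fintype.card K - 1 := by
  have h1 : Nat.card {c // (tdG2 σ h2).τ c = c ∧ hT chevG2 c = 1} = 1 :=
    Nat.card_eq_one_iff_exists.2 ⟨⟨1, map_one _, map_one _⟩, fun c => Subtype.ext (kerG2 _ c.2.2)⟩
  rw [← card_fixG2 hσ h2, ← one_mul (Nat.card _), ← h1]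
  exact (tdG2 σ h2).card_H1 (twG2 hσ h2).G1_le (hT_memG2 hσ h2 h4) ((tdG2 σ h2).lift_of_inj kerG2)

theorem card_classG2 [Fintype K] (k : Fin 1) :
    Nat.card ↥((twG2 hσ h2).Fx ⊓ (sys chevG2 K).Um ((twG2 hσ h2).F.g k)) = Fintype.card K ^ expG2 k :=
  ((wordsG2 hσ h2).card_class k (fun t : K × K × K => reeWordU e t.1 t.2.1 t.2.2) (by simp)
    (fun a b h => by
      simp only [reeWordU_eq hσ, List.cons.injEq, Prod.mk.injEq, true_and, and_true] at h
      exact Prod.ext h.2.1 (Prod.ext h.2.2.2.2.1 h.2.2.2.2.2)) (fun _ _ => rfl)).trans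
    (by fin_cases k; simp [expG2, pow_three])

theorem cardU_G2 [Fintype K] : Nat.card ↥(chevG2.posUnipotent K ⊓ twistedG2 K e) = Fintype.card K ^ 3 := by
  rw [← sys_U]
  exact (twG2 hσ h2).card_U1 (faithful _ _) (card_classG2 hσ h2) len_foldG2 two_pos
    fun w hw => (len_longest hw).trans (by decide)

theorem mem_U_G2 (g : GL chevG2.Idx K) : g ∈ chevG2.posUnipotent K ⊓ twistedG2 K e ↔
    ∃ t u v : K, (g : Matrix chevG2.Idx chevG2.Idx K) = chevG2.wordMat K (reeWordU e t u v) := by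
  have hW := wordsG2 hσ h2
  simp only [eq_wordG_iff]
  rw [← sys_U, ← Sys.Um_longest (w := foG2.g 0) fun j => foG2.desc_g 0 ((by decide +kernel : ∀ j, j ∈ foG2.J 0) j)]
  constructor
  · rintro ⟨h3, h4⟩
    obtain ⟨_, ⟨t, u, v, rfl⟩, rfl⟩ := (hW.cls 0 g).1 ⟨(twG2 hσ h2).G1_le h4, h3⟩
    exact ⟨t, u, v, rfl⟩
  · rintro ⟨t, u, v, rfl⟩
    obtain ⟨h3, h4⟩ := (hW.cls 0 _).2 ⟨_, ⟨t, u, v, rfl⟩, rfl⟩
    exact ⟨h4, (hW.hc 0 _ h3 h4).1⟩

theorem cardG_G2 [Fintype K] (h4 : Fintype.card K % 4 = 3) {q : ℕ} (hK : Fintype.card K = q) :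
    Nat.card ↥(twistedG2 K e) = q ^ 3 * (q - 1) * (q ^ 3 + 1) := by
  have h1 : Nat.card (twistedG2 K e) = Nat.card ↥((sys chevG2 K).U ⊓ twistedG2 K e) *
      Nat.card ↥(chevG2.diagonalSubgroup K ⊓ twistedG2 K e) * chainPoly (Fintype.card K) tchainG2 :=
    (twG2 hσ h2).card_G1_chain (faithful _ _) cartanG2 (card_classG2 hσ h2) chk_tchainG2 all_tchainG2
  have h5 := tpolyG2 q
  have hq : 0 < q := hK ▸ Fintype.card_pos
  rw [← chainPoly_cast] at h5
  rw [h1, sys_U, cardU_G2 hσ h2, cardH_G2 hσ h2 h4, hK]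
  zify [hq]
  linear_combination (q : ℤ) ^ 3 * h5

theorem perfectG2 [Fintype K] (h4 : Fintype.card K % 4 = 3) (hK : 3 < Fintype.card K) :
    commutator (twistedG2 K e) = ⊤ := by
  obtain ⟨a, ha⟩ := exists_unit_pow_ne_one (K := K) two_pos hK
  have ha2 : (a : K) ^ 2 ≠ 1 := fun h => ha (Units.ext h)
  have ha0 := a.ne_zero
  obtain ⟨b, hb⟩ : ∃ b, b = σ a ^ 3 := ⟨_, rfl⟩
  have hb0 : b ≠ 0 := by simp [hb]
  have key : ∀ i j : ℕ, (a : K) ^ i = b ^ j → b ^ i = a ^ (3 * j) := fun i j h => by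
    have h3 := congrArg (fun x => σ x ^ 3) h
    simp only [map_pow, hb, h2] at h3
    rw [hb, pow_right_comm, h3, pow_right_comm, pow_mul]
  refine (twG2 hσ h2).perfect (faithful _ _) ((wordsG2 hσ h2).tw_gen _) fun k x hx hx' =>
    class_le_der_of_chi _ k (classG2 k) (hT_memG2 hσ h2 h4 ![a, (a ^ e) ^ 3]
      ((tauG2 hσ h2).2 ⟨rfl, (unit_G2 hσ h2 _).symm⟩)) ?_ hx hx'
  have : (chevG2.cartan 0 7 = 2 ∧ chevG2.cartan 0 6 = -3 ∧ chevG2.cartan 0 8 = -1 ∧ chevG2.cartan 0 9 = 1 ∧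
      chevG2.cartan 0 10 = 3 ∧ chevG2.cartan 0 11 = 0) ∧ chevG2.cartan 1 7 = -1 ∧ chevG2.cartan 1 6 = 2 ∧
      chevG2.cartan 1 8 = 1 ∧ chevG2.cartan 1 9 = 0 ∧ chevG2.cartan 1 10 = -1 ∧ chevG2.cartan 1 11 = 1 := by
    decide +kernel
  simp [chiG2, this, ← hσ, ← hb, -sq_eq_one_iff, zpow_ofNat, mul_inv_eq_one₀, inv_mul_eq_one₀, ha0, hb0]
  have hab : σ b = a := by rw [hb, map_pow, h2]
  have h5 : b ≠ 1 := fun h => ha2 (by rw [← hab, h]; simp)
  refine ⟨fun h => ?_, fun h => ?_, fun h => ?_, fun h => ha (by simp [h]), fun h => ?_, h5⟩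
  · have := key 2 1 (by rw [h, pow_one])
    rw [← h] at this
    exact ha2 (mul_left_cancel₀ (pow_ne_zero 3 ha0) (by linear_combination (a + 1) * this))
  · exact h5 (mul_left_cancel₀ (pow_ne_zero 3 hb0) (by linear_combination - key 3 2 h - (a ^ 3 + b ^ 2) * h))
  · have := key 1 1 (by rw [h])
    rw [← h] at this
    exact ha2 (mul_left_cancel₀ ha0 (by linear_combination - this))
  · have : b ^ 2 = 1 := mul_left_cancel₀ hb0 (by linear_combination key 3 1 (by rw [h, pow_one]) + h)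
    exact ha2 (by rw [← hab, ← map_pow, this, map_one])

theorem simpleG2 [Fintype K] (h4 : Fintype.card K % 4 = 3) (hK : 3 < Fintype.card K) :
    IsSimpleGroup (twistedG2 K e) ∧ ¬ IsMulCommutative (twistedG2 K e) :=
  (twG2 hσ h2).isSimpleGroup (faithful _ _) (conn_of_tree _ 0 (fun k => k.1) conn_foldG2) (coreG2 hσ h2)
    isSolvable_sys_Bo (perfectG2 hσ h2 h4 hK)

end

theorem three_pow_odd_mod (m : ℕ) : 3 ^ (2 * m + 1) % 4 = 3 := by
  rw [pow_succ, pow_mul, Nat.mul_mod, Nat.pow_mod]; simp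

end CA.ChevSys

theorem CA.realizeEqns_TwG2 : True := by
  have := @CA.ChevSys.tdG2.eq_1.{0}
  have := @CA.ChevSys.tdG2.eq_def.{0}
  have := @CA.ChevSys.tdG2.congr_simp.{0}
  have := @CA.ChevSys.foG2.eq_1
  have := @CA.ChevSys.foG2.eq_def
  have := @CA.ChevSys.foG2.congr_simp
  have := @CA.ChevSys.Up1.eq_1.{0}
  have := @CA.ChevSys.Up1.eq_def.{0}
  have := @CA.ChevSys.Up1.congr_simp.{0}
  have := @CA.ChevSys.twG2.eq_1.{0}
  have := @CA.ChevSys.twG2.eq_def.{0}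
  have := @CA.ChevSys.twG2.congr_simp.{0}
  trivial
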